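import Cfsg.Agent.H3.FischerBig

/-! Fischer's classification: subspaces of a Fischer space and their types. -/

set_option autoImplicit false

namespace Cfsg.Agent.H3.TTC

open Matrix Cfsg.Agent.H6

variable {G : Type*} [Group G] {T : TTC G}

/-- closed sets of points -/
def Cl (X : Set T.Pt) : Prop := ∀ a ∈ X, ∀ b ∈ X, a ◃ b ∈ X

/-- the group generated by a set of points -/
def gp (X : Set T.Pt) : Subgroup G := Subgroup.closure (Pt.val '' X)

/-- the pointwise stabilizer -/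
def fx (X : Set T.Pt) : Subgroup G := fixingSubgroup G X

/-- the order of the permutation group induced on `X` by `gp X` -/
noncomputable def cq (X : Set T.Pt) : ℕ := (fx X).relIndex (gp X)

/-- the residue of `d` -/
def Rs (X : Set T.Pt) (d : T.Pt) : Set T.Pt := {x | x ∈ X ∧ x ≠ d ∧ cm d x}

/-- the points commuting with `d`, including `d` -/
def Pp (X : Set T.Pt) (d : T.Pt) : Set T.Pt := {x | x ∈ X ∧ cm d x}

/-- the points not commuting with `d` -/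
def Nc (X : Set T.Pt) (d : T.Pt) : Set T.Pt := {x | x ∈ X ∧ ¬ cm d x}

/-- the points commuting with `d` and `a` (used for noncommuting `d`, `a`) -/
def Mu (X : Set T.Pt) (d a : T.Pt) : Set T.Pt := {x | x ∈ X ∧ cm d x ∧ cm a x}

/-- the connected component of `y` in the commuting graph on `Y` -/
def Cp (Y : Set T.Pt) (y : T.Pt) : Set T.Pt :=
  {v | Relation.ReflTransGen (fun a b => b ∈ Y ∧ cm a b) y v}

/-- standard (closed, primitive, with commuting and noncommuting pairs) sets -/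
structure St (X : Set T.Pt) : Prop where
  cl : Cl X
  prim : ∀ r : T.Pt → T.Pt → Prop, Equivalence r →
    (∀ d ∈ X, ∀ a ∈ X, ∀ b ∈ X, r a b → r (d ◃ a) (d ◃ b)) →
    (∀ a ∈ X, ∀ b ∈ X, r a b → a = b) ∨ ∀ a ∈ X, ∀ b ∈ X, r a b
  ex_cm : ∃ a ∈ X, ∃ b ∈ X, a ≠ b ∧ cm a b
  ex_ncm : ∃ a ∈ X, ∃ b ∈ X, ¬ cm a b

/-- closed, nonempty sets on which the generated group is transitive -/
structure Cn (X : Set T.Pt) : Prop where
  cl : Cl X
  ne : X.Nonempty
  trans : ∀ a ∈ X, ∀ b ∈ X, ∃ g ∈ gp X, g • a = b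

/-- connected sets all of whose commuting components are standard -/
def Red (Y : Set T.Pt) : Prop := Cn Y ∧ ∀ y ∈ Y, St (Cp Y y)

/-- standard sets all of whose residues have type `P` -/
def Loc (P : Set T.Pt → Prop) (X : Set T.Pt) : Prop := St X ∧ ∀ d ∈ X, P (Rs X d)

/-- no three distinct pairwise commuting points -/
def NoTr (X : Set T.Pt) : Prop :=
  ∀ p ∈ X, ∀ q ∈ X, ∀ r ∈ X, p ≠ q → p ≠ r → q ≠ r → cm p q → cm p r → ¬ cm q r

/-- the parameters of the commuting graph -/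
structure Srg (X : Set T.Pt) (v k lam mu : ℕ) : Prop where
  st : St X
  card : X.ncard = v
  rs : ∀ d ∈ X, (Rs X d).ncard = k
  lam : ∀ d ∈ X, ∀ e ∈ Rs X d, (Rs (Rs X d) e).ncard = lam
  mu : ∀ d ∈ X, ∀ a ∈ Nc X d, (Mu X d a).ncard = mu

/-- there is a sign character: relations have even length -/
def Sg (X : Set T.Pt) : Prop :=
  ∀ L : List T.Pt, (∀ x ∈ L, x ∈ X) → (L.map Pt.val).prod = 1 → Even L.length

/-- the group generated by the points of `X` commuting with `x`, up to elements fixing `X` -/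
def InK (X : Set T.Pt) (x : T.Pt) (g : G) : Prop := ∃ h ∈ gp (Pp X x), ∀ p ∈ X, g • p = h • p

/-- the element of a triangle of the noncommuting graph; it fixes `x` -/
def tri (x y z : T.Pt) : G := (z ◃ x).val * (y ◃ z).val * (x ◃ y).val

/-- all triangle elements are generated locally -/
def Tri (X : Set T.Pt) : Prop :=
  ∀ x ∈ X, ∀ y ∈ X, ∀ z ∈ X, ¬ cm x y → ¬ cm y z → ¬ cm z x → InK X x (tri x y z)

/-- isomorphisms of Fischer spaces -/
structure FIso {G' : Type*} [Group G'] (T : TTC G) (T' : TTC G') extends T.Pt ≃ T'.Pt where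
  map_rf : ∀ a b, toFun (a ◃ b) = toFun a ◃ toFun b

/-- `X` is the set of isotropic points of a form in characteristic two -/
structure UE {ι : Type*} [Fintype ι] {F : Type*} [Field F] (τ : F ≃+* F) (A : Matrix ι ι F)
    (X : Set T.Pt) (ψ : T.Pt → ι → F) : Prop where
  cl : Cl X
  ne : ∀ p ∈ X, ψ p ≠ 0
  inj : ∀ p ∈ X, ∀ q ∈ X, Par (ψ p) (ψ q) → p = q
  cm_iff : ∀ p ∈ X, ∀ q ∈ X, cm p q ↔ sf (τ : F →+* F) A (ψ p) (ψ q) = 0
  rf : ∀ d ∈ X, ∀ p ∈ X, Par (ψ p + sf (τ : F →+* F) A (ψ p) (ψ d) • ψ d) (ψ (d ◃ p))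
  surj : ∀ v, v ≠ 0 → sf (τ : F →+* F) A v v = 0 → ∃ p ∈ X, Par (ψ p) v

/-- symplectic type -/
def SpE (n : ℕ) (X : Set T.Pt) : Prop :=
  ∃ ψ : T.Pt → Fin n ⊕ Fin n → ZMod 2, UE (RingEquiv.refl _) (J (Fin n) (ZMod 2)) X ψ

/-- unitary type -/
def UnE (n : ℕ) (X : Set T.Pt) : Prop := ∃ ψ : T.Pt → Fin n → F4, UE F4.τ 1 X ψ

/-- `X` is the set of transpositions on `ι` -/
structure SE {ι : Type*} (X : Set T.Pt) (p : ι → ι → T.Pt) : Prop where
  mem : ∀ i j, i ≠ j → p i j ∈ X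
  symm : ∀ i j, p i j = p j i
  surj : ∀ x ∈ X, ∃ i j, i ≠ j ∧ p i j = x
  inj : ∀ i j k l, i ≠ j → k ≠ l → p i j = p k l → (i = k ∧ j = l) ∨ (i = l ∧ j = k)
  cm_of : ∀ i j k l, i ≠ j → k ≠ l → i ≠ k → i ≠ l → j ≠ k → j ≠ l → cm (p i j) (p k l)
  rf : ∀ i j k, i ≠ j → j ≠ k → i ≠ k → p i j ◃ p j k = p i k

/-- symmetric type -/
def SyE (n : ℕ) (X : Set T.Pt) : Prop := ∃ p : Fin n → Fin n → T.Pt, SE X p

/-- the diagonal form `x₀ y₀ + ... + x_{n-2} y_{n-2} + η x_{n-1} y_{n-1}` over the field with three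
elements -/
def b3 (η : ZMod 3) {n : ℕ} (x y : Fin n → ZMod 3) : ZMod 3 :=
  ∑ i : Fin n, (if i.val + 1 = n then η else 1) * (x i * y i)

/-- `X` is the set of points of norm one of the form `b3 η` -/
structure OE (η : ZMod 3) (n : ℕ) (X : Set T.Pt) (ψ : T.Pt → Fin n → ZMod 3) : Prop where
  cl : Cl X
  norm : ∀ p ∈ X, b3 η (ψ p) (ψ p) = 1
  inj : ∀ p ∈ X, ∀ q ∈ X, ψ p = ψ q ∨ ψ p = -ψ q → p = q
  surj : ∀ v, b3 η v v = 1 → ∃ p ∈ X, ψ p = v ∨ ψ p = -v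
  cm_iff : ∀ p ∈ X, ∀ q ∈ X, p ≠ q → (cm p q ↔ b3 η (ψ p) (ψ q) = 0)
  rf : ∀ d ∈ X, ∀ p ∈ X, ψ (d ◃ p) = ψ p + b3 η (ψ p) (ψ d) • ψ d ∨
    ψ (d ◃ p) = -(ψ p + b3 η (ψ p) (ψ d) • ψ d)

/-- orthogonal type over the field with three elements -/
def O3 (η : ZMod 3) (n : ℕ) (X : Set T.Pt) : Prop := ∃ ψ, OE η n X ψ

/-- orthogonal type over the field with two elements -/
def O2 (n : ℕ) (X : Set T.Pt) : Prop := Loc (SpE n) X

/-- type `Fi22` -/
def F1 (X : Set T.Pt) : Prop := Loc (UnE 6) X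

/-- type `Fi23` -/
def F2 (X : Set T.Pt) : Prop := Loc F1 X

/-- type `Fi24` -/
def F3 (X : Set T.Pt) : Prop := Loc F2 X

/-- the number of isotropic points of the unitary space of dimension `n` -/
def uv : ℕ → ℕ
  | 0 => 0
  | 1 => 0
  | n + 2 => 1 + 4 * uv n + 2 * 4 ^ n

theorem uv_zero : uv 0 = 0 := rfl
theorem uv_one : uv 1 = 0 := rfl
theorem uv_add_two (n : ℕ) : uv (n + 2) = 1 + 4 * uv n + 2 * 4 ^ n := rfl

/-- no induced path with four vertices in the commuting graph -/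
def NoP4 (M : Set T.Pt) : Prop :=
  ∀ f ∈ M, ∀ e ∈ M, ∀ e' ∈ M, ∀ g ∈ M, f ≠ e → e ≠ e' → e' ≠ g → cm f e → cm e e' → cm e' g →
    ¬ cm f e' → ¬ cm e g → cm f g

end Cfsg.Agent.H3.TTC
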