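import Cfsg.Agent.Fs.ISpec
import Cfsg.Agent.Fs.ISp
import Cfsg.Agent.Fs.IUn
import Cfsg.Agent.Fs.ISym
import Cfsg.Agent.Fs.IO3
import Cfsg.Agent.Fs.IO3Top
import Cfsg.Agent.Fs.IO2
import Cfsg.Agent.Fs.IF
import Cfsg.Agent.Fs.IM
import Cfsg.Agent.Fs.IF3

/-! Fischer's classification. -/

set_option autoImplicit false

namespace Cfsg.Agent.H3.TTC

variable {G : Type*} [Group G] [Finite G] {T : TTC G}

/-- the list of types -/
def Ty (X : Set T.Pt) : Prop :=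
  (∃ n, 2 ≤ n ∧ SpE n X) ∨ (∃ n, 4 ≤ n ∧ UnE n X) ∨ (∃ n, 5 ≤ n ∧ SyE n X) ∨
    (∃ n, 2 ≤ n ∧ O2 n X) ∨ (∃ η n, (η = 1 ∨ η = -1) ∧ 5 ≤ n ∧ O3 η n X) ∨ F1 X ∨ F2 X ∨ F3 X

omit [Finite G] in
theorem F1.map {G' : Type*} [Group G'] {T' : TTC G'} (φ : FIso T T') {X : Set T.Pt} (h : F1 X) :
    F1 (φ.toEquiv '' X) := Loc.map φ (fun _ => UnE.map φ) h

omit [Finite G] in
theorem F2.map {G' : Type*} [Group G'] {T' : TTC G'} (φ : FIso T T') {X : Set T.Pt} (h : F2 X) :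
    F2 (φ.toEquiv '' X) := Loc.map φ (fun _ => F1.map φ) h

theorem ty_loc_sye {X : Set T.Pt} {n : ℕ} (hn : 5 ≤ n) (h : Loc (SyE n) X) : Ty X := by
  rcases loc_sye hn h with h1 | ⟨rfl, h1⟩
  · exact Or.inr (Or.inr (Or.inl ⟨n + 2, by omega, h1⟩))
  · exact Or.inr (Or.inr (Or.inr (Or.inr (Or.inl ⟨-1, 5, Or.inr rfl, le_rfl,
      loc_o3 (Or.inr rfl) (Or.inr ⟨rfl, rfl, h1⟩) ⟨h.1, fun d hd => (h.2 d hd).o3⟩⟩))))

theorem ty_loc_o3 {X : Set T.Pt} {η : ZMod 3} {n : ℕ} (hη : η = 1 ∨ η = -1) (hn : 5 ≤ n)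
    (h : Loc (O3 η n) X) : Ty X :=
  Or.inr (Or.inr (Or.inr (Or.inr (Or.inl ⟨η, n + 1, hη, by omega, loc_o3 hη (Or.inl hn) h⟩))))

theorem St.ty {X : Set T.Pt} (h : St X) : Ty X := by
  induction X using (wellFounded_lt (α := Set T.Pt)).induction with
  | h X ih =>
  obtain ⟨d, hd⟩ := h.cn.ne
  rcases h.di hd with hY | ⟨n, h1⟩ | h1 | h1
  rotate_left
  · exact Or.inl ⟨n, h1.two_le h, h1⟩
  · exact Or.inr (Or.inl h1)
  · exact Or.inr (Or.inr (Or.inl ⟨5, le_rfl, h.sye_five h1⟩))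
  rcases ih (Rs X d) ⟨fun x hx => hx.1, fun hs => (hs hd).2.1 rfl⟩ hY with
    ⟨n, hn, h1⟩ | ⟨n, hn, h1⟩ | ⟨n, hn, h1⟩ | ⟨n, hn, h1⟩ | ⟨η, n, hη, hn, h1⟩ | h1 | h1 | h1
  · exact Or.inr (Or.inr (Or.inr (Or.inl ⟨n, hn, h.loc_of_one (fun φ _ => SpE.map φ) hd h1⟩)))
  · have h2 := h.loc_of_one (P := UnE n) (fun φ _ => UnE.map φ) hd h1
    obtain rfl | rfl | h3 : n = 4 ∨ n = 6 ∨ (n = 5 ∨ 7 ≤ n) := by omega
    · exact ty_loc_o3 (Or.inl rfl) le_rfl ⟨h, fun d hd => (h2.2 d hd).o3⟩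
    · exact Or.inr (Or.inr (Or.inr (Or.inr (Or.inr (Or.inl h2)))))
    · exact absurd h2 (not_loc_un h3)
  · exact ty_loc_sye hn (h.loc_of_one (fun φ _ => SyE.map φ) hd h1)
  · obtain rfl | h3 : n = 2 ∨ 3 ≤ n := by omega
    · rcases h1.two with h2 | h2
      · exact ty_loc_sye (by norm_num) (h.loc_of_one (fun φ _ => SyE.map φ) hd h2)
      · exact ty_loc_o3 (Or.inr rfl) le_rfl (h.loc_of_one (fun φ _ => O3.map φ) hd h2)
    · exact absurd (h.loc_of_one (P := O2 n) (fun φ _ => Loc.map φ fun _ => SpE.map φ) hd h1)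
        (not_loc_o2 h3)
  · exact ty_loc_o3 hη hn (h.loc_of_one (fun φ _ => O3.map φ) hd h1)
  · exact Or.inr (Or.inr (Or.inr (Or.inr (Or.inr (Or.inr (Or.inl
      (h.loc_of_one (fun φ _ => F1.map φ) hd h1)))))))
  · exact Or.inr (Or.inr (Or.inr (Or.inr (Or.inr (Or.inr (Or.inr
      (h.loc_of_one (fun φ _ => F2.map φ) hd h1)))))))
  · exact absurd (h.loc_of_one (P := F3) (fun φ _ => Loc.map φ fun _ => F2.map φ) hd h1) not_loc_f3

theorem cq_univ (hZ : Subgroup.center G = ⊥) : cq (Set.univ : Set T.Pt) = Nat.card G := by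
  rw [cq, fx_univ, gp_univ, hZ, Subgroup.relIndex_top_right, Subgroup.index_bot]

theorem fischer [IsSimpleGroup G] (hna : ∃ x y : G, x * y ≠ y * x) (T : TTC G) :
    (∃ n : ℕ, Nonempty (G ≃* Matrix.symplecticGroup (Fin n) (ZMod 2))) ∨
    (∃ (F : Type) (_ : Field F) (_ : Fintype F) (n : ℕ), Fintype.card F = 4 ∧
      Nonempty (G ≃* Cfsg.PSU n F 2)) ∨
    (∃ m : ℕ, Nonempty (G ≃* Cfsg.POmega (ZMod 3) (Cfsg.quadFormOdd m (ZMod 3)))) ∨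
    Cfsg.IsFi22 G ∨ Cfsg.IsFi23 G := by
  have hZ : Subgroup.center G = ⊥ := by
    refine (Subgroup.Normal.eq_bot_or_eq_top inferInstance).resolve_right fun e => ?_
    obtain ⟨x, y, hxy⟩ := hna
    exact hxy (Subgroup.mem_center_iff.1 (e ▸ Subgroup.mem_top y) x)
  have hc : commutator G = ⊤ := by
    refine (Subgroup.Normal.eq_bot_or_eq_top inferInstance).resolve_left fun e => ?_
    obtain ⟨x, y, hxy⟩ := hna
    rw [commutator_def, Subgroup.commutator_eq_bot_iff_le_centralizer] at e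
    exact hxy (e (Subgroup.mem_top y) x (Subgroup.mem_top x))
  have hS : St (Set.univ : Set T.Pt) := st_univ_iff.2 (std_of_simple
    (by rw [hc]; exact Subgroup.topEquiv.isSimpleGroup) (by
      obtain ⟨x, y, hxy⟩ := hna
      exact ⟨⟨x, hc ▸ Subgroup.mem_top x⟩, ⟨y, hc ▸ Subgroup.mem_top y⟩,
        fun e => hxy (congrArg Subtype.val e)⟩))
  have hsg : ¬ Sg (Set.univ : Set T.Pt) := fun h => by
    obtain ⟨x, y, hxy⟩ := hna
    exact hxy (h.not_simple x y)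
  rcases hS.ty with ⟨n, -, h1⟩ | ⟨n, hn, h1⟩ | ⟨n, hn, h1⟩ | ⟨n, hn, h1⟩ | ⟨η, n, hη, hn, h1⟩ |
    h1 | h1 | h1
  · exact Or.inl ⟨n, h1.top hS hZ⟩
  · exact Or.inr (Or.inl ⟨F4, inferInstance, inferInstance, n, F4.card_eq, h1.top hn hZ⟩)
  · exact absurd (h1.sg hn) hsg
  · exact absurd (h1.sg hn) hsg
  · by_cases h2 : Even n ∨ η = -1
    · exact absurd (h1.sg hη hn h2) hsg
    · obtain ⟨m, rfl⟩ := Nat.not_even_iff_odd.1 fun e => h2 (Or.inl e)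
      obtain rfl : η = 1 := hη.resolve_right fun e => h2 (Or.inr e)
      exact Or.inr (Or.inr (Or.inl ⟨m, h1.top (by omega) hna⟩))
  · exact Or.inr (Or.inr (Or.inr (Or.inl ⟨inferInstance, cq_univ (T := T) hZ ▸ h1.cq⟩)))
  · exact Or.inr (Or.inr (Or.inr (Or.inr ⟨inferInstance, cq_univ (T := T) hZ ▸ h1.cq⟩)))
  · exact absurd (h1.sg hZ) hsg

end Cfsg.Agent.H3.TTC
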