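import Cfsg.Agent.Fs.PBaseC

/-! General theory: counting and components. -/

set_option autoImplicit false

namespace Cfsg.Agent.H3.TTC

variable {G : Type*} [Group G] {T : TTC G}

theorem ncard_double {α β : Type*} [Finite α] [Finite β] (A : Set α) (B : Set β) (r : α → β → Prop)
    {m n : ℕ} (hm : ∀ a ∈ A, {b | b ∈ B ∧ r a b}.ncard = m)
    (hn : ∀ b ∈ B, {a | a ∈ A ∧ r a b}.ncard = n) : A.ncard * m = B.ncard * n := by
  classical
  have := Finset.card_mul_eq_card_mul (s := (Set.toFinite A).toFinset)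
    (t := (Set.toFinite B).toFinset) r (m := m) (n := n) (fun a ha => by
      rw [← hm a (by simpa using ha), ← Set.ncard_coe_finset]
      congr 1; ext; simp [Finset.bipartiteAbove]) (fun b hb => by
      rw [← hn b (by simpa using hb), ← Set.ncard_coe_finset]
      congr 1; ext; simp [Finset.bipartiteBelow])
  rwa [← Set.ncard_eq_toFinset_card, ← Set.ncard_eq_toFinset_card] at this

variable [Finite G] {X : Set T.Pt}

theorem ncard_eq_rs_nc {d : T.Pt} (hd : d ∈ X) : X.ncard = 1 + (Rs X d).ncard + (Nc X d).ncard := by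
  have e : X = insert d (Rs X d) ∪ Nc X d := by
    ext x
    by_cases h1 : x = d
    · simp [h1, hd]
    · by_cases h2 : cm d x <;> simp [h1, h2, Rs, Nc]
  have h1 : Disjoint (insert d (Rs X d)) (Nc X d) := by
    rw [Set.disjoint_left]
    rintro x (rfl | hx) hx'
    · exact hx'.2 (cm_refl _)
    · exact hx'.2 hx.2.2
  conv_lhs => rw [e, Set.ncard_union_eq h1, Set.ncard_insert_of_notMem (fun h => h.2.1 rfl)]
  omega

theorem ncard_rs_split (X : Set T.Pt) {d a : T.Pt} (h : ¬ cm d a) :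
    (Rs X d).ncard = (Mu X d a).ncard + (Nc (Rs X d) a).ncard := by
  rw [← Set.ncard_union_eq (Set.disjoint_left.2 fun x h1 h2 => h2.2 h1.2.2)]
  congr 1
  ext x
  constructor
  · intro hx
    by_cases h2 : cm a x
    · exact Or.inl ⟨hx.1, hx.2.2, h2⟩
    · exact Or.inr ⟨hx, h2⟩
  · rintro (hx | hx)
    · exact mu_subset_rs h hx
    · exact hx.1

theorem Srg.nc {v k lam mu : ℕ} (h : Srg X v k lam mu) {d : T.Pt} (hd : d ∈ X) :
    v = 1 + k + (Nc X d).ncard := by rw [← h.card, ← h.rs d hd]; exact ncard_eq_rs_nc hd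

theorem Srg.nc_rs {v k lam mu : ℕ} (h : Srg X v k lam mu) {d e : T.Pt} (hd : d ∈ X)
    (he : e ∈ Rs X d) : k = 1 + lam + (Nc (Rs X d) e).ncard := by
  rw [← h.rs d hd, ← h.lam d hd e he]; exact ncard_eq_rs_nc he

theorem even_ncard_nc (hX : Cl X) {d : T.Pt} (hd : d ∈ X) : Even (Nc X d).ncard := by
  have := ncard_modEq_two (S := Nc X d) (d ◃ ·)
    (fun x hx => ⟨hX _ hd _ hx.1, by rw [cm_rf_self_left]; exact hx.2⟩) (fun x _ => rf_rf d x)
  rw [show {x | x ∈ Nc X d ∧ d ◃ x = x} = ∅ from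
    Set.eq_empty_of_forall_notMem fun x hx => rf_ne_right hx.1.2 hx.2, Set.ncard_empty] at this
  exact even_iff_two_dvd.2 (Nat.modEq_zero_iff_dvd.1 this)

theorem Srg.count {v k lam mu : ℕ} (h : Srg X v k lam mu) :
    ∃ l j, v = 1 + k + l ∧ k = 1 + lam + j ∧ k * j = mu * l ∧ 0 < mu ∧ mu ≤ k ∧ 0 < l ∧ Even l := by
  obtain ⟨d, hd⟩ := h.st.cn.ne
  obtain ⟨e, he⟩ := h.st.exists_cm hd
  obtain ⟨a, ha⟩ := h.st.exists_ncm hd
  refine ⟨_, _, h.nc hd, h.nc_rs hd he, ?_, ?_, ?_, (Set.ncard_pos).2 ⟨a, ha⟩,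
    even_ncard_nc h.st.cl hd⟩
  · rw [mul_comm mu, ← h.rs d hd]
    refine ncard_double _ _ cm (fun x hx => ?_) (fun x hx => ?_)
    · have h1 : (Nc (Rs X x) d).ncard = (Nc (Rs X d) e).ncard := by
        have := h.nc_rs hd he
        have := h.nc_rs hx.1 (e := d) ⟨hd, hx.2.1.symm, hx.2.2.symm⟩
        omega
      rw [← h1]
      congr 1
      ext y
      exact ⟨fun hy => ⟨⟨hy.1.1, fun e => hy.1.2 (e ▸ hx.2.2), hy.2⟩, hy.1.2⟩,
        fun hy => ⟨⟨hy.1.1, hy.2⟩, hy.1.2.2⟩⟩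
    · rw [← h.mu d hd x hx]
      congr 1
      ext y
      exact ⟨fun hy => ⟨hy.1.1, hy.1.2.2, hy.2.symm⟩, fun hy => ⟨mu_subset_rs hx.2 hy, hy.2.2.symm⟩⟩
  · rw [← h.mu d hd a ha]
    exact (Set.ncard_pos).2 (h.st.exists_cm_cm hd ha.1)
  · rw [← h.mu d hd a ha, ← h.rs d hd]
    exact Set.ncard_le_ncard (mu_subset_rs ha.2)

omit [Finite G] in
theorem cm_of_blockX (hX : Cl X) {r : T.Pt → T.Pt → Prop} (hr : Equivalence r)
    (hi : ∀ d ∈ X, ∀ a ∈ X, ∀ b ∈ X, r a b → r (d ◃ a) (d ◃ b)) {a a' b : T.Pt} (ha : a ∈ X)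
    (ha' : a' ∈ X) (hb : b ∈ X) (h : r a a') (hab : ¬ r a b) (hc : cm b a) : cm b a' := by
  by_contra hn
  have h1 : r a (b ◃ a') := by
    have := hi b hb _ ha _ ha' h
    rwa [hc.rf_eq] at this
  have h2 := hi a' ha' _ ha _ (hX _ hb _ ha') h1
  rw [rf_rf_swap hn] at h2
  have h3 := hi a' ha' _ ha _ ha' h
  rw [rf_self] at h3
  exact hab (hr.trans h (hr.trans (hr.symm h3) h2))

omit [Finite G] in
theorem cl_cp {Y : Set T.Pt} (hY : Cl Y) {y : T.Pt} (hy : y ∈ Y) : Cl (Cp Y y) := fun a ha b hb => by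
  have := smul_mem_cp (g := a.val) (fun x hx => hY a (cp_subset hy ha) x hx) (cp_eq hy ha ▸ hb)
  rwa [← rf_def, ← rf_def, rf_self, cp_eq hy ha] at this

theorem st_cp {Y : Set T.Pt} (hY : Cl Y) (hR : ∀ e ∈ Y, Red (Rs Y e)) {y : T.Pt} (hy : y ∈ Y) :
    St (Cp Y y) := by
  have hC := cl_cp hY hy
  have hsub : ∀ e ∈ Cp Y y, Rs Y e ⊆ Cp Y y := fun e he x hx => mem_cp_tail he hx.1 hx.2.2
  obtain ⟨z, hz⟩ := (hR y hy).1.ne
  refine ⟨hC, fun r hr hi => ?_, ⟨y, self_mem_cp _ _, z, hsub y (self_mem_cp _ _) hz, hz.2.1.symm,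
    hz.2.2⟩, ?_⟩
  swap
  · obtain ⟨a, ha, b, hb, hab⟩ := ((hR y hy).2 z hz).ex_ncm
    exact ⟨a, hsub y (self_mem_cp _ _) (cp_subset hz ha), b,
      hsub y (self_mem_cp _ _) (cp_subset hz hb), hab⟩
  by_contra hn
  push Not at hn
  obtain ⟨⟨a, ha, a', ha', hra, haa⟩, c, hc, c', hc', hcc⟩ := hn
  obtain ⟨b, hb, w, hw, rab, rw', hbw⟩ :
      ∃ b ∈ Cp Y y, ∃ w ∈ Cp Y y, r a b ∧ ¬ r a w ∧ cm b w := by
    by_contra hn
    push Not at hn
    have key : ∀ x ∈ Cp Y a, r a x := fun x hx => by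
      induction hx with
      | refl => exact hr.refl a
      | @tail u v h1 h2 ih =>
        by_contra e
        have hu : u ∈ Cp Y y := cp_eq hy ha ▸ h1
        exact hn u hu v (mem_cp_tail hu h2.1 h2.2) ih e h2.2
    rw [cp_eq hy ha] at key
    exact hcc (hr.trans (hr.symm (key c hc)) (key c' hc'))
  have rbw : ¬ r b w := fun e => rw' (hr.trans rab e)
  have hB : ∀ x ∈ Cp Y y, r b x → x ∈ Rs Y w := fun x hx e =>
    ⟨cp_subset hy hx, fun e' => rbw (e' ▸ e), cm_of_blockX hC hr hi hb hx hw e rbw hbw.symm⟩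
  have hbw' := hB b hb (hr.refl b)
  have hres : ∀ e ∈ Cp Y y, ∀ x ∈ Rs Y e, (∀ u ∈ Cp (Rs Y e) x, ∀ v ∈ Cp (Rs Y e) x, r u v → u = v) ∨
      ∀ u ∈ Cp (Rs Y e) x, ∀ v ∈ Cp (Rs Y e) x, r u v := fun e he x hx =>
    ((hR e (cp_subset hy he)).2 x hx).prim r hr fun d hd a ha b hb =>
      hi d (hsub e he (cp_subset hx hd)) a (hsub e he (cp_subset hx ha)) b
        (hsub e he (cp_subset hx hb))
  have hZ := (hR w (cp_subset hy hw)).2 b hbw'
  rcases hres w hw b hbw' with h1 | h1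
  · obtain ⟨b', hb', rb', hne⟩ : ∃ b' ∈ Cp Y y, r b b' ∧ b ≠ b' := by
      by_cases e : a = b
      · exact ⟨a', ha', e ▸ hra, e ▸ haa⟩
      · exact ⟨a, ha, hr.symm rab, Ne.symm e⟩
    obtain ⟨u, hu⟩ := hZ.exists_cm (self_mem_cp _ b)
    have huC := hsub w hw (cp_subset hbw' hu.1)
    have k := cm_of_blockX hC hr hi hb hb' huC rb'
      (fun e => hu.2.1 (h1 _ (self_mem_cp _ b) _ hu.1 e).symm) hu.2.2.symm
    exact hne (h1 _ (self_mem_cp _ b) _ (mem_cp_tail hu.1 (hB b' hb' rb') k) rb')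
  · obtain ⟨u, hu, v, hv, huv⟩ := hZ.two_le_rs (self_mem_cp _ b)
    have hwb : w ∈ Rs Y b := ⟨cp_subset hy hw, hbw'.2.1.symm, hbw⟩
    have m : ∀ u ∈ Rs (Cp (Rs Y w) b) b, u ∈ Cp (Rs Y b) w := fun u hu =>
      mem_cp_tail (self_mem_cp _ _) ⟨(cp_subset hbw' hu.1).1, hu.2⟩ (cp_subset hbw' hu.1).2.2
    rcases hres b hb w hwb with h2 | h2
    · exact huv (h2 u (m u hu) v (m v hv) (h1 u hu.1 v hv.1))
    · exact rbw (hr.trans (h1 b (self_mem_cp _ _) u hu.1) (h2 u (m u hu) w (self_mem_cp _ _)))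

omit [Finite G] in
theorem rf_notMem_cp {Y : Set T.Pt} (hY : Cl Y) {y c : T.Pt} (hy : y ∈ Y) (hc : c ∈ Y)
    (h : c ∉ Cp Y y) : ¬ cm y c ∧ y ◃ c ∉ Cp Y y ∧ y ◃ c ∉ Cp Y c := by
  have h1 : ¬ cm y c := fun e => h (mem_cp_tail (self_mem_cp _ _) hc e)
  refine ⟨h1, fun e => h ?_, fun e => h (cp_symm hc ?_)⟩
  · have := cl_cp hY hy _ (self_mem_cp _ _) _ e
    rwa [rf_rf] at this
  · have := cl_cp hY hc _ (self_mem_cp _ _) _ e
    rwa [rf_rf_swap h1] at this

omit [Finite G] in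
theorem image_cp {Y : Set T.Pt} (hY : Cl Y) {x : T.Pt} (hx : x ∈ Y) (y : T.Pt) :
    (x ◃ ·) '' Cp Y y = Cp Y (x ◃ y) := by
  ext v
  constructor
  · rintro ⟨u, hu, rfl⟩
    exact smul_mem_cp (g := x.val) (fun z hz => hY x hx z hz) hu
  · intro hv
    have := smul_mem_cp (g := x.val) (fun z hz => hY x hx z hz) hv
    rw [← rf_def, ← rf_def, rf_rf] at this
    exact ⟨_, this, rf_rf _ _⟩

theorem ncard_cp_eq {Y : Set T.Pt} (hY : Cl Y) {y c : T.Pt} (hy : y ∈ Y) (hc : c ∈ Y) :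
    (Cp Y c).ncard = (Cp Y y).ncard := by
  by_cases h : c ∈ Cp Y y
  · rw [cp_eq hy h]
  · have := image_cp hY (hY _ hy _ hc) y
    rw [rf_rf_self (rf_notMem_cp hY hy hc h).1] at this
    rw [← this, Set.ncard_image_of_injective _ fun _ _ => rf_left_cancel]

theorem odd_comp {Y : Set T.Pt} (hY : Cl Y) {y : T.Pt} (hy : y ∈ Y) :
    ∃ m, Odd m ∧ Y.ncard = m * (Cp Y y).ncard := by
  refine ⟨(Cp Y '' Y).ncard, ?_, ?_⟩
  · have := ncard_modEq_two (S := Cp Y '' Y) (fun C => (y ◃ ·) '' C)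
      (by rintro _ ⟨c, hc, rfl⟩; exact ⟨_, hY _ hy _ hc, (image_cp hY hy c).symm⟩)
      (fun C _ => by simp only [Set.image_image, rf_rf, Set.image_id'])
    rw [show {C | C ∈ Cp Y '' Y ∧ (y ◃ ·) '' C = C} = {Cp Y y} by
      ext C
      constructor
      · rintro ⟨⟨c, hc, rfl⟩, e⟩
        by_contra hne
        have h : c ∉ Cp Y y := fun h => hne (cp_eq hy h)
        rw [image_cp hY hy] at e
        exact (rf_notMem_cp hY hy hc h).2.2 (e ▸ self_mem_cp _ _)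
      · rintro rfl
        exact ⟨⟨y, hy, rfl⟩, by rw [image_cp hY hy, rf_self]⟩, Set.ncard_singleton] at this
    exact Nat.odd_iff.2 this
  · have := ncard_double Y (Cp Y '' Y) (fun a C => a ∈ C) (m := 1) (n := (Cp Y y).ncard)
      (fun a ha => by
        rw [← Set.ncard_singleton (Cp Y a)]
        congr 1
        ext C
        constructor
        · rintro ⟨⟨c, hc, rfl⟩, e⟩
          exact (cp_eq hc e).symm
        · rintro rfl
          exact ⟨⟨a, ha, rfl⟩, self_mem_cp _ _⟩) (by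
        rintro _ ⟨c, hc, rfl⟩
        rw [← ncard_cp_eq hY hy hc]
        congr 1
        ext a
        exact ⟨fun h => h.2, fun h => ⟨cp_subset hc h, h⟩⟩)
    rwa [mul_one] at this

/-- components of closed sets with reduced residues -/
theorem mu_comp {Y : Set T.Pt} (hY : Cl Y) (hR : ∀ e ∈ Y, Red (Rs Y e)) {y : T.Pt} (hy : y ∈ Y) :
    St (Cp Y y) ∧ ∃ m, Odd m ∧ Y.ncard = m * (Cp Y y).ncard := ⟨st_cp hY hR hy, odd_comp hY hy⟩

/-- closed sets with reduced residues are reduced -/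
theorem red_of_rs {Y : Set T.Pt} (hY : Cl Y) (hne : Y.Nonempty) (hR : ∀ e ∈ Y, Red (Rs Y e)) :
    Red Y := by
  refine ⟨⟨hY, hne, fun a ha b hb => ?_⟩, fun y hy => st_cp hY hR hy⟩
  by_cases h : b ∈ Cp Y a
  · obtain ⟨g, hg, e⟩ := (st_cp hY hR ha).cn.trans a (self_mem_cp _ _) b h
    exact ⟨g, gp_mono (cp_subset ha) hg, e⟩
  · exact ⟨_, mem_gp (hY _ ha _ hb), smul_eq_of_ncm (rf_notMem_cp hY ha hb h).1⟩

omit [Finite G] in
theorem Sg.not_simple (h : Sg (Set.univ : Set T.Pt)) [IsSimpleGroup G] (x y : G) :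
    x * y = y * x := by
  let E : Subgroup G :=
    { carrier := {g | ∃ L : List T.Pt, Even L.length ∧ (L.map Pt.val).prod = g}
      one_mem' := ⟨[], by simp, by simp⟩
      mul_mem' := by
        rintro _ _ ⟨L, h1, rfl⟩ ⟨M, h2, rfl⟩
        exact ⟨L ++ M, by simpa using h1.add h2, by simp⟩
      inv_mem' := by
        rintro _ ⟨L, h1, rfl⟩
        exact ⟨L.reverse, by simpa using h1, by
          simp [List.prod_inv_reverse, List.map_reverse, Function.comp_def, Pt.inv_val]⟩ }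
  have hall : ∀ g : G, ∃ L : List T.Pt, (L.map Pt.val).prod = g := fun g => by
    obtain ⟨L, -, e⟩ := exists_list_of_mem_gp (X := Set.univ) (gp_univ (T := T) ▸ Subgroup.mem_top g)
    exact ⟨L, e⟩
  have hN : E.Normal := ⟨by
    rintro _ ⟨L, h1, rfl⟩ g
    obtain ⟨M, rfl⟩ := hall g
    exact ⟨M ++ L ++ M.reverse, by
      simp only [List.length_append, List.length_reverse]
      obtain ⟨k, hk⟩ := h1
      exact ⟨M.length + k, by omega⟩, by
      simp [List.prod_inv_reverse, List.map_reverse, Function.comp_def, Pt.inv_val, mul_assoc]⟩⟩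
  rcases hN.eq_bot_or_eq_top with e | e
  · have key : ∀ a b : T.Pt, a.val = b.val := fun a b => by
      have : a.val * b.val ∈ E := ⟨[a, b], by simp, by simp⟩
      rw [e, Subgroup.mem_bot] at this
      rw [eq_inv_of_mul_eq_one_left this, b.inv_val]
    have h1 : ∀ g : G, ∀ a : T.Pt, Commute g a.val := fun g a =>
      commute_iff_smul_eq.2 (Pt.ext (key _ _))
    exact Subgroup.mem_center_iff.1 (mem_center_of_forall_commute (h1 y)) x
  · by_cases hne : Nonempty T.Pt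
    · obtain ⟨a⟩ := hne
      obtain ⟨L, h1, h2⟩ : a.val ∈ E := e ▸ Subgroup.mem_top _
      have := h (a :: L) (fun _ _ => trivial) (by simp [h2, a.mul_self])
      simp only [List.length_cons, Nat.even_add_one] at this
      exact absurd h1 this
    · exact Subgroup.mem_center_iff.1
        (mem_center_of_forall_commute (T := T) fun a => absurd ⟨a⟩ hne) x

end Cfsg.Agent.H3.TTC
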