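import Cfsg.Agent.Fs.Defs

/-! General theory, elementary part. -/

set_option autoImplicit false

namespace Cfsg.Agent.H3.TTC

variable {G : Type*} [Group G] {T : TTC G}

theorem mem_gp {X : Set T.Pt} {x : T.Pt} (h : x ∈ X) : x.val ∈ gp X :=
  Subgroup.subset_closure ⟨x, h, rfl⟩

theorem gp_mono {X Y : Set T.Pt} (h : X ⊆ Y) : gp X ≤ gp Y :=
  Subgroup.closure_mono (Set.image_mono h)

theorem gp_univ : gp (Set.univ : Set T.Pt) = ⊤ := by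
  rw [gp, ← T.gen]
  congr 1
  ext x
  exact ⟨fun ⟨p, _, e⟩ => e ▸ p.mem, fun h => ⟨⟨x, h⟩, trivial, rfl⟩⟩

theorem mem_fx {X : Set T.Pt} {g : G} : g ∈ fx X ↔ ∀ x ∈ X, g • x = x := by
  rw [fx, mem_fixingSubgroup_iff]

theorem fx_univ : fx (Set.univ : Set T.Pt) = Subgroup.center G := by
  rw [← ker_toPermHom (T := T)]
  ext g
  rw [mem_fx, MonoidHom.mem_ker]
  exact ⟨fun h => Equiv.ext fun x => h x trivial, fun h x _ => congrArg (· x) h⟩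

theorem gp_induction {X : Set T.Pt} {P : G → Prop} (h1 : P 1)
    (h : ∀ x ∈ X, ∀ g ∈ gp X, P g → P (x.val * g)) : ∀ g ∈ gp X, P g := by
  intro g hg
  induction hg using Subgroup.closure_induction_left with
  | one => exact h1
  | mul_left x hx y hy ih => obtain ⟨p, hp, rfl⟩ := hx; exact h p hp y hy ih
  | inv_mul_cancel x hx y hy ih =>
    obtain ⟨p, hp, rfl⟩ := hx
    rw [p.inv_val]; exact h p hp y hy ih

theorem exists_list_of_mem_gp {X : Set T.Pt} {g : G} (hg : g ∈ gp X) :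
    ∃ L : List T.Pt, (∀ x ∈ L, x ∈ X) ∧ (L.map Pt.val).prod = g := by
  refine gp_induction (P := fun g => ∃ L : List T.Pt, (∀ x ∈ L, x ∈ X) ∧ (L.map Pt.val).prod = g)
    ⟨[], by simp, by simp⟩ ?_ g hg
  rintro x hx _ - ⟨L, hL, rfl⟩
  exact ⟨x :: L, by simpa [hx] using hL, by simp⟩

theorem smul_mem_of_mem_gp {X S : Set T.Pt} (h : ∀ x ∈ X, ∀ a ∈ S, x ◃ a ∈ S) {g : G}
    (hg : g ∈ gp X) {a : T.Pt} (ha : a ∈ S) : g • a ∈ S :=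
  gp_induction (P := fun g => g • a ∈ S) (by simpa using ha)
    (fun x hx g _ ih => by rw [mul_smul]; exact h x hx _ ih) g hg

theorem smul_eq_of_mem_gp {X : Set T.Pt} {d : T.Pt} (h : ∀ x ∈ X, cm d x) {g : G} (hg : g ∈ gp X) :
    g • d = d :=
  smul_mem_of_mem_gp (S := {d}) (fun x hx a ha => by rw [ha]; exact (h x hx).rf_eq') hg rfl

theorem Cl.smul_mem {X : Set T.Pt} (h : Cl X) {g : G} (hg : g ∈ gp X) {a : T.Pt} (ha : a ∈ X) :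
    g • a ∈ X := smul_mem_of_mem_gp h hg ha

theorem Cl.smul_mem_iff {X : Set T.Pt} (h : Cl X) {g : G} (hg : g ∈ gp X) {a : T.Pt} :
    g • a ∈ X ↔ a ∈ X :=
  ⟨fun ha => by simpa using h.smul_mem (inv_mem hg) ha, h.smul_mem hg⟩

theorem Cl.rs {X : Set T.Pt} (h : Cl X) (d : T.Pt) : Cl (Rs X d) := fun a ha b hb =>
  ⟨h a ha.1 b hb.1, fun e => hb.2.1 (by rw [← rf_rf a b, e, ha.2.2.rf_eq']),
    ha.2.2.rf_right hb.2.2⟩

theorem Cl.pp {X : Set T.Pt} (h : Cl X) (d : T.Pt) : Cl (Pp X d) := fun a ha b hb =>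
  ⟨h a ha.1 b hb.1, ha.2.rf_right hb.2⟩

theorem Cl.mu {X : Set T.Pt} (h : Cl X) (d a : T.Pt) : Cl (Mu X d a) := fun x hx y hy =>
  ⟨h x hx.1 y hy.1, hx.2.1.rf_right hy.2.1, hx.2.2.rf_right hy.2.2⟩

theorem mu_comm (X : Set T.Pt) (d a : T.Pt) : Mu X d a = Mu X a d :=
  Set.ext fun _ => ⟨fun h => ⟨h.1, h.2.2, h.2.1⟩, fun h => ⟨h.1, h.2.2, h.2.1⟩⟩

theorem mu_subset_rs {X : Set T.Pt} {d a : T.Pt} (h : ¬ cm d a) : Mu X d a ⊆ Rs X d :=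
  fun x hx => ⟨hx.1, fun e => h (e ▸ hx.2.2.symm), hx.2.1⟩

theorem mu_rf (X : Set T.Pt) (d a : T.Pt) : Mu X d (d ◃ a) = Mu X d a :=
  Set.ext fun x => ⟨fun h => ⟨h.1, h.2.1, by
    have := h.2.2; rwa [cm_rf_left, h.2.1.rf_eq] at this⟩,
    fun h => ⟨h.1, h.2.1, by rw [cm_rf_left, h.2.1.rf_eq]; exact h.2.2⟩⟩

theorem rs_mu {X : Set T.Pt} (d a e : T.Pt) : Rs (Mu X d a) e = Mu (Rs X e) d a :=
  Set.ext fun _ => ⟨fun h => ⟨⟨h.1.1, h.2.1, h.2.2⟩, h.1.2.1, h.1.2.2⟩,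
    fun h => ⟨⟨h.1.1, h.2.1, h.2.2⟩, h.1.2.1, h.1.2.2⟩⟩

theorem rs_rs_comm (X : Set T.Pt) (d e : T.Pt) : Rs (Rs X d) e = Rs (Rs X e) d :=
  Set.ext fun _ => ⟨fun h => ⟨⟨h.1.1, h.2.1, h.2.2⟩, h.1.2.1, h.1.2.2⟩,
    fun h => ⟨⟨h.1.1, h.2.1, h.2.2⟩, h.1.2.1, h.1.2.2⟩⟩

theorem cp_subset {Y : Set T.Pt} {y : T.Pt} (hy : y ∈ Y) : Cp Y y ⊆ Y := fun v hv => by
  induction hv with
  | refl => exact hy
  | tail _ h _ => exact h.1

theorem self_mem_cp (Y : Set T.Pt) (y : T.Pt) : y ∈ Cp Y y := Relation.ReflTransGen.refl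

theorem mem_cp_tail {Y : Set T.Pt} {y u v : T.Pt} (hu : u ∈ Cp Y y) (hv : v ∈ Y) (h : cm u v) :
    v ∈ Cp Y y := Relation.ReflTransGen.tail hu ⟨hv, h⟩

theorem rs_cp {Y : Set T.Pt} {y e : T.Pt} (hy : y ∈ Y) (he : e ∈ Cp Y y) :
    Rs (Cp Y y) e = Rs Y e :=
  Set.ext fun _ => ⟨fun h => ⟨cp_subset hy h.1, h.2⟩, fun h => ⟨mem_cp_tail he h.1 h.2.2, h.2⟩⟩

theorem cp_symm {Y : Set T.Pt} {y e : T.Pt} (hy : y ∈ Y) (he : e ∈ Cp Y y) : y ∈ Cp Y e := by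
  induction he with
  | refl => exact self_mem_cp _ _
  | tail h1 h2 ih => exact Relation.ReflTransGen.head ⟨cp_subset hy h1, h2.2.symm⟩ ih

theorem cp_eq {Y : Set T.Pt} {y e : T.Pt} (hy : y ∈ Y) (he : e ∈ Cp Y y) : Cp Y e = Cp Y y :=
  Set.ext fun _ => ⟨fun h => Relation.ReflTransGen.trans he h,
    fun h => Relation.ReflTransGen.trans (cp_symm hy he) h⟩

theorem smul_mem_cp {Y : Set T.Pt} {g : G} (hg : ∀ x ∈ Y, g • x ∈ Y) {y v : T.Pt}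
    (hv : v ∈ Cp Y y) : g • v ∈ Cp Y (g • y) := by
  induction hv with
  | refl => exact self_mem_cp _ _
  | tail _ h ih => exact mem_cp_tail ih (hg _ h.1) ((cm_smul _ _ _).2 h.2)

/-- the `S₄` lemma -/
theorem cm_rf_rf' {d e a : T.Pt} (h : cm d e) : cm (d ◃ a) (e ◃ a) ∨ cm d a ∨ cm e a := by
  by_cases h1 : cm d a
  · exact Or.inr (Or.inl h1)
  by_cases h2 : cm e a
  · exact Or.inr (Or.inr h2)
  left
  rw [rf_comm h1, rf_comm h2, cm_rf]; exact h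

/-- the affine `D₄` lemma -/
theorem d4 {a d b b' : T.Pt} (h1 : cm d b) (h2 : cm d b') (h3 : cm b b') (n1 : d ≠ b) (n2 : d ≠ b')
    (n3 : b ≠ b') (a1 : ¬ cm a d) (a2 : ¬ cm a b) (a3 : ¬ cm a b') :
    ∃ c, c = a ◃ d ◃ b ◃ b' ◃ a ∧ cm d c ∧ cm b c ∧ cm b' c ∧ c ≠ d ∧ c ≠ b ∧ c ≠ b' ∧ ¬ cm a c ∧
      d ◃ b ◃ b' ◃ c ◃ a = a := by
  have key : ∀ {d b b' : T.Pt}, cm b b' → b ≠ b' → ¬ cm a d → ¬ cm a b → ¬ cm a b' →
      cm d (a ◃ d ◃ b ◃ b' ◃ a) ∧ a ◃ d ◃ b ◃ b' ◃ a ≠ d := by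
    intro d b b' h3 n3 a1 a2 a3
    constructor
    · rw [cm_rf_right, rf_comm a1, cm_rf]; exact cm_rf_rf h3 a2 a3
    · intro e
      have : d ◃ b ◃ b' ◃ a = d ◃ a := by rw [← rf_comm a1, ← e, rf_rf, e]
      exact rf_rf_ne n3 a2 a3 (rf_left_cancel this)
  have e1 : d ◃ b ◃ b' ◃ a = b ◃ d ◃ b' ◃ a := h1.rf_rf_comm _
  have e2 : d ◃ b ◃ b' ◃ a = b' ◃ d ◃ b ◃ a := by rw [h3.rf_rf_comm, h2.rf_rf_comm]
  have k1 := key h3 n3 a1 a2 a3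
  have k2 := key h2 n2 a2 a1 a3
  have k3 := key h1 n1 a3 a1 a2
  rw [← e1] at k2
  rw [← e2] at k3
  have hn : ¬ cm a (d ◃ b ◃ b' ◃ a) := by
    intro hc
    have h4 : cm a (b ◃ b' ◃ a) := cm_rf_rf h3 a2 a3
    have h5 : cm (d ◃ a) (b ◃ b' ◃ a) := (cm_rf_right _ _ _).1 hc
    have h6 : cm d (b ◃ b' ◃ a) := by
      have := h4.symm.rf_right h5.symm
      rw [rf_rf_swap (ncm_symm a1)] at this
      exact this.symm
    rw [cm_rf_of_cm h1, cm_rf_of_cm h2] at h6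
    exact a1 h6.symm
  refine ⟨_, rfl, k1.1, k2.1, k3.1, k1.2, k2.2, k3.2, by rwa [cm_rf_self_left], ?_⟩
  rw [rf_rf_left, rf_self, rf_rf_swap (ncm_symm hn), h2.symm.rf_rf_comm, h1.symm.rf_rf_comm, rf_rf,
    h3.symm.rf_rf_comm, rf_rf, rf_rf]

theorem cl6 {X : Set T.Pt} (hX : Cl X) {d a : T.Pt} (hd : d ∈ X) (ha : a ∈ X) (e : Fin 5 → T.Pt)
    (he : ∀ i, e i ∈ Rs X d) (hinj : Function.Injective e) (hcm : ∀ i j, cm (e i) (e j))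
    (hmax : ∀ i j, i ≠ j → ∀ c ∈ Rs X d, cm (e i) c → cm (e j) c → ∃ k, c = e k)
    (had : ¬ cm a d) : ∃ i, cm a (e i) := by
  by_contra hn
  push Not at hn
  let B : Fin 5 → Fin 5 → Fin 5 → Prop := fun i j k => e i ◃ e j ◃ e k ◃ a = d ◃ a
  have hex : ∀ i j, i ≠ j → ∃ k, k ≠ i ∧ k ≠ j ∧ B i j k := fun i j hij => by
    obtain ⟨c, hc, c1, c2, c3, c4, c5, c6, -, c8⟩ := d4 (he i).2.2 (he j).2.2 (hcm i j)
      (he i).2.1.symm (he j).2.1.symm (hinj.ne hij) had (hn i) (hn j)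
    have hcX : c ∈ X := hc ▸ hX _ ha _ (hX _ hd _ (hX _ (he i).1 _ (hX _ (he j).1 _ ha)))
    obtain ⟨k, rfl⟩ := hmax i j hij c ⟨hcX, c4, c1⟩ c2 c3
    exact ⟨k, fun h => c5 (h ▸ rfl), fun h => c6 (h ▸ rfl), by
      show _ = _
      rw [← c8, rf_rf, c8]⟩
  have s1 : ∀ i j k, B i j k → B j i k := fun i j k h => by
    show _ = _
    rw [(hcm j i).rf_rf_comm]; exact h
  have s2 : ∀ i j k, B i j k → B i k j := fun i j k h => by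
    show _ = _
    rw [(hcm k j).rf_rf_comm]; exact h
  have un : ∀ i j k l, B i j k → B i j l → k = l := fun i j k l h1 h2 =>
    hinj (rf_inj_left (ncm_symm (hn k)) (ncm_symm (hn l))
      (rf_left_cancel (rf_left_cancel (h1.trans h2.symm))))
  obtain ⟨k, k0, k1, hk⟩ := hex 0 1 (by decide)
  obtain ⟨l, l0, l1, lk⟩ : ∃ l : Fin 5, l ≠ 0 ∧ l ≠ 1 ∧ l ≠ k := by clear hk; revert k; decide
  obtain ⟨m, m0, ml, hm⟩ := hex 0 l l0.symm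
  have m1 : m ≠ 1 := fun h => lk (un 0 1 _ _ (s2 _ _ _ (h ▸ hm)) hk)
  have mk : m ≠ k := fun h => l1 (un 0 k _ _ (s2 _ _ _ (h ▸ hm)) (s2 _ _ _ hk))
  obtain ⟨t, t1, tl, ht⟩ := hex 1 l l1.symm
  have : t = 0 ∨ t = k ∨ t = m := by
    clear hk hm ht
    revert k l m t; decide
  rcases this with rfl | rfl | rfl
  · exact lk (un 0 1 _ _ (s1 _ _ _ (s2 _ _ _ ht)) hk)
  · exact l0 (un 1 t _ _ (s2 _ _ _ ht) (s2 _ _ _ (s1 _ _ _ hk)))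
  · exact absurd (un l t _ _ (s2 _ _ _ (s1 _ _ _ ht)) (s2 _ _ _ (s1 _ _ _ hm))) (by decide)

theorem tri_smul {x y z : T.Pt} (h1 : ¬ cm x y) (h2 : ¬ cm y z) (h3 : ¬ cm z x) :
    tri x y z • x = x := by
  rw [tri, mul_smul, mul_smul, ← rf_def, ← rf_def, ← rf_def, rf_rf_self h1, rf_rf_self h2,
    rf_rf_self h3]

/-- triangles not generating an affine plane -/
theorem tri_eq {x y z : T.Pt} (h1 : ¬ cm x y) (h2 : ¬ cm y z) (h3 : ¬ cm z x)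
    (h4 : cm z (x ◃ y)) : tri x y z = (y ◃ z).val ∧ cm x (y ◃ z) := by
  have h5 : cm x (y ◃ z) := by rw [cm_rf_right, ← rf_comm h1]; exact h4.symm
  refine ⟨?_, h5⟩
  have h6 : ¬ cm y (y ◃ z) := by rwa [cm_rf_self_left]
  rw [tri, rf_comm h3]
  generalize hw : y ◃ z = w at *
  obtain rfl : z = y ◃ w := by rw [← hw, rf_rf]
  have e1 : y.val * w.val * y.val = w.val * y.val * w.val := by
    rw [← rf_val, ← rf_val, rf_comm h6]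
  have e2 : x.val * w.val = w.val * x.val := h5.eq
  have hx := x.mul_self
  have hy := y.mul_self
  have hw := w.mul_self
  simp only [rf_val]
  rw [e1]
  calc x.val * (w.val * y.val * w.val) * x.val * w.val * (x.val * y.val * x.val)
      = x.val * w.val * y.val * w.val * (x.val * w.val) * x.val * y.val * x.val := by
        simp only [mul_assoc]
    _ = x.val * w.val * y.val * (w.val * w.val) * (x.val * x.val) * y.val * x.val := by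
        rw [e2]; simp only [mul_assoc]
    _ = x.val * w.val * (y.val * y.val) * x.val := by rw [hw, hx]; simp only [mul_assoc, mul_one, one_mul]
    _ = w.val := by rw [hy, mul_one, e2, mul_assoc, hx, mul_one]

/-- the cube of `tri x y z * x` is trivial for a triangle generating an affine plane -/
theorem tri_cube' {x y z : T.Pt} (h1 : ¬ cm x y) (h2 : ¬ cm y z) (h3 : ¬ cm z x)
    (h4 : ¬ cm z (x ◃ y)) : (tri x y z * x.val) ^ 3 = 1 := by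
  have hc : Commute (tri x y z) x.val := commute_iff_smul_eq.2 (tri_smul h1 h2 h3)
  rcases tri_cube h1 h2 (ncm_symm h3) with h | h
  · exact absurd (by rw [rf_comm h1, cm_rf_right]; exact h.1.symm) h4
  · rw [hc.mul_pow, tri, rf_comm h3, mul_assoc, h, pow_three, x.mul_self, mul_one, x.mul_self]

section iso

variable {G' : Type*} [Group G'] {T' : TTC G'}

theorem FIso.rf_eq (φ : FIso T T') (a b : T.Pt) : φ.toEquiv (a ◃ b) = φ.toEquiv a ◃ φ.toEquiv b :=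
  φ.map_rf a b

theorem FIso.cm_iff (φ : FIso T T') {a b : T.Pt} : cm (φ.toEquiv a) (φ.toEquiv b) ↔ cm a b := by
  rw [cm_iff_rf_eq, cm_iff_rf_eq, ← φ.rf_eq, φ.toEquiv.apply_eq_iff_eq]

theorem FIso.image_rs (φ : FIso T T') (X : Set T.Pt) (d : T.Pt) :
    φ.toEquiv '' Rs X d = Rs (φ.toEquiv '' X) (φ.toEquiv d) := by
  ext y
  constructor
  · rintro ⟨x, hx, rfl⟩
    exact ⟨⟨x, hx.1, rfl⟩, φ.toEquiv.injective.ne hx.2.1, φ.cm_iff.2 hx.2.2⟩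
  · rintro ⟨⟨x, hx, rfl⟩, h1, h2⟩
    exact ⟨x, ⟨hx, fun e => h1 (e ▸ rfl), φ.cm_iff.1 h2⟩, rfl⟩

theorem Cl.map (φ : FIso T T') {X : Set T.Pt} (h : Cl X) : Cl (φ.toEquiv '' X) := by
  rintro _ ⟨a, ha, rfl⟩ _ ⟨b, hb, rfl⟩
  exact ⟨_, h a ha b hb, φ.rf_eq a b⟩

theorem St.map (φ : FIso T T') {X : Set T.Pt} (h : St X) : St (φ.toEquiv '' X) where
  cl := h.cl.map φ
  prim r hr hi := by
    rcases h.prim (fun a b => r (φ.toEquiv a) (φ.toEquiv b))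
      ⟨fun _ => hr.refl _, hr.symm, hr.trans⟩ (fun d hd a ha b hb hab => by
        simp only [φ.rf_eq]
        exact hi _ ⟨d, hd, rfl⟩ _ ⟨a, ha, rfl⟩ _ ⟨b, hb, rfl⟩ hab) with h1 | h1
    · left
      rintro _ ⟨a, ha, rfl⟩ _ ⟨b, hb, rfl⟩ hab
      rw [h1 a ha b hb hab]
    · right
      rintro _ ⟨a, ha, rfl⟩ _ ⟨b, hb, rfl⟩
      exact h1 a ha b hb
  ex_cm := by
    obtain ⟨a, ha, b, hb, h1, h2⟩ := h.ex_cm
    exact ⟨_, ⟨a, ha, rfl⟩, _, ⟨b, hb, rfl⟩, φ.toEquiv.injective.ne h1, φ.cm_iff.2 h2⟩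
  ex_ncm := by
    obtain ⟨a, ha, b, hb, h1⟩ := h.ex_ncm
    exact ⟨_, ⟨a, ha, rfl⟩, _, ⟨b, hb, rfl⟩, φ.cm_iff.not.2 h1⟩

theorem Loc.map (φ : FIso T T') {P : Set T.Pt → Prop} {P' : Set T'.Pt → Prop}
    (hP : ∀ Y, P Y → P' (φ.toEquiv '' Y)) {X : Set T.Pt} (h : Loc P X) :
    Loc P' (φ.toEquiv '' X) := by
  refine ⟨h.1.map φ, ?_⟩
  rintro _ ⟨d, hd, rfl⟩
  rw [← φ.image_rs]
  exact hP _ (h.2 d hd)

theorem UE.map (φ : FIso T T') {ι : Type*} [Fintype ι] {F : Type*} [Field F] {τ : F ≃+* F}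
    {A : Matrix ι ι F} {X : Set T.Pt} {ψ : T.Pt → ι → F} (h : UE τ A X ψ) :
    UE τ A (φ.toEquiv '' X) (fun p => ψ (φ.toEquiv.symm p)) where
  cl := h.cl.map φ
  ne := by rintro _ ⟨p, hp, rfl⟩; simpa using h.ne p hp
  inj := by
    rintro _ ⟨p, hp, rfl⟩ _ ⟨q, hq, rfl⟩ e
    rw [h.inj p hp q hq (by simpa using e)]
  cm_iff := by
    rintro _ ⟨p, hp, rfl⟩ _ ⟨q, hq, rfl⟩
    rw [φ.cm_iff]; simpa using h.cm_iff p hp q hq
  rf := by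
    rintro _ ⟨p, hp, rfl⟩ _ ⟨q, hq, rfl⟩
    rw [← φ.rf_eq]; simpa using h.rf p hp q hq
  surj v h0 h1 := by
    obtain ⟨p, hp, e⟩ := h.surj v h0 h1
    exact ⟨_, ⟨p, hp, rfl⟩, by simpa using e⟩

theorem SpE.map (φ : FIso T T') {n : ℕ} {X : Set T.Pt} (h : SpE n X) :
    SpE n (φ.toEquiv '' X) := ⟨_, h.choose_spec.map φ⟩

theorem UnE.map (φ : FIso T T') {n : ℕ} {X : Set T.Pt} (h : UnE n X) :
    UnE n (φ.toEquiv '' X) := ⟨_, h.choose_spec.map φ⟩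

theorem SyE.map (φ : FIso T T') {n : ℕ} {X : Set T.Pt} (h : SyE n X) :
    SyE n (φ.toEquiv '' X) := by
  obtain ⟨p, h⟩ := h
  refine ⟨fun i j => φ.toEquiv (p i j), fun i j hij => ⟨_, h.mem i j hij, rfl⟩,
    fun i j => by rw [h.symm], ?_, fun i j k l h1 h2 e => h.inj i j k l h1 h2 (φ.toEquiv.injective e),
    fun i j k l h1 h2 h3 h4 h5 h6 => φ.cm_iff.2 (h.cm_of i j k l h1 h2 h3 h4 h5 h6),
    fun i j k h1 h2 h3 => by rw [← φ.rf_eq, h.rf i j k h1 h2 h3]⟩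
  rintro _ ⟨x, hx, rfl⟩
  obtain ⟨i, j, hij, rfl⟩ := h.surj x hx
  exact ⟨i, j, hij, rfl⟩

theorem O3.map (φ : FIso T T') {η : ZMod 3} {n : ℕ} {X : Set T.Pt} (h : O3 η n X) :
    O3 η n (φ.toEquiv '' X) := by
  obtain ⟨ψ, h⟩ := h
  refine ⟨fun p => ψ (φ.toEquiv.symm p), h.cl.map φ, ?_, ?_, fun v hv => ?_, ?_, ?_⟩
  · rintro _ ⟨p, hp, rfl⟩; simpa using h.norm p hp
  · rintro _ ⟨p, hp, rfl⟩ _ ⟨q, hq, rfl⟩ e
    rw [h.inj p hp q hq (by simpa using e)]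
  · obtain ⟨p, hp, e⟩ := h.surj v hv
    exact ⟨_, ⟨p, hp, rfl⟩, by simpa using e⟩
  · rintro _ ⟨p, hp, rfl⟩ _ ⟨q, hq, rfl⟩ hne
    rw [φ.cm_iff]; simpa using h.cm_iff p hp q hq (fun e => hne (e ▸ rfl))
  · rintro _ ⟨p, hp, rfl⟩ _ ⟨q, hq, rfl⟩
    rw [← φ.rf_eq]; simpa using h.rf p hp q hq

/-- the automorphism induced by a group element -/
def fiso (g : G) : FIso T T := ⟨MulAction.toPerm g, fun a b => smul_rf g a b⟩

theorem fiso_apply (g : G) (a : T.Pt) : (fiso g : FIso T T).toEquiv a = g • a := rfl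

theorem Cl.image_fiso {X : Set T.Pt} (h : Cl X) {g : G} (hg : g ∈ gp X) :
    (fiso g : FIso T T).toEquiv '' X = X := by
  ext y
  constructor
  · rintro ⟨x, hx, rfl⟩; exact h.smul_mem hg hx
  · intro hy; exact ⟨g⁻¹ • y, h.smul_mem (inv_mem hg) hy, by simp [fiso_apply]⟩

end iso

end Cfsg.Agent.H3.TTC
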