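import Cfsg.Agent.Fs.PBaseA

/-! General theory: standard sets. -/

set_option autoImplicit false

namespace Cfsg.Agent.H3.TTC

variable {G : Type*} [Group G] {T : TTC G} {X : Set T.Pt}

/-- the class of the subgroup generated by a connected set -/
def Cn.sub (h : Cn X) : TTC (gp X) where
  D := {g | ∃ x ∈ X, x.val = g}
  tt := ⟨by
      rintro g ⟨x, -, e⟩
      rw [← Subgroup.orderOf_coe, ← e]; exact T.tt.1 _ x.mem, by
      rintro g ⟨x, -, e⟩ g' ⟨y, -, e'⟩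
      simp only [Subtype.ext_iff, Subgroup.coe_pow, Subgroup.coe_mul, ← e, ← e']
      exact T.tt.2 _ x.mem _ y.mem⟩
  conj_mem := by
    rintro g d ⟨x, hx, e⟩
    exact ⟨(g : G) • x, h.cl.smul_mem g.2 hx, by simp [e]⟩
  trans := by
    rintro a ⟨x, hx, e⟩ b ⟨y, hy, e'⟩
    obtain ⟨g, hg, rfl⟩ := h.trans x hx y hy
    exact ⟨⟨g, hg⟩, Subtype.ext (by simp [← e, ← e'])⟩
  gen := by
    rw [eq_top_iff]
    rintro ⟨g, hg⟩ -
    exact gp_induction (P := fun g => ∀ hg : g ∈ gp X, (⟨g, hg⟩ : gp X) ∈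
      Subgroup.closure {g : gp X | ∃ x ∈ X, x.val = g}) (fun _ => one_mem _)
      (fun x hx g hg ih _ => mul_mem (Subgroup.subset_closure
        (show (⟨x.val, mem_gp hx⟩ : gp X) ∈ {g : gp X | ∃ x ∈ X, x.val = g} from ⟨x, hx, rfl⟩))
        (ih hg)) g hg hg

theorem st_univ_iff : St (Set.univ : Set T.Pt) ↔ T.Std := by
  constructor
  · intro h
    refine ⟨?_, by simpa using h.ex_cm, by simpa using h.ex_ncm⟩
    by_contra hP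
    obtain ⟨r, hr, hg, ⟨a, b, hab, h1⟩, c, d, h2⟩ := exists_equiv_of_not_prim hP
    rcases h.prim r hr (fun d _ a _ b _ => hg d.val a b) with h3 | h3
    · exact hab (h3 a trivial b trivial h1)
    · exact h2 (h3 c trivial d trivial)
  · intro h
    refine ⟨fun _ _ _ _ => trivial, fun r hr hi => ?_, by simpa using h.ex_cm,
      by simpa using h.ex_ncm⟩
    have := h.prim.of_equiv r hr fun g => gp_induction (X := Set.univ)
      (P := fun g => ∀ a b, r a b → r (g • a) (g • b)) (by simp)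
      (fun x _ g _ ih a b hab => by
        rw [mul_smul, mul_smul]; exact hi x trivial _ trivial _ trivial (ih a b hab)) g
      (gp_univ (T := T) ▸ Subgroup.mem_top g)
    simpa using this

theorem Cn.exists_sub (h : Cn X) : ∃ (S : TTC (gp X)) (φ : S.Pt → T.Pt), Function.Injective φ ∧
    Set.range φ = X ∧ (∀ p, (φ p).val = (p.val : G)) ∧ (∀ (g : gp X) p, φ (g • p) = (g : G) • φ p) ∧
    (∀ p q, φ (p ◃ q) = φ p ◃ φ q) ∧ (∀ p q, cm (φ p) (φ q) ↔ cm p q) ∧ (St X → S.Std) := by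
  let φ : h.sub.Pt → T.Pt := fun p => ⟨p.val, by obtain ⟨x, -, e⟩ := p.mem; exact e ▸ x.mem⟩
  have h1 : Function.Injective φ := fun p q e => Pt.ext (Subtype.ext (congrArg Pt.val e))
  have h2 : Set.range φ = X := by
    ext x
    constructor
    · rintro ⟨p, rfl⟩
      obtain ⟨x, hx, e⟩ := p.mem
      rwa [show φ p = x from Pt.ext e.symm]
    · intro hx; exact ⟨⟨⟨x.val, mem_gp hx⟩, x, hx, rfl⟩, rfl⟩
  have h3 : ∀ p q, φ (p ◃ q) = φ p ◃ φ q := fun _ _ => rfl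
  have h4 : ∀ p q, cm (φ p) (φ q) ↔ cm p q := fun p q => by
    rw [cm_iff_rf_eq, cm_iff_rf_eq, ← h3, h1.eq_iff]
  have hm : ∀ p, φ p ∈ X := fun p => h2 ▸ ⟨p, rfl⟩
  have hs : ∀ x ∈ X, ∃ p, φ p = x := fun x hx => by rw [← h2] at hx; exact hx
  refine ⟨h.sub, φ, h1, h2, fun _ => rfl, fun _ _ => rfl, h3, h4, fun hS => st_univ_iff.1
    ⟨fun _ _ _ _ => trivial, fun r hr hi => ?_, ?_, ?_⟩⟩
  · rcases hS.prim (fun a b => a = b ∨ ∃ p q, φ p = a ∧ φ q = b ∧ r p q)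
      ⟨fun _ => Or.inl rfl, by
        rintro a b (e | ⟨p, q, e1, e2, e3⟩)
        · exact Or.inl e.symm
        · exact Or.inr ⟨q, p, e2, e1, hr.symm e3⟩, by
        rintro a b c (rfl | ⟨p, q, rfl, rfl, e3⟩) (rfl | ⟨p', q', e1, rfl, e4⟩)
        · exact Or.inl rfl
        · exact Or.inr ⟨p', q', e1, rfl, e4⟩
        · exact Or.inr ⟨p, q, rfl, rfl, e3⟩
        · exact Or.inr ⟨p, q', rfl, rfl, hr.trans e3 (h1 e1 ▸ e4)⟩⟩ (by
        rintro d hd a - b - (rfl | ⟨p, q, rfl, rfl, e3⟩)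
        · exact Or.inl rfl
        · obtain ⟨d, rfl⟩ := hs d hd
          exact Or.inr ⟨_, _, h3 _ _, h3 _ _, hi d trivial p trivial q trivial e3⟩) with h5 | h5
    · exact Or.inl fun a _ b _ hab => h1 (h5 _ (hm a) _ (hm b) (Or.inr ⟨a, b, rfl, rfl, hab⟩))
    · refine Or.inr fun a _ b _ => ?_
      rcases h5 _ (hm a) _ (hm b) with e | ⟨p, q, e1, e2, e3⟩
      · exact h1 e ▸ hr.refl a
      · exact h1 e1 ▸ h1 e2 ▸ e3
  · obtain ⟨a, ha, b, hb, h5, h6⟩ := hS.ex_cm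
    obtain ⟨a, rfl⟩ := hs a ha
    obtain ⟨b, rfl⟩ := hs b hb
    exact ⟨a, trivial, b, trivial, fun e => h5 (e ▸ rfl), (h4 _ _).1 h6⟩
  · obtain ⟨a, ha, b, hb, h5⟩ := hS.ex_ncm
    obtain ⟨a, rfl⟩ := hs a ha
    obtain ⟨b, rfl⟩ := hs b hb
    exact ⟨a, trivial, b, trivial, (h4 _ _).not.1 h5⟩

theorem smul_eq_of_ncm {a b : T.Pt} (h : ¬ cm a b) : (a ◃ b).val • a = b := rf_rf_self h

theorem St.cn (h : St X) : Cn X := by
  obtain ⟨a, ha, b, hb, hab⟩ := h.ex_ncm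
  refine ⟨h.cl, ⟨a, ha⟩, ?_⟩
  rcases h.prim (fun a b => ∃ g ∈ gp X, g • a = b)
    ⟨fun a => ⟨1, one_mem _, one_smul _ _⟩,
      by rintro a _ ⟨g, hg, rfl⟩; exact ⟨g⁻¹, inv_mem hg, by simp⟩,
      by rintro a _ _ ⟨g, hg, rfl⟩ ⟨g', hg', rfl⟩; exact ⟨g' * g, mul_mem hg' hg, mul_smul _ _ _⟩⟩
    (by
      rintro d hd a - _ - ⟨g, hg, rfl⟩
      exact ⟨d.val * g * d.val, mul_mem (mul_mem (mem_gp hd) hg) (mem_gp hd), by
        simp only [mul_smul, ← rf_def, rf_rf]⟩) with h1 | h1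
  · exact absurd (h1 a ha b hb ⟨_, mem_gp (h.cl a ha b hb), smul_eq_of_ncm hab⟩ ▸ cm_refl a) hab
  · exact h1

/-- the data of the class of the subgroup generated by a standard set -/
structure Sub (X : Set T.Pt) where
  S : TTC (gp X)
  φ : S.Pt → T.Pt
  inj : Function.Injective φ
  mem : ∀ p, φ p ∈ X
  surj : ∀ x ∈ X, ∃ p, φ p = x
  val : ∀ p, (φ p).val = (p.val : G)
  smul : ∀ (g : gp X) p, φ (g • p) = (g : G) • φ p
  rf : ∀ p q, φ (p ◃ q) = φ p ◃ φ q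
  cm : ∀ p q, cm (φ p) (φ q) ↔ cm p q
  std : St X → S.Std

theorem Cn.nonempty_sub (h : Cn X) : Nonempty (Sub X) := by
  obtain ⟨S, φ, h1, h2, h3, h4, h5, h6, h7⟩ := h.exists_sub
  exact ⟨⟨S, φ, h1, fun p => h2 ▸ ⟨p, rfl⟩, fun x hx => by rw [← h2] at hx; exact hx, h3, h4, h5, h6,
    h7⟩⟩

theorem ncard_smul_eq (hX : Cl X) {g : G} (hg : g ∈ gp X) (p : T.Pt → Prop) :
    {x | x ∈ X ∧ p (g • x)}.ncard = {x | x ∈ X ∧ p x}.ncard := by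
  rw [← ncard_smul_set g (fun x => x ∈ X ∧ p x)]
  simp only [hX.smul_mem_iff hg]

theorem ncard_rs_smul (hX : Cl X) {g : G} (hg : g ∈ gp X) (d : T.Pt) :
    (Rs X (g • d)).ncard = (Rs X d).ncard := by
  rw [Rs, ← ncard_smul_eq hX hg]; simp [Rs]

theorem ncard_mu_smul (hX : Cl X) {g : G} (hg : g ∈ gp X) (d a : T.Pt) :
    (Mu X (g • d) (g • a)).ncard = (Mu X d a).ncard := by
  rw [Mu, ← ncard_smul_eq hX hg]; simp [Mu]

theorem ncard_rs_rs_smul (hX : Cl X) {g : G} (hg : g ∈ gp X) (d e : T.Pt) :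
    (Rs (Rs X (g • d)) (g • e)).ncard = (Rs (Rs X d) e).ncard := by
  have : ∀ d e, Rs (Rs X d) e = {x | x ∈ X ∧ (x ≠ d ∧ cm d x) ∧ x ≠ e ∧ cm e x} := fun d e => by
    ext; simp [Rs, and_assoc]
  rw [this, this, ← ncard_smul_eq hX hg]; simp

variable [Finite G]

namespace St

theorem exists_cm (h : St X) {d : T.Pt} (hd : d ∈ X) : ∃ x, x ∈ Rs X d := by
  obtain ⟨U⟩ := h.cn.nonempty_sub
  obtain ⟨d, rfl⟩ := U.surj d hd
  obtain ⟨x, h1, h2⟩ := (U.std h).exists_cm d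
  exact ⟨_, U.mem x, U.inj.ne h1, (U.cm _ _).2 h2⟩

theorem exists_ncm (h : St X) {d : T.Pt} (hd : d ∈ X) : ∃ x, x ∈ Nc X d := by
  obtain ⟨U⟩ := h.cn.nonempty_sub
  obtain ⟨d, rfl⟩ := U.surj d hd
  obtain ⟨x, h1⟩ := (U.std h).exists_ncm d
  exact ⟨_, U.mem x, (U.cm _ _).not.2 h1⟩

theorem exists_cm_ncm (h : St X) {d y : T.Pt} (hd : d ∈ X) (hy : y ∈ X) (hne : y ≠ d) :
    ∃ w ∈ X, cm d w ∧ ¬ cm y w := by
  obtain ⟨U⟩ := h.cn.nonempty_sub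
  obtain ⟨d, rfl⟩ := U.surj d hd
  obtain ⟨y, rfl⟩ := U.surj y hy
  obtain ⟨x, h1, h2⟩ := (U.std h).exists_cm_ncm (d := d) (y := y) (fun e => hne (e ▸ rfl))
  exact ⟨_, U.mem x, (U.cm _ _).2 h1, (U.cm _ _).not.2 h2⟩

theorem exists_cm_ncm' (h : St X) {d y : T.Pt} (hd : d ∈ X) (hy : y ∈ X) (hn : ¬ cm d y) :
    ∃ w ∈ Rs X d, ¬ cm y w := by
  obtain ⟨U⟩ := h.cn.nonempty_sub
  obtain ⟨d, rfl⟩ := U.surj d hd
  obtain ⟨y, rfl⟩ := U.surj y hy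
  obtain ⟨x, h0, h1, h2⟩ := (U.std h).exists_cm_ncm' ((U.cm _ _).not.1 hn)
  exact ⟨_, ⟨U.mem x, U.inj.ne h0, (U.cm _ _).2 h1⟩, (U.cm _ _).not.2 h2⟩

theorem exists_cm_cm (h : St X) {d c : T.Pt} (hd : d ∈ X) (hc : c ∈ X) :
    ∃ u ∈ X, cm d u ∧ cm c u := by
  obtain ⟨U⟩ := h.cn.nonempty_sub
  obtain ⟨d, rfl⟩ := U.surj d hd
  obtain ⟨c, rfl⟩ := U.surj c hc
  obtain ⟨x, h1, h2⟩ := (U.std h).exists_cm_cm d c
  exact ⟨_, U.mem x, (U.cm _ _).2 h1, (U.cm _ _).2 h2⟩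

theorem cp_eq_self (h : St X) {y : T.Pt} (hy : y ∈ X) : Cp X y = X := by
  refine (cp_subset hy).antisymm fun x hx => ?_
  obtain ⟨u, hu, h1, h2⟩ := h.exists_cm_cm hy hx
  exact mem_cp_tail (mem_cp_tail (self_mem_cp _ _) hu h1) hx h2.symm

theorem red (h : St X) : Red X := ⟨h.cn, fun y hy => (h.cp_eq_self hy).symm ▸ h⟩

theorem cn_rs (h : St X) {d : T.Pt} (hd : d ∈ X) : Cn (Rs X d) := by
  refine ⟨h.cl.rs d, h.exists_cm hd, fun a ha b hb => ?_⟩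
  obtain ⟨U⟩ := h.cn.nonempty_sub
  obtain ⟨d, rfl⟩ := U.surj d hd
  obtain ⟨a, rfl⟩ := U.surj a ha.1
  obtain ⟨b, rfl⟩ := U.surj b hb.1
  have tr : ∀ p, p ≠ d ∧ cm d p ↔ U.φ p ∈ Rs X (U.φ d) := fun p =>
    ⟨fun h => ⟨U.mem p, U.inj.ne h.1, (U.cm _ _).2 h.2⟩,
      fun h => ⟨fun e => h.2.1 (e ▸ rfl), (U.cm _ _).1 h.2.2⟩⟩
  refine ((U.std h).perp_induction (S := {x | U.φ x ∈ Rs X (U.φ d) ∧
    ∃ g ∈ gp (Rs X (U.φ d)), g • U.φ a = U.φ x}) ((tr a).2 ha) ⟨ha, 1, one_mem _, one_smul _ _⟩ ?_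
    ((tr b).2 hb)).2
  rintro x ⟨hx, g, hg, e⟩ y h1 h2 h3
  have hy := (tr y).1 ⟨h1, h2⟩
  exact ⟨hy, _ * g, mul_mem (mem_gp (h.cl.rs _ _ hx _ hy)) hg, by
    rw [mul_smul, e]; exact smul_eq_of_ncm ((U.cm _ _).not.2 h3)⟩

theorem two_le_rs (h : St X) {d : T.Pt} (hd : d ∈ X) : ∃ x ∈ Rs X d, ∃ y ∈ Rs X d, x ≠ y := by
  by_contra hn
  push Not at hn
  have key : ∀ e ∈ X, ∀ x ∈ Rs X e, ∀ y ∈ Rs X e, x = y := fun e he x hx y hy => by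
    obtain ⟨g, hg, rfl⟩ := h.cn.trans e he d hd
    refine MulAction.injective g (hn _ ⟨h.cl.smul_mem hg hx.1, (MulAction.injective g).ne hx.2.1,
      (cm_smul _ _ _).2 hx.2.2⟩ _ ⟨h.cl.smul_mem hg hy.1, (MulAction.injective g).ne hy.2.1,
      (cm_smul _ _ _).2 hy.2.2⟩)
  obtain ⟨a, ha⟩ := h.exists_ncm hd
  obtain ⟨u, hu, h1, h2⟩ := h.exists_cm_cm hd ha.1
  exact ha.2 (key u hu d ⟨hd, fun e => ha.2 (e ▸ h2.symm), h1.symm⟩ a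
    ⟨ha.1, fun e => ha.2 (e ▸ h1), h2.symm⟩ ▸ cm_refl d)

theorem pair_cm (h : St X) {a b c d : T.Pt} (ha : a ∈ X) (hb : b ∈ Rs X a) (hc : c ∈ X)
    (hd : d ∈ Rs X c) : ∃ g ∈ gp X, g • a = c ∧ g • b = d := by
  obtain ⟨U⟩ := h.cn.nonempty_sub
  obtain ⟨a, rfl⟩ := U.surj a ha
  obtain ⟨b, rfl⟩ := U.surj b hb.1
  obtain ⟨c, rfl⟩ := U.surj c hc
  obtain ⟨d, rfl⟩ := U.surj d hd.1
  obtain ⟨g, rfl, rfl⟩ := (U.std h).exists_smul_pair_cm (a := a) (b := b) (c := c) (d := d)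
    ⟨fun e => hb.2.1 (e ▸ rfl), (U.cm _ _).1 hb.2.2⟩ ⟨fun e => hd.2.1 (e ▸ rfl), (U.cm _ _).1 hd.2.2⟩
  exact ⟨g, g.2, (U.smul _ _).symm, (U.smul _ _).symm⟩

theorem pair_ncm (h : St X) {a b c d : T.Pt} (ha : a ∈ X) (hb : b ∈ Nc X a) (hc : c ∈ X)
    (hd : d ∈ Nc X c) : ∃ g ∈ gp X, g • a = c ∧ g • b = d := by
  obtain ⟨U⟩ := h.cn.nonempty_sub
  obtain ⟨a, rfl⟩ := U.surj a ha
  obtain ⟨b, rfl⟩ := U.surj b hb.1
  obtain ⟨c, rfl⟩ := U.surj c hc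
  obtain ⟨d, rfl⟩ := U.surj d hd.1
  obtain ⟨g, rfl, rfl⟩ := (U.std h).exists_smul_pair_ncm (a := a) (b := b) (c := c) (d := d)
    ((U.cm _ _).not.1 hb.2) ((U.cm _ _).not.1 hd.2)
  exact ⟨g, g.2, (U.smul _ _).symm, (U.smul _ _).symm⟩

theorem exists_srg (h : St X) : ∃ v k lam mu, Srg X v k lam mu := by
  obtain ⟨d, hd⟩ := h.cn.ne
  obtain ⟨e, he⟩ := h.exists_cm hd
  obtain ⟨a, ha⟩ := h.exists_ncm hd
  refine ⟨_, (Rs X d).ncard, (Rs (Rs X d) e).ncard, (Mu X d a).ncard, h, rfl, fun d' hd' => ?_,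
    fun d' hd' e' he' => ?_, fun d' hd' a' ha' => ?_⟩
  · obtain ⟨g, hg, rfl⟩ := h.cn.trans d hd d' hd'
    exact ncard_rs_smul h.cl hg d
  · obtain ⟨g, hg, rfl, rfl⟩ := h.pair_cm hd he hd' he'
    exact ncard_rs_rs_smul h.cl hg d e
  · obtain ⟨g, hg, rfl, rfl⟩ := h.pair_ncm hd ha hd' ha'
    exact ncard_mu_smul h.cl hg d a

theorem loc_of_one {P : Set T.Pt → Prop}
    (hP : ∀ (φ : FIso T T) Y, P Y → P (φ.toEquiv '' Y)) {X : Set T.Pt} (h : St X) {d : T.Pt}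
    (hd : d ∈ X) (h1 : P (Rs X d)) : Loc P X := by
  refine ⟨h, fun e he => ?_⟩
  obtain ⟨g, hg, rfl⟩ := h.cn.trans d hd e he
  have := hP (fiso g) _ h1
  rwa [FIso.image_rs, h.cl.image_fiso hg] at this

end St

/-- conjugacy under the points of `X` commuting with `d` -/
def RelX (X : Set T.Pt) (d a b : T.Pt) : Prop := ∃ g ∈ gp (Pp X d), g • a = b

section rel

omit [Finite G]

theorem RelX.refl (d a : T.Pt) : RelX X d a a := ⟨1, one_mem _, one_smul _ _⟩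

theorem RelX.symm {d a b : T.Pt} (h : RelX X d a b) : RelX X d b a := by
  obtain ⟨g, h1, rfl⟩ := h
  exact ⟨g⁻¹, inv_mem h1, by simp⟩

theorem RelX.trans {d a b c : T.Pt} (h : RelX X d a b) (h' : RelX X d b c) : RelX X d a c := by
  obtain ⟨g, h1, rfl⟩ := h
  obtain ⟨g', h2, rfl⟩ := h'
  exact ⟨g' * g, mul_mem h2 h1, mul_smul _ _ _⟩

theorem RelX.cm_iff {d a b : T.Pt} (h : RelX X d a b) : cm d a ↔ cm d b := by
  obtain ⟨g, h1, rfl⟩ := h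
  rw [← cm_smul g d a, smul_eq_of_mem_gp (fun x hx => hx.2) h1]

theorem RelX.mem (hX : Cl X) {d a b : T.Pt} (h : RelX X d a b) (ha : a ∈ X) : b ∈ X := by
  obtain ⟨g, h1, rfl⟩ := h
  exact hX.smul_mem (gp_mono (fun x hx => hx.1) h1) ha

theorem relX_rf {d e : T.Pt} (hX : e ∈ X) (he : cm d e) (a : T.Pt) : RelX X d a (e ◃ a) :=
  ⟨e.val, mem_gp ⟨hX, he⟩, rfl⟩

theorem relX_of_cm (hX : Cl X) {d a b : T.Pt} (d0 : d ∈ X) (a0 : a ∈ X) (b0 : b ∈ X) (ha : ¬ cm d a)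
    (hb : ¬ cm d b) (hab : cm a b) : RelX X d a b := by
  have h1 : ¬ cm a (d ◃ b) := by
    rw [cm_rf_right, rf_comm ha, cm_rf_left, hab.rf_eq]; exact hb
  have h2 : cm d (a ◃ d ◃ b) := by
    rw [cm_rf_right, ← rf_comm ha, cm_rf]; exact hab
  have h3 : (a ◃ d ◃ b) ◃ a = d ◃ b := by
    rw [rf_rf_left, rf_self, rf_rf_swap (ncm_symm h1)]
  have := relX_rf (hX _ a0 _ (hX _ d0 _ b0)) h2 a
  rw [h3] at this
  exact this.trans (relX_rf d0 (cm_refl d) b).symm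

theorem ncm_rf_of_not_relX (hX : Cl X) {d a b : T.Pt} (d0 : d ∈ X) (a0 : a ∈ X) (b0 : b ∈ X)
    (ha : ¬ cm d a) (hb : ¬ cm d b) (h : ¬ RelX X d a b) : ¬ cm d (b ◃ a) := by
  intro hc
  have hab : ¬ cm a b := fun e => h (relX_of_cm hX d0 a0 b0 ha hb e)
  have := relX_rf (hX _ b0 _ a0) hc a
  rw [rf_comm (cm_rf_self_right (ncm_symm hab) ∘ cm.symm), rf_rf_swap (ncm_symm hab)] at this
  exact h this

theorem nbhd_subset_of_not_relX (hX : Cl X) {d a b e f : T.Pt} (d0 : d ∈ X) (a0 : a ∈ X)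
    (b0 : b ∈ X) (e0 : e ∈ X) (f0 : f ∈ X) (ha : ¬ cm d a) (hb : ¬ cm d b)
    (h : ¬ RelX X d a b) (he : cm d e) (hea : ¬ cm a e) (heb : cm b e) (hf : cm d f)
    (hfb : ¬ cm b f) : ¬ cm a f := by
  have hab : ¬ cm a b := fun e => h (relX_of_cm hX d0 a0 b0 ha hb e)
  have hc : ¬ cm d (b ◃ a) := ncm_rf_of_not_relX hX d0 a0 b0 ha hb h
  have h1 : RelX X d a (b ◃ a) := by
    refine (relX_rf e0 he a).trans (relX_of_cm hX d0 (hX _ e0 _ a0) (hX _ b0 _ a0)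
      ((relX_rf e0 he a).cm_iff.not.1 ha) hc ?_)
    rw [rf_comm (ncm_symm hea), rf_comm (ncm_symm hab), cm_rf]; exact heb.symm
  have h2 : RelX X d b (d ◃ f ◃ b) := (relX_rf f0 hf b).trans (relX_rf d0 (cm_refl d) _)
  have h3 := ncm_rf_of_not_relX hX d0 (hX _ b0 _ a0) (hX _ d0 _ (hX _ f0 _ b0)) hc
    (h2.cm_iff.not.1 hb) (fun e => h (h1.trans (e.trans h2.symm)))
  have h4 : ¬ cm d (f ◃ b) := (relX_rf f0 hf b).cm_iff.not.1 hb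
  intro haf
  apply h3
  rw [cm_rf_right, cm_rf_right, rf_rf_left, rf_self, rf_rf_swap (ncm_symm h4),
    rf_rf_swap (ncm_symm hfb)]
  exact haf.symm

end rel

theorem St.nc_trans (h : St X) {d a b : T.Pt} (hd : d ∈ X) (ha : a ∈ Nc X d) (hb : b ∈ Nc X d) :
    ∃ g ∈ gp (Pp X d), g • a = b := by
  change RelX X d a b
  by_contra hn
  wlog hle : {e | e ∈ X ∧ cm d e ∧ ¬ cm b e}.ncard ≤ {e | e ∈ X ∧ cm d e ∧ ¬ cm a e}.ncard
    generalizing a b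
  · exact this hb ha (fun e => hn e.symm) (le_of_not_ge hle)
  have hcard : ∀ a', RelX X d a a' →
      {e | e ∈ X ∧ cm d e ∧ ¬ cm a' e}.ncard = {e | e ∈ X ∧ cm d e ∧ ¬ cm a e}.ncard := by
    rintro a' ⟨g, hg, rfl⟩
    rw [← ncard_smul_eq h.cl (gp_mono (fun x hx => hx.1) hg)]
    congr 1
    ext e
    simp only [Set.mem_ofPred_eq, cm_smul]
    rw [← cm_smul g d e, smul_eq_of_mem_gp (fun x hx => hx.2) hg]
  have hsub : ∀ a', RelX X d a a' → ∀ f ∈ X, cm d f → ¬ cm b f → ¬ cm a' f := by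
    intro a' ha' f f0 hf hfb
    by_cases hs : {e | e ∈ X ∧ cm d e ∧ ¬ cm a' e} ⊆ {e | e ∈ X ∧ cm d e ∧ ¬ cm b e}
    · have := Set.eq_of_subset_of_ncard_le hs (hle.trans (hcard a' ha').ge)
      exact (this ▸ (⟨f0, hf, hfb⟩ : f ∈ {e | e ∈ X ∧ cm d e ∧ ¬ cm b e}) :
        f ∈ {e | e ∈ X ∧ cm d e ∧ ¬ cm a' e}).2.2
    · obtain ⟨e, ⟨e0, he1, he2⟩, he3⟩ := Set.not_subset.1 hs
      have he4 : cm b e := by
        by_contra h'
        exact he3 ⟨e0, he1, h'⟩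
      exact nbhd_subset_of_not_relX h.cl hd (ha'.mem h.cl ha.1) hb.1 e0 f0
        (ha'.cm_iff.not.1 ha.2) hb.2 (fun e => hn (ha'.trans e)) he1 he2 he4 hf hfb
  obtain ⟨f, hf, hf3⟩ := h.exists_cm_ncm' hd hb.1 hb.2
  obtain ⟨u, u0, hu1, hu2⟩ := h.exists_cm_cm hd ha.1
  obtain ⟨g, hg, rfl⟩ := (h.cn_rs hd).trans f hf u ⟨u0, fun e => ha.2 (e ▸ hu2.symm), hu1⟩
  refine smul_mem_of_mem_gp (S := {f | ∀ a', RelX X d a a' → ¬ cm a' f}) (fun e he f hf a' ha' => ?_)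
    hg (fun a' ha' => hsub a' ha' f hf.1 hf.2.2 hf3) a (RelX.refl d a) hu2
  rw [cm_rf_right]; exact hf _ (ha'.trans (relX_rf he.1 he.2.2 a'))

end Cfsg.Agent.H3.TTC
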