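import Cfsg.Agent.Fs.PBaseB
import Cfsg.Agent.S1615
import Cfsg.Agent.L.Core

/-! General theory: the inductive dichotomy. -/

set_option autoImplicit false

namespace Cfsg.Agent.H3.TTC

open scoped commutatorElement

theorem fs_hsol {H : Type*} [Group H] [Finite H] (h2 : Cfsg.pCore 2 H ≤ Subgroup.center H)
    (h3 : Cfsg.pPrimeCore 2 H ≤ Subgroup.center H) (N : Subgroup (H ⧸ Subgroup.center H))
    (hN : N.Normal) (hs : Group.IsSolvable N) : N = ⊥ := by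
  haveI : Fact (Nat.Prime 2) := ⟨Nat.prime_two⟩
  have hF := (L.fitting_le_pCore_sup_pPrimeCore (G := H) 2).trans (sup_le h2 h3)
  induction N using (wellFounded_lt (α := Subgroup (H ⧸ Subgroup.center H))).induction with
  | h N ih =>
  by_contra hne
  haveI : Nontrivial N := (Subgroup.nontrivial_iff_ne_bot N).2 hne
  have h1 : ⁅N, N⁆ < N := by
    rw [← N.range_subtype, MonoidHom.range_eq_map, ← Subgroup.map_commutator,
      Subgroup.map_lt_map_iff_of_injective N.subtype_injective]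
    exact Group.IsSolvable.commutator_lt_top_of_nontrivial N
  have h4 := ih _ h1 inferInstance
    (Group.isSolvable_of_isSolvable_injective (Subgroup.inclusion_injective h1.le))
  let A := N.comap (QuotientGroup.mk' (Subgroup.center H))
  haveI : IsMulCommutative N := ⟨⟨fun a b => Subtype.ext
    (Subgroup.commutator_eq_bot_iff_le_centralizer.1 h4 b.2 a a.2)⟩⟩
  haveI : Group.IsNilpotent N := L.isNilpotent_of_isMulCommutative inferInstance
  have h5 : Group.IsNilpotent A := Subgroup.isNilpotent_of_ker_le_center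
    ((QuotientGroup.mk' (Subgroup.center H)).subgroupComap N) fun x hx => by
      have : (x : H) ∈ Subgroup.center H := by
        rw [← QuotientGroup.eq_one_iff]; exact congrArg Subtype.val hx
      exact Subgroup.mem_center_iff.2 fun g => Subtype.ext (Subgroup.mem_center_iff.1 this g)
  refine hne (eq_bot_iff.2 fun x hx => ?_)
  obtain ⟨y, rfl⟩ := QuotientGroup.mk'_surjective _ x
  exact (QuotientGroup.eq_one_iff y).2 (hF (L.le_fitting h5 (show y ∈ A from hx)))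

variable {G : Type*} [Group G] {T : TTC G}

theorem fs_caseB [Finite G] (hsol : ∀ N : Subgroup G, N.Normal → Group.IsSolvable N → N = ⊥)
    {r : T.Pt → T.Pt → Prop} (hr : Equivalence r) (hg : ∀ (g : G) a b, r a b → r (g • a) (g • b))
    {a a' x y : T.Pt} (haa : a ≠ a') (hra : r a a') (hxy : ¬ r x y) (hc : cm x y) : False := by
  haveI hK := blockKer_normal hr hg
  have hKb : blockKer hr hg ≠ ⊥ := fun h => by
    have := mul_mem_blockKer hr hg hra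
    rw [h, Subgroup.mem_bot] at this
    exact haa (Pt.ext (by rw [eq_inv_of_mul_eq_one_left this, a'.inv_val]))
  obtain ⟨N, ⟨hNb, hNK, hN⟩, hNmin⟩ := (wellFounded_lt (α := Subgroup G)).has_min
    {L : Subgroup G | L ≠ ⊥ ∧ L ≤ blockKer hr hg ∧ L.Normal} ⟨_, hKb, le_rfl, hK⟩
  have hmin : ∀ L : Subgroup G, L.Normal → L ≤ N → L = ⊥ ∨ L = N := fun L hL hLN => by
    by_contra hn
    push Not at hn
    exact hNmin L ⟨hn.1, hLN.trans hNK, hL⟩ (lt_of_le_of_ne hLN hn.2)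
  have key : ∀ u v, r x u → r y v → Commute u.val v.val := fun u v hu hv =>
    cm_of_block hr hg hv (fun e => hxy (hr.trans hu (hr.symm e)))
      (cm_of_block hr hg hu hxy hc.symm).symm
  refine hNb (hsol N hN (isSolvable_of_forall_commute fun u hu v hv => ?_))
  refine commute_of_mem_closure ?_
      (le_closure_of_minimal_normal hsol hmin x hu) (le_closure_of_minimal_normal hsol hmin y hv)
  rintro _ ⟨n, hn, rfl⟩ _ ⟨m, hm, rfl⟩
  have h1 := hr.symm (hNK hn x)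
  have h2 := hr.symm (hNK hm y)
  exact ((key _ _ h1 h2).mul_right (key _ _ h1 (hr.refl y))).mul_left
    ((key _ _ (hr.refl x) h2).mul_right (key _ _ (hr.refl x) (hr.refl y)))

theorem exists_ncm_pt (h : ∃ a b : T.Pt, ¬ cm a b) (d : T.Pt) : ∃ x, ¬ cm d x := by
  obtain ⟨a, b, hc⟩ := h
  obtain ⟨g, rfl⟩ := exists_smul_eq a d
  exact ⟨g • b, fun e => hc ((cm_smul _ _ _).1 e)⟩

/-- the class in the central quotient -/
def quo (h : ∃ a b : T.Pt, ¬ cm a b) : TTC (G ⧸ Subgroup.center G) where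
  D := {g | ∃ x : T.Pt, (x.val : G ⧸ Subgroup.center G) = g}
  tt := ⟨by
      rintro _ ⟨x, rfl⟩
      haveI : Fact (Nat.Prime 2) := ⟨Nat.prime_two⟩
      refine orderOf_eq_prime (by rw [pow_two, ← QuotientGroup.mk_mul, x.mul_self]; rfl) fun e => ?_
      obtain ⟨y, hy⟩ := exists_ncm_pt h x
      exact hy (Subgroup.mem_center_iff.1 ((QuotientGroup.eq_one_iff _).1 e) y.val).symm, by
      rintro _ ⟨x, rfl⟩ _ ⟨y, rfl⟩
      rcases T.tt.2 _ x.mem _ y.mem with e | e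
      · left; rw [← QuotientGroup.mk_mul, ← QuotientGroup.mk_pow, e]; rfl
      · right; rw [← QuotientGroup.mk_mul, ← QuotientGroup.mk_pow, e]; rfl⟩
  conj_mem := by
    rintro g _ ⟨x, rfl⟩
    obtain ⟨g, rfl⟩ := QuotientGroup.mk_surjective g
    exact ⟨g • x, rfl⟩
  trans := by
    rintro _ ⟨x, rfl⟩ _ ⟨y, rfl⟩
    obtain ⟨g, rfl⟩ := exists_smul_eq x y
    exact ⟨g, rfl⟩
  gen := by
    rw [eq_top_iff, ← Subgroup.map_top_of_surjective _ (QuotientGroup.mk'_surjective _), ← T.gen,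
      MonoidHom.map_closure]
    apply Subgroup.closure_mono
    rintro _ ⟨x, hx, rfl⟩
    exact ⟨⟨x, hx⟩, rfl⟩

theorem fs_caseB' [Finite G] (h2 : Cfsg.pCore 2 G ≤ Subgroup.center G)
    (h3 : Cfsg.pPrimeCore 2 G ≤ Subgroup.center G) (hn : ∃ a b : T.Pt, ¬ cm a b)
    {r : T.Pt → T.Pt → Prop} (hr : Equivalence r) (hg : ∀ (g : G) a b, r a b → r (g • a) (g • b))
    {a a' x y : T.Pt} (haa : a ≠ a') (hra : r a a') (hxy : ¬ r x y) (hc : cm x y) : False := by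
  let π : T.Pt → (quo hn).Pt := fun p => ⟨p.val, p, rfl⟩
  have h1 : Function.Injective π := fun p q e => by
    have e1 : p.val⁻¹ * q.val ∈ Subgroup.center G := QuotientGroup.eq.1 (congrArg Pt.val e)
    obtain ⟨z, hz⟩ := exists_ncm_pt hn p
    have e2 : p ◃ q ◃ z = z := by
      rw [rf_def, rf_def, ← mul_smul, ← p.inv_val]
      exact commute_iff_smul_eq.1 (Subgroup.mem_center_iff.1 e1 z.val).symm
    have e3 : q ◃ z = p ◃ z := by rw [← rf_rf p (q ◃ z), e2]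
    exact (rf_inj_left (fun e => rf_ne_right hz (e3 ▸ e.rf_eq)) hz e3).symm
  have hs : Function.Surjective π := fun ⟨_, p, e⟩ => ⟨p, Pt.ext e⟩
  let E := Equiv.ofBijective π ⟨h1, hs⟩
  refine fs_caseB (T := quo hn) (fs_hsol h2 h3) (r := fun p q => r (E.symm p) (E.symm q))
    ⟨fun _ => hr.refl _, hr.symm, hr.trans⟩ (fun g p q hpq => ?_) (a := E a) (a' := E a')
    (x := E x) (y := E y) (E.injective.ne haa) (by simpa using hra) (by simpa using hxy) ?_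
  · obtain ⟨g, rfl⟩ := QuotientGroup.mk_surjective g
    obtain ⟨p, rfl⟩ := E.surjective p
    obtain ⟨q, rfl⟩ := E.surjective q
    have : ∀ p, (g : G ⧸ Subgroup.center G) • E p = E (g • p) := fun _ => rfl
    simp only [this, Equiv.symm_apply_apply] at hpq ⊢
    exact hg g _ _ hpq
  · exact Commute.map hc (QuotientGroup.mk' _)

variable [Finite G] {X : Set T.Pt}

theorem St.dia (h : St X) {d y z w y' z' : T.Pt} (hd : d ∈ X) (hy : y ∈ Rs X d) (hz : z ∈ Rs X d)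
    (hw : w ∈ Rs X d) (hyz : ¬ cm y z) (h1 : cm y w) (h2 : cm z w) (hy' : y' ∈ Rs X d)
    (hz' : z' ∈ Rs X d) (hyz' : ¬ cm y' z') : ∃ w' ∈ Rs X d, cm y' w' ∧ cm z' w' := by
  by_contra hn
  have iso : ∀ u ∈ Mu X y' z', cm d u → u = d := fun u hu hc => by
    by_contra e
    exact hn ⟨u, ⟨hu.1, e, hc⟩, hu.2⟩
  obtain ⟨g, hg, rfl, rfl⟩ := h.pair_ncm hy.1 ⟨hz.1, hyz⟩ hy'.1 ⟨hz'.1, hyz'⟩
  have m1 : g • d ∈ Mu X (g • y) (g • z) :=
    ⟨h.cl.smul_mem hg hd, (cm_smul _ _ _).2 hy.2.2.symm, (cm_smul _ _ _).2 hz.2.2.symm⟩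
  have m2 : g • w ∈ Mu X (g • y) (g • z) :=
    ⟨h.cl.smul_mem hg hw.1, (cm_smul _ _ _).2 h1, (cm_smul _ _ _).2 h2⟩
  have m0 : d ∈ Mu X (g • y) (g • z) := ⟨hd, hy'.2.2.symm, hz'.2.2.symm⟩
  have hc : cm (g • d) (g • w) := (cm_smul _ _ _).2 hw.2.2
  have hne : g • d ≠ g • w := (MulAction.injective g).ne hw.2.1.symm
  generalize g • d = w1 at *
  generalize g • w = w2 at *
  have hM := h.cl.mu (g • y) (g • z)
  have n1 : ¬ cm d w1 := fun e => by
    obtain rfl := iso _ m1 e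
    exact hne (iso _ m2 hc).symm
  have := iso (w1 ◃ d ◃ w2) (hM _ m1 _ (hM _ m0 _ m2)) (by
    rw [cm_rf_right, ← rf_comm n1, cm_rf]; exact hc)
  refine hne (rf_left_cancel (d := d) ?_)
  rw [← rf_rf w1 (d ◃ w2), this, rf_comm n1]

omit [Finite G] in
theorem St.map' {G' : Type*} [Group G'] {S : TTC G'} {φ : S.Pt → T.Pt} (hi : Function.Injective φ)
    (hφ : ∀ p q, φ (p ◃ q) = φ p ◃ φ q) {Y : Set S.Pt} (h : St Y) : St (φ '' Y) := by
  have hc : ∀ p q, cm (φ p) (φ q) ↔ cm p q := fun p q => by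
    rw [cm_iff_rf_eq, cm_iff_rf_eq, ← hφ, hi.eq_iff]
  refine ⟨?_, fun r hr hin => ?_, ?_, ?_⟩
  · rintro _ ⟨a, ha, rfl⟩ _ ⟨b, hb, rfl⟩
    exact ⟨_, h.cl a ha b hb, hφ a b⟩
  · rcases h.prim (fun a b => r (φ a) (φ b))
      ⟨fun _ => hr.refl _, hr.symm, hr.trans⟩ (fun d hd a ha b hb hab => by
        simp only [hφ]
        exact hin _ ⟨d, hd, rfl⟩ _ ⟨a, ha, rfl⟩ _ ⟨b, hb, rfl⟩ hab) with h1 | h1
    · left
      rintro _ ⟨a, ha, rfl⟩ _ ⟨b, hb, rfl⟩ hab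
      rw [h1 a ha b hb hab]
    · right
      rintro _ ⟨a, ha, rfl⟩ _ ⟨b, hb, rfl⟩
      exact h1 a ha b hb
  · obtain ⟨a, ha, b, hb, h1, h2⟩ := h.ex_cm
    exact ⟨_, ⟨a, ha, rfl⟩, _, ⟨b, hb, rfl⟩, hi.ne h1, (hc _ _).2 h2⟩
  · obtain ⟨a, ha, b, hb, h1⟩ := h.ex_ncm
    exact ⟨_, ⟨a, ha, rfl⟩, _, ⟨b, hb, rfl⟩, (hc _ _).not.2 h1⟩

theorem Std.st_rs (h : T.Std) (hB : ¬ T.Big) (hT : ¬ T.NoTri) (d : T.Pt) :
    St (Rs Set.univ d) := by
  have hS := st_univ_iff.2 h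
  have hY := hS.cn_rs (d := d) trivial
  have e : gp (Rs Set.univ d) =
      Subgroup.closure {y : G | y ∈ T.D ∧ y ≠ d.val ∧ Commute d.val y} := by
    rw [gp]
    congr 1
    ext y
    exact ⟨fun ⟨p, hp, e⟩ => e ▸ ⟨p.mem, fun e => hp.2.1 (Pt.ext e), hp.2.2⟩,
      fun hy => ⟨⟨y, hy.1⟩, ⟨trivial, fun e => hy.2.1 (congrArg Pt.val e), hy.2.2⟩, rfl⟩⟩
  have h2 : Cfsg.pCore 2 (gp (Rs Set.univ d)) ≤ Subgroup.center _ := by
    rw [e]; by_contra hn; exact hB (big_of_pCore d hn)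
  have h3 : Cfsg.pPrimeCore 2 (gp (Rs Set.univ d)) ≤ Subgroup.center _ := by
    rw [e]; by_contra hn; exact hT (S1615.aux h d hn)
  have hcm : ∃ a ∈ Rs Set.univ d, ∃ b ∈ Rs Set.univ d, a ≠ b ∧ cm a b := by
    unfold NoTri at hT
    push Not at hT
    obtain ⟨p, q, r, k1, k2, k3, h4, h5, h6⟩ := hT
    obtain ⟨g, rfl⟩ := exists_smul_eq p d
    exact ⟨g • q, ⟨trivial, (MulAction.injective g).ne k1.symm, (cm_smul _ _ _).2 h4⟩, g • r,
      ⟨trivial, (MulAction.injective g).ne k2.symm, (cm_smul _ _ _).2 h5⟩,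
      (MulAction.injective g).ne k3, (cm_smul _ _ _).2 h6⟩
  have hncm : ∃ a ∈ Rs Set.univ d, ∃ b ∈ Rs Set.univ d, ¬ cm a b := by
    by_contra hn
    push Not at hn
    obtain ⟨a, ha, b, hb, hab, -⟩ := hcm
    obtain ⟨g, hg, rfl⟩ := hY.trans a ha b hb
    exact hab (smul_eq_of_mem_gp (hn a ha) hg).symm
  refine ⟨hY.cl, fun r hr hin => ?_, hcm, hncm⟩
  by_contra hn
  push Not at hn
  obtain ⟨⟨a, ha, a', ha', hra, haa⟩, c, hc, c', hc', hcc⟩ := hn
  by_cases hA : ∃ x ∈ Rs Set.univ d, ∃ y ∈ Rs Set.univ d, ¬ r x y ∧ cm x y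
  · obtain ⟨x, hx, y, hy, hxy, hc⟩ := hA
    obtain ⟨U⟩ := hY.nonempty_sub
    obtain ⟨a, rfl⟩ := U.surj a ha
    obtain ⟨a', rfl⟩ := U.surj a' ha'
    obtain ⟨x, rfl⟩ := U.surj x hx
    obtain ⟨y, rfl⟩ := U.surj y hy
    refine fs_caseB' (T := U.S) h2 h3 ?_ (r := fun p q => r (U.φ p) (U.φ q))
      ⟨fun _ => hr.refl _, hr.symm, hr.trans⟩ (fun g p q hpq => ?_) (fun e => haa (congrArg U.φ e)) hra hxy
      ((U.cm _ _).1 hc)
    · obtain ⟨a, ha, b, hb, hab⟩ := hncm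
      obtain ⟨a, rfl⟩ := U.surj a ha
      obtain ⟨b, rfl⟩ := U.surj b hb
      exact ⟨a, b, (U.cm _ _).not.1 hab⟩
    · simp only [U.smul]
      exact gp_induction (X := Rs Set.univ d) (P := fun g => r (g • U.φ p) (g • U.φ q))
        (by simpa using hpq)
        (fun x hx g hg ih => by
          rw [mul_smul, mul_smul]
          exact hin x hx _ (hY.cl.smul_mem hg (U.mem p)) _ (hY.cl.smul_mem hg (U.mem q)) ih) g g.2
  push Not at hA
  by_cases hD : ∃ y ∈ Rs Set.univ d, ∃ z ∈ Rs Set.univ d, ∃ w ∈ Rs Set.univ d,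
      ¬ cm y z ∧ cm y w ∧ cm z w
  · obtain ⟨y, hy, z, hz, w, hw, k1, k2, k3⟩ := hD
    obtain ⟨w', hw', k4, k5⟩ := hS.dia trivial hy hz hw k1 k2 k3 hc hc' (hA c hc c' hc' hcc)
    refine hcc (hr.trans (y := w') ?_ (hr.symm ?_))
    · by_contra e; exact hA _ hc _ hw' e k4
    · by_contra e; exact hA _ hc' _ hw' e k5
  · obtain ⟨y, hy, y', hy', k1, k2⟩ := hcm
    refine hB ⟨d, y, y', hy.2.1.symm, hy.2.2, fun w k3 k4 => ?_, hy'.2.1, k1.symm⟩
    by_cases e : w = d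
    · exact e ▸ hy'.2.2.symm
    by_contra k5
    exact hD ⟨y', hy', w, ⟨trivial, e, k3⟩, y, hy, k5, k2.symm, k4.symm⟩

theorem Sub.image_rs (U : Sub X) (d : U.S.Pt) : U.φ '' Rs Set.univ d = Rs X (U.φ d) := by
  ext y
  constructor
  · rintro ⟨x, hx, rfl⟩
    exact ⟨U.mem x, U.inj.ne hx.2.1, (U.cm _ _).2 hx.2.2⟩
  · intro hy
    obtain ⟨x, rfl⟩ := U.surj y hy.1
    exact ⟨x, ⟨trivial, fun e => hy.2.1 (e ▸ rfl), (U.cm _ _).1 hy.2.2⟩, rfl⟩

theorem Sub.ue (U : Sub X) (h : St X) {ι : Type*} [Fintype ι] [DecidableEq ι] {F : Type*} [Field F]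
    {τ : F ≃+* F} {A : Matrix ι ι F} {ψ : U.S.Pt → ι → F} (E : U.S.UEmb τ A ψ) :
    ∃ ψ' : T.Pt → ι → F, UE τ A X ψ' := by
  classical
  have hψ : ∀ p, Function.extend U.φ ψ 0 (U.φ p) = ψ p := U.inj.extend_apply ψ 0
  refine ⟨Function.extend U.φ ψ 0, h.cl, fun p hp => ?_, fun p hp q hq e => ?_,
    fun p hp q hq => ?_, fun p hp q hq => ?_, fun v h0 h1 => ?_⟩
  · obtain ⟨p, rfl⟩ := U.surj p hp
    rw [hψ]; exact E.ne p
  · obtain ⟨p, rfl⟩ := U.surj p hp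
    obtain ⟨q, rfl⟩ := U.surj q hq
    rw [hψ, hψ] at e
    by_contra hne
    obtain ⟨w, h1, h2⟩ := (U.std h).exists_cm_ncm (d := p) (y := q) (fun e => hne (e ▸ rfl))
    obtain ⟨c, -, e⟩ := e
    rw [E.cm_iff] at h1 h2
    exact h2 (by rw [e, H6.sf_smul_left, h1, mul_zero])
  · obtain ⟨p, rfl⟩ := U.surj p hp
    obtain ⟨q, rfl⟩ := U.surj q hq
    rw [hψ, hψ, U.cm, E.cm_iff]
  · obtain ⟨p, rfl⟩ := U.surj p hp
    obtain ⟨q, rfl⟩ := U.surj q hq
    rw [← U.rf, hψ, hψ, hψ]; exact E.rf p q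
  · obtain ⟨p, e⟩ := E.surj v h0 h1
    exact ⟨_, U.mem p, by rwa [hψ]⟩

theorem St.di (h : St X) {d : T.Pt} (hd : d ∈ X) :
    St (Rs X d) ∨ (∃ n, SpE n X) ∨ (∃ n, 4 ≤ n ∧ UnE n X) ∨ NoTr X := by
  obtain ⟨U⟩ := h.cn.nonempty_sub
  by_cases hB : U.S.Big
  · rcases (U.std h).uemb_of_big hB with ⟨n, ψ, E⟩ | ⟨n, ψ, hn, E⟩
    · exact Or.inr (Or.inl ⟨n, U.ue h E⟩)
    · exact Or.inr (Or.inr (Or.inl ⟨n, hn, U.ue h E⟩))
  by_cases hT : U.S.NoTri
  · refine Or.inr (Or.inr (Or.inr fun p hp q hq r hr h1 h2 h3 h4 h5 => ?_))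
    obtain ⟨p, rfl⟩ := U.surj p hp
    obtain ⟨q, rfl⟩ := U.surj q hq
    obtain ⟨r, rfl⟩ := U.surj r hr
    rw [U.cm] at h4 h5 ⊢
    exact hT p q r (fun e => h1 (e ▸ rfl)) (fun e => h2 (e ▸ rfl)) (fun e => h3 (e ▸ rfl)) h4 h5
  obtain ⟨d, rfl⟩ := U.surj d hd
  exact Or.inl (U.image_rs d ▸ ((U.std h).st_rs hB hT d).map' U.inj U.rf)

theorem St.inj (h : St X) {d a b : T.Pt} (hd : d ∈ X) (ha : a ∈ Nc X d) (hb : b ∈ Nc X d)
    (e : Mu X d a = Mu X d b) : b = a ∨ b = d ◃ a := by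
  induction X using (wellFounded_lt (α := Set T.Pt)).induction with
  | h X ih =>
  obtain ⟨u, hu, h1, h2⟩ := h.exists_cm_cm hd ha.1
  have h3 : cm b u := (e ▸ (⟨hu, h1, h2⟩ : u ∈ Mu X d a) : u ∈ Mu X d b).2.2
  by_cases hS : St (Rs X u)
  · refine ih (Rs X u) ⟨fun x hx => hx.1, fun hs => (hs hu).2.1 rfl⟩ hS
      ⟨hd, fun e => ha.2 (e ▸ h2.symm), h1.symm⟩ ⟨⟨ha.1, fun e => ha.2 (e ▸ h1), h2.symm⟩, ha.2⟩
      ⟨⟨hb.1, fun e => hb.2 (e ▸ h1), h3.symm⟩, hb.2⟩ (by rw [← rs_mu, ← rs_mu, e])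
  obtain ⟨U⟩ := h.cn.nonempty_sub
  obtain ⟨d, rfl⟩ := U.surj d hd
  obtain ⟨a, rfl⟩ := U.surj a ha.1
  obtain ⟨b, rfl⟩ := U.surj b hb.1
  obtain ⟨u, rfl⟩ := U.surj u hu
  have ha' := (U.cm _ _).not.1 ha.2
  have hb' := (U.cm _ _).not.1 hb.2
  rw [← U.rf, U.inj.eq_iff, U.inj.eq_iff]
  rw [U.cm] at h1 h2 h3
  by_cases hB : U.S.Big
  · rcases (U.std h).mem_hyp hB ha' (k := b) (fun w k1 k2 => (U.cm _ _).1
      (e ▸ (⟨U.mem w, (U.cm _ _).2 k1, (U.cm _ _).2 k2⟩ : U.φ w ∈ Mu X (U.φ d) (U.φ a)) :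
        U.φ w ∈ Mu X (U.φ d) (U.φ b)).2.2) with k | k
    · exact absurd (k ▸ cm_refl b) hb'
    · exact k
  by_cases hT : U.S.NoTri
  · have hud : d ≠ u := fun e => ha' (e ▸ h2.symm)
    obtain ⟨t, k1, k2⟩ := (U.std h).exists_cm_ncm (d := d) (y := u) hud.symm
    have hau : a ≠ u := fun e => ha' (e ▸ h1)
    have k3 : ¬ cm t a := fun k3 => k2 ((U.std h).mu_one hT ha' h1 h2 k1 k3.symm ▸ cm_refl u)
    rcases (U.std h).perp_three hT k2 hau h2.symm k3 h1.symm k1.symm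
      (w := b) (fun e => hb' (e ▸ h1)) h3.symm with k | k | k
    · exact absurd (k ▸ cm_refl b) hb'
    · exact Or.inl k
    · exact Or.inr (k.trans (rf_comm ha').symm)
  exact absurd (U.image_rs u ▸ ((U.std h).st_rs hB hT u).map' U.inj U.rf) hS

theorem St.ker (h : St X) {d : T.Pt} (hd : d ∈ X) {g : G} (hg : ∀ x ∈ X, g • x ∈ X)
    (hgd : g • d = d) (hfix : g ∈ fx (Rs X d)) : g ∈ fx X ∨ d.val * g ∈ fx X := by
  have key : ∀ g : G, g • d = d → g ∈ fx (Rs X d) → ∀ a ∈ Nc X d, g • a = a → g ∈ fx X := by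
    intro g hgd hfix a ha hga
    have h1 : ∀ x ∈ Pp X d, g • x = x := fun x hx => by
      by_cases e : x = d
      · rw [e, hgd]
      · exact mem_fx.1 hfix x ⟨hx.1, e, hx.2⟩
    refine mem_fx.2 fun x hx => ?_
    by_cases hc : cm d x
    · exact h1 x ⟨hx, hc⟩
    obtain ⟨k, hk, rfl⟩ := h.nc_trans hd ha ⟨hx, hc⟩
    exact smul_mem_of_mem_gp (S := {y | g • y = y}) (fun x hx y hy => by
      show _ = _
      rw [smul_rf, h1 x hx, hy]) hk hga
  obtain ⟨a, ha⟩ := h.exists_ncm hd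
  have hga : g • a ∈ Nc X d := ⟨hg a ha.1, by rw [← hgd, cm_smul]; exact ha.2⟩
  have e : Mu X d a = Mu X d (g • a) := by
    ext x
    refine and_congr_right fun hx => and_congr_right fun hc => ?_
    by_cases e : x = d
    · exact ⟨fun k => absurd (e ▸ k.symm) ha.2, fun k => absurd (e ▸ k.symm) hga.2⟩
    · conv_rhs => rw [← mem_fx.1 hfix x ⟨hx, e, hc⟩, cm_smul]
  rcases h.inj hd ha hga e with k | k
  · exact Or.inl (key g hgd hfix a ha k)
  · refine Or.inr (key _ (by rw [mul_smul, hgd, ← rf_def, rf_self]) (mem_fx.2 fun x hx => ?_) a ha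
      (by rw [mul_smul, k, ← rf_def, rf_rf]))
    rw [mul_smul, mem_fx.1 hfix x hx, ← rf_def, hx.2.2.rf_eq]

theorem St.not_mem_fx (h : St X) {L : List T.Pt} (hL : ∀ x ∈ L, x ∈ X) (hn : L.Nodup)
    (hc : ∀ x ∈ L, ∀ y ∈ L, cm x y) (h0 : L ≠ []) (h4 : L.length ≤ 4) :
    (L.map Pt.val).prod ∉ fx X := by
  intro hf
  rw [mem_fx] at hf
  match L, h0, h4 with
  | [a], _, _ =>
    obtain ⟨x, hx⟩ := h.exists_ncm (hL a (by simp))
    exact rf_ne_right hx.2 (by simpa [rf_def] using hf x hx.1)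
  | [a, b], _, _ =>
    obtain ⟨x, hx, h1, h2⟩ := h.exists_cm_ncm (hL b (by simp)) (hL a (by simp)) (by simpa using hn)
    have := hf x hx
    simp only [List.map, List.prod_cons, List.prod_nil, mul_one, mul_smul, ← rf_def] at this
    rw [h1.rf_eq] at this
    exact rf_ne_right h2 this
  | [a, b, c], _, _ =>
    simp only [List.nodup_cons, List.mem_cons, List.not_mem_nil, or_false, not_or] at hn
    obtain ⟨x, hx, h1, h2⟩ := h.exists_cm_ncm (hL c (by simp)) (hL b (by simp)) hn.2.1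
    have := hf x hx
    simp only [List.map, List.prod_cons, List.prod_nil, mul_one, mul_smul, ← rf_def] at this
    rw [h1.rf_eq] at this
    by_cases h3 : cm a x
    · rw [(hc a (by simp) b (by simp)).rf_rf_comm, h3.rf_eq] at this
      exact rf_ne_right h2 this
    · exact rf_rf_ne hn.1.1 (ncm_symm h3) (ncm_symm h2) this
  | [a, b, c, d], _, _ =>
    simp only [List.nodup_cons, List.mem_cons, List.not_mem_nil, or_false, not_or] at hn
    obtain ⟨x, hx, h1, h2⟩ := h.exists_cm_ncm (hL d (by simp)) (hL a (by simp)) hn.1.2.2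
    have := hf x hx
    simp only [List.map, List.prod_cons, List.prod_nil, mul_one, mul_smul, ← rf_def] at this
    rw [h1.rf_eq] at this
    have hbc := hc b (by simp) c (by simp)
    by_cases h3 : cm c x
    · rw [h3.rf_eq] at this
      by_cases h5 : cm b x
      · rw [h5.rf_eq] at this; exact rf_ne_right h2 this
      · exact rf_rf_ne hn.1.1 (ncm_symm h2) (ncm_symm h5) this
    by_cases h5 : cm b x
    · rw [hbc.rf_rf_comm, h5.rf_eq] at this
      exact rf_rf_ne hn.1.2.1 (ncm_symm h2) (ncm_symm h3) this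
    have h6 := cm_rf_rf hbc (ncm_symm h5) (ncm_symm h3)
    rw [← rf_rf a (b ◃ c ◃ x), this] at h6
    exact cm_rf_self_right h2 h6

end Cfsg.Agent.H3.TTC
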