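import Cfsg.Agent.Fs.ISpec
import Cfsg.Agent.Fs.IUn
import Cfsg.Agent.Fs.IO3
import Cfsg.Agent.Fs.IO3Top

/-! The parameters of the Fischer types. -/

set_option autoImplicit false

namespace Cfsg.Agent.H3.TTC

variable {G : Type*} [Group G] [Finite G] {T : TTC G} {X : Set T.Pt}

theorem f_nsq (a : ℤ) {n : ℤ} (ha : 0 ≤ a) (h1 : a * a < n) (h2 : n < (a + 1) * (a + 1)) :
    ¬ IsSquare n := by
  rintro ⟨b, rfl⟩
  rw [← abs_mul_abs_self b] at h1 h2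
  have h3 := abs_nonneg b
  have h4 : a < |b| := by nlinarith
  nlinarith

theorem f_dc {α : Type*} [Finite α] (S U : Set α) (r : α → α → Prop) :
    ∑ x ∈ S.toFinite.toFinset, {y | y ∈ U ∧ r x y}.ncard =
      ∑ y ∈ U.toFinite.toFinset, {x | x ∈ S ∧ r x y}.ncard := by
  classical
  have h := Finset.sum_card_bipartiteAbove_eq_sum_card_bipartiteBelow
    (s := S.toFinite.toFinset) (t := U.toFinite.toFinset) r
  convert h using 2
  · rw [← Set.ncard_coe_finset]; congr 1; ext; simp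
  · rw [← Set.ncard_coe_finset]; congr 1; ext; simp

theorem f_sum_const {α : Type*} [Finite α] {S : Set α} {f : α → ℕ} {c : ℕ}
    (h : ∀ x ∈ S, f x = c) : ∑ x ∈ S.toFinite.toFinset, f x = S.ncard * c := by
  rw [Finset.sum_congr rfl fun x hx => h x (by simpa using hx), Finset.sum_const, smul_eq_mul,
    Set.ncard_eq_toFinset_card]

omit [Finite G] in
theorem f_mem {d a e : T.Pt} (hd : d ∈ X) (ha : a ∈ Nc X d) (he : e ∈ Mu X d a) :
    d ∈ Rs X e ∧ a ∈ Nc (Rs X e) d :=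
  ⟨⟨hd, fun h => ha.2 (h ▸ he.2.2).symm, he.2.1.symm⟩,
    ⟨ha.1, fun h => ha.2 (h ▸ he.2.1), he.2.2.symm⟩, ha.2⟩

theorem f_srg {P : Set T.Pt → Prop} (h : Loc P X) {k lam : ℕ}
    (hP : ∀ Y, P Y → Y.ncard = k ∧ ∀ e ∈ Y, (Rs Y e).ncard = lam) :
    ∃ v mu, Srg X v k lam mu := by
  obtain ⟨v, k', lam', mu, hs⟩ := h.1.exists_srg
  obtain ⟨d, hd⟩ := h.1.cn.ne
  obtain ⟨e, he⟩ := h.1.exists_cm hd
  obtain rfl : k = k' := (hP _ (h.2 d hd)).1.symm.trans (hs.rs d hd)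
  obtain rfl : lam = lam' := ((hP _ (h.2 d hd)).2 e he).symm.trans (hs.lam d hd e he)
  exact ⟨v, mu, hs⟩

theorem f_comp {P Q : Set T.Pt → Prop} (h : Loc P X)
    (hQ : ∀ Y, P Y → ∀ d ∈ Y, ∀ a ∈ Nc Y d, Q (Mu Y d a) ∧ Red (Mu Y d a)) {d a : T.Pt} (hd : d ∈ X)
    (ha : a ∈ Nc X d) : ∃ y ∈ Mu X d a, Loc Q (Cp (Mu X d a) y) ∧
      ∃ m, Odd m ∧ (Mu X d a).ncard = m * (Cp (Mu X d a) y).ncard := by
  obtain ⟨y, hy, h1, h2⟩ := h.1.exists_cm_cm hd ha.1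
  have hy' : y ∈ Mu X d a := ⟨hy, h1, h2⟩
  have h3 : ∀ e ∈ Mu X d a, Q (Rs (Mu X d a) e) ∧ Red (Rs (Mu X d a) e) := fun e he => by
    rw [rs_mu]
    exact hQ _ (h.2 e he.1) d (f_mem hd ha he).1 a (f_mem hd ha he).2
  obtain ⟨h4, h5⟩ := mu_comp (h.1.cl.mu d a) (fun e he => (h3 e he).2) hy'
  refine ⟨y, hy', ⟨h4, fun e he => ?_⟩, h5⟩
  rw [rs_cp hy' he]
  exact (h3 e (cp_subset hy' he)).1

theorem f_eq_cp {Y : Set T.Pt} {y : T.Pt} (hy : y ∈ Y) (h : Y.ncard = (Cp Y y).ncard) :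
    Cp Y y = Y := Set.eq_of_subset_of_ncard_le (cp_subset hy) h.le

theorem f_un_srg {n : ℕ} (h : UnE (n + 2) X) (hn : 2 ≤ n) :
    ∃ lam, Srg X (uv (n + 2)) (4 * uv n) lam (uv n) := by
  have hs := h.st (by omega)
  obtain ⟨v, k, lam, mu, h1⟩ := hs.exists_srg
  obtain ⟨d, hd⟩ := hs.cn.ne
  obtain ⟨a, ha⟩ := hs.exists_ncm hd
  obtain rfl : uv (n + 2) = v := h.card.symm.trans h1.card
  obtain rfl : 4 * uv n = k := (h.card_rs hd).symm.trans (h1.rs d hd)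
  obtain rfl : uv n = mu := (h.mu hd ha).card.symm.trans (h1.mu d hd a ha)
  exact ⟨lam, h1⟩

theorem f_uv : uv 2 = 3 ∧ uv 3 = 9 ∧ uv 4 = 45 ∧ uv 5 = 165 ∧ uv 6 = 693 ∧ uv 8 = 10965 :=
  ⟨rfl, rfl, rfl, rfl, rfl, rfl⟩

theorem UnE.srg4 (h : UnE 4 X) : Srg X 45 12 3 3 := by
  obtain ⟨lam, h1⟩ : ∃ lam, Srg X 45 12 lam 3 := f_un_srg h le_rfl
  obtain ⟨l, j, e1, e2, e3, -⟩ := h1.count
  obtain rfl : lam = 3 := by omega
  exact h1

theorem f_srg5 (h : UnE 5 X) : Srg X 165 36 3 9 := by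
  obtain ⟨lam, h1⟩ : ∃ lam, Srg X 165 36 lam 9 := f_un_srg h (by decide)
  obtain ⟨l, j, e1, e2, e3, -⟩ := h1.count
  obtain rfl : lam = 3 := by omega
  exact h1

theorem UnE.srg6 (h : UnE 6 X) : Srg X 693 180 51 45 := by
  obtain ⟨lam, h1⟩ : ∃ lam, Srg X 693 180 lam 45 := f_un_srg h (by decide)
  obtain ⟨l, j, e1, e2, e3, -⟩ := h1.count
  obtain rfl : lam = 51 := by omega
  exact h1

theorem f_F1 (h : F1 X) : Srg X 3510 693 180 126 ∧
    ∀ d ∈ X, ∀ a ∈ Nc X d, O3 1 6 (Mu X d a) ∧ St (Mu X d a) := by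
  obtain ⟨v, mu, hs⟩ := f_srg h fun Y hY => ⟨hY.srg6.card, hY.srg6.rs⟩
  obtain ⟨l, j, e1, e2, e3, e4, e5, -⟩ := hs.count
  have key : ∀ d ∈ X, ∀ a ∈ Nc X d, mu = 126 ∧ O3 1 6 (Mu X d a) ∧ St (Mu X d a) := by
    intro d hd a ha
    obtain ⟨y, hy, h1, m, h2, h3⟩ := f_comp (Q := O3 1 5) h (fun Y hY d hd a ha =>
      ⟨(hY.mu hd ha).o3, ((hY.mu hd ha).st le_rfl).red⟩) hd ha
    have h4 := loc_o3 (.inl rfl) (.inl le_rfl) h1
    have h5 := (h4.card_A 6).1 rfl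
    rw [hs.mu d hd a ha, h5] at h3
    obtain rfl : m = 1 := by
      obtain ⟨t, rfl⟩ := h2
      have : t ≤ 2 := by omega
      subst h3
      interval_cases t <;> omega
    have h6 := f_eq_cp hy (by rw [hs.mu d hd a ha, h5, h3])
    exact ⟨h3, h6 ▸ h4, h6 ▸ h1.1⟩
  obtain ⟨d, hd⟩ := h.1.cn.ne
  obtain ⟨a, ha⟩ := h.1.exists_ncm hd
  obtain rfl := (key d hd a ha).1
  obtain rfl : v = 3510 := by omega
  exact ⟨hs, fun d hd a ha => (key d hd a ha).2⟩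

theorem F1.srg (h : F1 X) : Srg X 3510 693 180 126 := (f_F1 h).1

theorem f_F2 (h : F2 X) : Srg X 31671 3510 693 351 ∧
    ∀ d ∈ X, ∀ a ∈ Nc X d, O3 1 7 (Mu X d a) ∧ St (Mu X d a) := by
  obtain ⟨v, mu, hs⟩ := f_srg h fun Y hY => ⟨hY.srg.card, hY.srg.rs⟩
  obtain ⟨l, j, e1, e2, e3, e4, e5, -⟩ := hs.count
  have key : ∀ d ∈ X, ∀ a ∈ Nc X d, mu = 351 ∧ O3 1 7 (Mu X d a) ∧ St (Mu X d a) := by
    intro d hd a ha
    obtain ⟨y, hy, h1, m, h2, h3⟩ := f_comp (Q := O3 1 6) h (fun Y hY d hd a ha =>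
      ⟨((f_F1 hY).2 d hd a ha).1, ((f_F1 hY).2 d hd a ha).2.red⟩) hd ha
    have h4 := loc_o3 (.inl rfl) (.inl (by decide)) h1
    have h5 := (h4.card_A 7).2.1 rfl
    rw [hs.mu d hd a ha, h5] at h3
    obtain rfl : m = 1 := by
      obtain ⟨t, rfl⟩ := h2
      have : t ≤ 4 := by omega
      subst h3
      interval_cases t
      · rfl
      · omega
      · exact absurd (hs.int1 (f_nsq 1065 (by decide) (by decide) (by decide))) (by decide)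
      · omega
      · omega
    have h6 := f_eq_cp hy (by rw [hs.mu d hd a ha, h5, h3])
    exact ⟨h3, h6 ▸ h4, h6 ▸ h1.1⟩
  obtain ⟨d, hd⟩ := h.1.cn.ne
  obtain ⟨a, ha⟩ := h.1.exists_ncm hd
  obtain rfl := (key d hd a ha).1
  obtain rfl : v = 31671 := by omega
  exact ⟨hs, fun d hd a ha => (key d hd a ha).2⟩

theorem F2.srg (h : F2 X) : Srg X 31671 3510 693 351 := (f_F2 h).1

theorem f_F3 (h : F3 X) : Srg X 306936 31671 3510 3240 ∧
    ∀ d ∈ X, ∀ a ∈ Nc X d, Red (Mu X d a) ∧ ∃ y ∈ Mu X d a, (Cp (Mu X d a) y).ncard = 1080 := by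
  obtain ⟨v, mu, hs⟩ := f_srg h fun Y hY => ⟨hY.srg.card, hY.srg.rs⟩
  obtain ⟨l, j, e1, e2, e3, e4, e5, -⟩ := hs.count
  have key : ∀ d ∈ X, ∀ a ∈ Nc X d, mu = 3240 ∧ Red (Mu X d a) ∧
      ∃ y ∈ Mu X d a, (Cp (Mu X d a) y).ncard = 1080 := by
    intro d hd a ha
    obtain ⟨y, hy, h1, m, h2, h3⟩ := f_comp (Q := O3 1 7) h (fun Y hY d hd a ha =>
      ⟨((f_F2 hY).2 d hd a ha).1, ((f_F2 hY).2 d hd a ha).2.red⟩) hd ha
    have h4 := loc_o3 (.inl rfl) (.inl (by decide)) h1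
    have h5 := (h4.card_A 8).2.2 rfl
    rw [hs.mu d hd a ha, h5] at h3
    obtain rfl : m = 3 := by
      obtain ⟨t, rfl⟩ := h2
      have : t ≤ 14 := by omega
      subst h3
      interval_cases t
      · exact absurd (hs.int1 (f_nsq 2455 (by decide) (by decide) (by decide))) (by decide)
      · rfl
      · omega
      · omega
      · omega
      · exact absurd (hs.int1 (f_nsq 8374 (by decide) (by decide) (by decide))) (by decide)
      · omega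
      · omega
      · exact absurd (hs.int1 (f_nsq 14851 (by decide) (by decide) (by decide))) (by decide)
      · omega
      · omega
      · exact absurd (hs.int1 (f_nsq 21330 (by decide) (by decide) (by decide))) (by decide)
      · omega
      · omega
      · omega
    refine ⟨h3, red_of_rs (h.1.cl.mu d a) ⟨y, hy⟩ fun e he => ?_, y, hy, h5⟩
    rw [rs_mu]
    exact ((f_F2 (h.2 e he.1)).2 d (f_mem hd ha he).1 a (f_mem hd ha he).2).2.red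
  obtain ⟨d, hd⟩ := h.1.cn.ne
  obtain ⟨a, ha⟩ := h.1.exists_ncm hd
  obtain rfl := (key d hd a ha).1
  obtain rfl : v = 306936 := by omega
  exact ⟨hs, fun d hd a ha => (key d hd a ha).2⟩

theorem F3.srg (h : F3 X) : Srg X 306936 31671 3510 3240 := (f_F3 h).1

theorem not_loc_f3 : ¬ Loc F3 X := fun h => by
  obtain ⟨d, hd⟩ := h.1.cn.ne
  obtain ⟨a, ha⟩ := h.1.exists_ncm hd
  obtain ⟨y, hy, h1, -⟩ := f_comp (Q := fun N => Red N ∧ N.ncard = 3240 ∧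
      ∃ y ∈ N, (Cp N y).ncard = 1080) h (fun Y hY d hd a ha =>
      ⟨⟨((f_F3 hY).2 d hd a ha).1, hY.srg.mu d hd a ha, ((f_F3 hY).2 d hd a ha).2⟩,
        ((f_F3 hY).2 d hd a ha).1⟩) hd ha
  have he := self_mem_cp (Mu X d a) y
  obtain ⟨hR, h2, y₀, hy₀, h3⟩ := h1.2 y he
  have hK := hR.2 y₀ hy₀
  obtain ⟨p, hp, q, hq, hpq⟩ := hK.ex_ncm
  obtain ⟨w, hw, hw1, hw2⟩ := hK.exists_cm_cm hp hq
  obtain ⟨z, hz, hz'⟩ : ∃ z ∈ Rs (Cp (Mu X d a) y) y, z ∉ Cp (Rs (Cp (Mu X d a) y) y) y₀ := by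
    by_contra! h4
    have := Set.ncard_le_ncard (show Rs (Cp (Mu X d a) y) y ⊆ Cp (Rs (Cp (Mu X d a) y) y) y₀ from h4)
    omega
  obtain ⟨w', hw', h4, h5⟩ := h1.1.dia he (cp_subset hy₀ hp) (cp_subset hy₀ hq) (cp_subset hy₀ hw)
    hpq hw1 hw2 hy₀ hz fun h4 => hz' (Relation.ReflTransGen.single ⟨hz, h4⟩)
  exact hz' ((Relation.ReflTransGen.single ⟨hw', h4⟩).tail ⟨hz, h5.symm⟩)

theorem f_not5 : ¬ Loc (UnE 5) X := fun h => by
  obtain ⟨v, mu, hs⟩ := f_srg h fun Y hY => ⟨(f_srg5 hY).card, (f_srg5 hY).rs⟩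
  obtain ⟨l, j, e1, e2, e3, -⟩ := hs.count
  obtain ⟨d, hd⟩ := h.1.cn.ne
  obtain ⟨a, ha⟩ := h.1.exists_ncm hd
  have hY := h.2 d hd
  have sY := f_srg5 hY
  set Y := Rs X d with hYdef
  set M := Mu X d a with hMdef
  have hMY : M ⊆ Y := mu_subset_rs ha.2
  have cls : ∀ y ∈ Y, ∀ x ∈ Rs Y y, {z | z ∈ Rs Y y ∧ cm z x}.ncard = 4 := fun y hy x hx => by
    have : {z | z ∈ Rs Y y ∧ cm z x} = insert x (Rs (Rs Y y) x) := by
      ext z
      refine ⟨fun hz => ?_, ?_⟩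
      · by_cases e : z = x
        · exact .inl e
        · exact .inr ⟨hz.1, e, hz.2.symm⟩
      · rintro (rfl | hz)
        exacts [⟨hx, cm_refl _⟩, ⟨hz.1, hz.2.2.symm⟩]
    rw [this, Set.ncard_insert_of_notMem fun h => h.2.1 rfl, sY.lam y hy x hx]
  have un3 : ∀ e ∈ M, UnE 3 (Rs M e) := fun e he => by
    rw [rs_mu]
    exact (h.2 e he.1).mu (f_mem hd ha he).1 (f_mem hd ha he).2
  have once : ∀ e ∈ M, ∀ y ∈ Rs Y e, {z | z ∈ Rs M e ∧ cm y z}.ncard = 1 := by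
    intro e he
    have sub : Rs M e ⊆ Rs Y e := fun z hz => ⟨hMY hz.1, hz.2⟩
    have h1 : ∀ y ∈ Rs Y e, {z | z ∈ Rs M e ∧ cm y z}.ncard ≤ 1 := fun y hy => by
      rw [Set.ncard_le_one_iff_subsingleton]
      intro z hz z' hz'
      by_contra hne
      have h2 := (un3 e he).card_rs hz.1
      rw [uv_one, mul_zero, Set.ncard_eq_zero] at h2
      exact (h2 ▸ show z' ∈ Rs (Rs M e) z from ⟨hz'.1, Ne.symm hne,
        hY.cm_trans le_rfl (hMY he) (sub hz.1) hy (sub hz'.1) hz.2.symm hz'.2⟩ : z' ∈ (∅ : Set _))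
    have h2 := f_dc (Rs Y e) (Rs M e) cm
    rw [f_sum_const fun z hz => cls e (hMY he) z (sub hz), (un3 e he).card] at h2
    have h3 : ∑ _x ∈ (Rs Y e).toFinite.toFinset, 1 = uv 3 * 4 := by
      rw [f_sum_const (c := 1) fun _ _ => rfl, sY.rs e (hMY he)]; rfl
    intro y hy
    exact (Finset.sum_eq_sum_iff_of_le fun y hy => h1 y (by simpa using hy)).mp (h2.trans h3.symm) y
      (by simpa using hy)
  have two : ∀ y ∈ Y, y ∉ M → ∀ x ∈ Rs Y y, {z | z ∈ {z | z ∈ M ∧ cm y z} ∧ cm x z}.ncard = 2 := by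
    intro y hy hyM x hx
    let Λ := insert y {z | z ∈ Rs Y y ∧ cm z x}
    have hΛ : Λ.ncard = 5 := by
      rw [Set.ncard_insert_of_notMem fun h => h.1.2.1 rfl, cls y hy x hx]
    have hΛY : Λ ⊆ Y := by
      rintro z (rfl | hz)
      exacts [hy, hz.1.1]
    have hΛc : ∀ p ∈ Λ, ∀ q ∈ Λ, cm p q := by
      rintro p (rfl | hp) q (rfl | hq)
      exacts [cm_refl _, hq.1.2.2, hp.1.2.2.symm,
        hY.cm_trans le_rfl hy hp.1 hx hq.1 hp.2 hq.2.symm]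
    let ε : Λ ≃ Fin 5 := Finite.equivFinOfCardEq hΛ
    obtain ⟨i, hi⟩ := cl6 h.1.cl hd ha.1 (fun i => (ε.symm i : T.Pt)) (fun i => hΛY (ε.symm i).2)
      (Subtype.val_injective.comp ε.symm.injective) (fun i j => hΛc _ (ε.symm i).2 _ (ε.symm j).2)
      (fun i j hij c hc h1 h2 => by
        have hp := (ε.symm i).2
        have hq := (ε.symm j).2
        have hpq : (ε.symm j : T.Pt) ≠ ε.symm i := fun e =>
          hij (ε.symm.injective (Subtype.ext e)).symm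
        have h3 : Λ = insert (ε.symm i : T.Pt) {z | z ∈ Rs Y (ε.symm i) ∧ cm z (ε.symm j)} := by
          refine Set.eq_of_subset_of_ncard_le (fun z hz => ?_) ?_
          · by_cases e : z = ε.symm i
            · exact .inl e
            · exact .inr ⟨⟨hΛY hz, e, hΛc _ hp _ hz⟩, hΛc _ hz _ hq⟩
          · rw [Set.ncard_insert_of_notMem fun h => h.1.2.1 rfl, hΛ,
              cls _ (hΛY hp) _ ⟨hΛY hq, hpq, hΛc _ hp _ hq⟩]
        have h4 : c ∈ Λ := by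
          rw [h3]
          by_cases e : c = ε.symm i
          · exact .inl e
          · exact .inr ⟨⟨hc, e, h1⟩, h2.symm⟩
        exact ⟨ε ⟨c, h4⟩, by simp⟩) (ncm_symm ha.2)
    have he : (ε.symm i : T.Pt) ∈ M := ⟨(hΛY (ε.symm i).2).1, (hΛY (ε.symm i).2).2.2, hi⟩
    have he' : (ε.symm i : T.Pt) ∈ Rs Y y ∧ cm (ε.symm i : T.Pt) x :=
      (ε.symm i).2.resolve_left fun e => hyM (e ▸ he)
    generalize (ε.symm i : T.Pt) = e at he he'
    have h1 := once e he y ⟨hy, he'.1.2.1.symm, he'.1.2.2.symm⟩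
    have h2 : {z | z ∈ {z | z ∈ M ∧ cm y z} ∧ cm x z} = insert e {z | z ∈ Rs M e ∧ cm y z} := by
      ext z
      refine ⟨fun hz => ?_, ?_⟩
      · by_cases e' : z = e
        · exact .inl e'
        · exact .inr ⟨⟨hz.1.1, e', hY.cm_trans le_rfl hy he'.1 hx
            ⟨hMY hz.1.1, fun e => hyM (e ▸ hz.1.1), hz.1.2⟩ he'.2 hz.2⟩, hz.1.2⟩
      · rintro (rfl | hz)
        · exact ⟨⟨he, he'.1.2.2⟩, he'.2.symm⟩
        · exact ⟨⟨hz.1.1, hz.2⟩, hY.cm_trans le_rfl hy hx he'.1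
            ⟨hMY hz.1.1, fun e => hyM (e ▸ hz.1.1), hz.2⟩ he'.2.symm hz.1.2.2⟩
    rw [h2, Set.ncard_insert_of_notMem fun h => h.1.2.1 rfl, h1]
  have eighteen : ∀ y ∈ Y \ M, {z | z ∈ M ∧ cm y z}.ncard = 18 := fun y hy => by
    have h1 := f_dc (Rs Y y) {z | z ∈ M ∧ cm y z} cm
    rw [f_sum_const (two y hy.1 hy.2), f_sum_const fun z hz => cls y hy.1 z
      ⟨hMY hz.1, fun e => hy.2 (e ▸ hz.1), hz.2⟩, sY.rs y hy.1] at h1
    omega
  have h1 := f_dc (Y \ M) M cm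
  rw [f_sum_const eighteen, f_sum_const (c := 27) fun e he => by
    have h2 : {x | x ∈ Y \ M ∧ cm x e} = Rs Y e \ Rs M e := by
      ext x
      exact ⟨fun hx => ⟨⟨hx.1.1, fun e' => hx.1.2 (e' ▸ he), hx.2.symm⟩, fun h => hx.1.2 h.1⟩,
        fun hx => ⟨⟨hx.1.1, fun h => hx.2 ⟨h, hx.1.2⟩⟩, hx.1.2.2.symm⟩⟩
    rw [h2, Set.ncard_sdiff (show Rs M e ⊆ Rs Y e from fun z hz => ⟨hMY hz.1, hz.2⟩), sY.rs e (hMY he), (un3 e he).card]
    rfl, Set.ncard_sdiff hMY, sY.card, hs.mu d hd a ha] at h1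
  obtain rfl : mu = 66 := by omega
  obtain ⟨n, hn, -⟩ := hs.spec e1 (r := 3) (s := -33) (by decide) (by decide) (by decide)
  omega

theorem not_loc_un {n : ℕ} (hn : n = 5 ∨ 7 ≤ n) : ¬ Loc (UnE n) X := by
  induction n using Nat.strong_induction_on generalizing X with | _ n ih => ?_
  intro h
  rcases hn with rfl | hn
  · exact f_not5 h
  obtain ⟨m, rfl⟩ : ∃ m, n = m + 2 := ⟨n - 2, by omega⟩
  obtain ⟨d, hd⟩ := h.1.cn.ne
  obtain ⟨a, ha⟩ := h.1.exists_ncm hd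
  obtain ⟨y, hy, h1, t, -, h3⟩ := f_comp (Q := UnE m) h (fun Y hY d hd a ha =>
    ⟨hY.mu hd ha, ((hY.mu hd ha).st (by omega)).red⟩) hd ha
  by_cases h6 : m = 6
  · subst h6
    obtain ⟨v, mu, hs⟩ := f_srg (k := 10965) (lam := 2772) h fun Y hY =>
      ⟨hY.card, fun e he => hY.card_rs he⟩
    obtain ⟨l, j, e1, e2, e3, -⟩ := hs.count
    rw [hs.mu d hd a ha, (F1.srg h1).card] at h3
    obtain rfl : j = 8192 := by omega
    have h4 : 13 ∣ mu * l := Dvd.dvd.mul_right (h3 ▸ Dvd.dvd.mul_left (by decide) t) l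
    rw [← e3] at h4
    exact absurd h4 (by decide)
  · exact ih m (by omega) (by omega) h1

end Cfsg.Agent.H3.TTC
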