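import Cfsg.Agent.Fs.PF3D

/-! The group of type `Fi24` has a sign character. -/

set_option autoImplicit false
set_option linter.unusedSectionVars false

namespace Cfsg.Agent.H3.TTC

open Subgroup

universe u

variable {G : Type u} [Group G] [Finite G] {T : TTC G} {X : Set T.Pt}

/-- products of cliques -/
def Cq (X : Set T.Pt) (g : G) : Prop :=
  ∃ L : List T.Pt, (∀ x ∈ L, x ∈ X) ∧ (∀ x ∈ L, ∀ y ∈ L, cm x y) ∧ (L.map Pt.val).prod = g

theorem f3_cq (h : St X) (h4 : Four X) (ht : Tri X) (hE : Ex2 X)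
    (hr : ∀ d ∈ X, Ex2 (Rs X d) → ∀ g ∈ gp (Rs X d), g ∈ fx (Rs X d) → Cq (Rs X d) g) {g : G}
    (hg : g ∈ gp X) (hf : g ∈ fx X) : Cq X g := by
  obtain ⟨d, hd, -⟩ := h.ex_ncm
  obtain ⟨g', h1, h2, h3⟩ := f3_down h.cl h4 ht hE hd hg hf
  obtain ⟨L, e1, e2, e3⟩ := hr d hd (hE.rs h hd) g' h1 h2
  rcases h3 with h3 | h3
  · exact ⟨L, fun x hx => (e1 x hx).1, e2, e3.trans h3.symm⟩
  · refine ⟨d :: L, fun x hx => ?_, fun x hx y hy => ?_, by rw [List.map_cons, List.prod_cons, e3, h3]⟩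
    · rcases List.mem_cons.1 hx with rfl | hx
      exacts [hd, (e1 x hx).1]
    · rcases List.mem_cons.1 hx with hx' | hx' <;> rcases List.mem_cons.1 hy with hy' | hy'
      exacts [hx' ▸ hy' ▸ cm_refl _, hx' ▸ (e1 y hy').2.2, hy' ▸ (e1 x hx').2.2.symm, e2 x hx' y hy']

theorem UnE.cq_of (h : UnE 6 X) (hE : Ex2 X) {g : G} (hg : g ∈ gp X) (hf : g ∈ fx X) : Cq X g := by
  have hs := h.st (by norm_num)
  obtain ⟨d, hd, -⟩ := hs.ex_ncm
  obtain ⟨e, he⟩ := hs.exists_cm hd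
  exact h.clique hd he (h.mem_line hE hd he hg hf) hf

theorem F1.cq_of (h : F1 X) (hE : Ex2 X) {g : G} (hg : g ∈ gp X) (hf : g ∈ fx X) : Cq X g :=
  f3_cq h.1 (f3_four 0 h.srg (by norm_num) (by norm_num) (by norm_num)) h.tri hE
    (fun d hd hE _ => (h.2 d hd).cq_of hE) hg hf

theorem F2.cq_of (h : F2 X) (hE : Ex2 X) {g : G} (hg : g ∈ gp X) (hf : g ∈ fx X) : Cq X g :=
  f3_cq h.1 (f3_four 0 h.srg (by norm_num) (by norm_num) (by norm_num)) h.tri hE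
    (fun d hd hE _ => F1.cq_of (h.2 d hd) hE) hg hf

theorem F3.cq_of (h : F3 X) (hE : Ex2 X) {g : G} (hg : g ∈ gp X) (hf : g ∈ fx X) : Cq X g :=
  f3_cq h.1 (f3_four 0 h.srg (by norm_num) (by norm_num) (by norm_num)) h.tri hE
    (fun d hd hE _ => F2.cq_of (h.2 d hd) hE) hg hf

theorem F3.sg (h : F3 (Set.univ : Set T.Pt)) (hZ : Subgroup.center G = ⊥) :
    Sg (Set.univ : Set T.Pt) :=
  F3.sg_of (fun h hE c hc => by
    obtain ⟨L, e1, e2, e3⟩ := h.cq_of hE (by rw [gp_univ]; exact mem_top c) hc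
    exact ⟨L, h.even _ L rfl e1 e2 (e3 ▸ hc), e3⟩) h hZ

end Cfsg.Agent.H3.TTC
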