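import Cfsg.Agent.Fs.PF3b

/-! Central elements in the group of a line are products of cliques. -/

set_option autoImplicit false

namespace Cfsg.Agent.H3.TTC

universe u

variable {G : Type u} [Group G] [Finite G] {T : TTC G} {X : Set T.Pt}

theorem UnE.clique (h : UnE 6 X) {d e : T.Pt} (hd : d ∈ X) (he : e ∈ Rs X d) {c : G}
    (hc : c ∈ gp (Pp (Pp X d) e)) (hf : c ∈ fx X) :
    ∃ L : List T.Pt, (∀ x ∈ L, x ∈ X) ∧ (∀ x ∈ L, ∀ y ∈ L, cm x y) ∧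
      (L.map Pt.val).prod = c := by
  obtain ⟨u₁, -, u₂, -, u₃, -, -, -, -, h1, -, h2, h3⟩ := h.six hd he
  have hP : Cl (Pp (Pp X d) e) := ((h.st (by decide)).cl.pp d).pp e
  have m : ∀ x ∈ Pp (Pp X d) e, ∀ y ∈ Pp (Pp X d) e, ¬ cm x y → x ∈ Rs (Rs X d) e :=
    fun x hx y hy n => ⟨⟨hx.1.1, fun e => n (e ▸ hy.1.2), hx.1.2⟩, fun e => n (e ▸ hy.2), hx.2⟩
  have tr : ∀ y ∈ Pp (Pp X d) e, ∀ w ∈ Pp (Pp X d) e, ¬ cm y w → ∀ x ∈ Pp (Pp X d) e,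
      ∀ z ∈ Pp (Pp X d) e, cm x y → cm y z → cm x z := fun y hy w hw n x hx z hz a1 a2 => by
    by_contra n'
    have a3 := h1 w hw.1.1 hw.1.2 hw.2
    exact n' ((h2 y (m y hy w hw n) (fun e => n (e ▸ a3.1)) (fun e => n (e ▸ a3.2.1))
      (fun e => n (e ▸ a3.2.2))).2.2 x (m x hx z hz n') z (m z hz x hx (ncm_symm n')) a1 a2)
  by_cases hn : ∃ y ∈ Pp (Pp X d) e, ∃ w ∈ Pp (Pp X d) e, ¬ cm y w
  · obtain ⟨y, hy, w, hw, n⟩ := hn
    have : c ∈ gp (Pp (Pp (Pp X d) e) y) := by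
      refine m0 hP (fun x => gp (Pp (Pp (Pp X d) e) x)) (fun g hg x _ k hk =>
        f3_conj (S' := Pp (Pp (Pp X d) e) (g • x)) (fun e he =>
          ⟨hP.smul_mem hg he.1, (cm_smul g x e).2 he.2⟩) hk) (fun x _ e he => mem_gp he)
        (fun x hx y hy z hz a1 a2 a3 => ?_) hy ⟨w, hw, n⟩
        (fun y' hy' u hu u' hu' a1 a2 a3 => ?_) (fun a ha b hb n' => ?_) hc
        (mem_fx.1 hf y hy.1.1)
      · obtain ⟨e1, e2⟩ := tri_eq a1 a2 a3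
          (h3 x (m x hx y hy a1) y (m y hy z hz a2) z (m z hz x hx a3) a1 a2 a3)
        rw [e1]; exact mem_gp ⟨hP _ hy _ hz, e2⟩
      · have b1 : ¬ cm y (y ◃ u) := by rw [cm_rf_self_left]; exact hu.2
        have b2 : ¬ cm u (y ◃ u) := cm_rf_self_right hu.2
        have b3 := hP _ hy _ hu.1
        exact ⟨y ◃ u, ⟨b3, b1⟩, fun k => b1 (tr y' hy'.1 u hu.1 a1 y hy _ b3 hy'.2 k), b2,
          fun k => b2 (tr u' hu'.1 y hy (ncm_symm hu'.2) u hu.1 _ b3 a3 k)⟩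
      · exact absurd (tr y hy w hw n a ha.1 b hb.1 ha.2.symm hb.2) n'
    obtain ⟨L, l1, l2⟩ := exists_list_of_mem_gp this
    exact ⟨L, fun x hx => (l1 x hx).1.1.1, fun a ha b hb =>
      tr y hy w hw n a (l1 a ha).1 b (l1 b hb).1 (l1 a ha).2.symm (l1 b hb).2, l2⟩
  · push Not at hn
    obtain ⟨L, l1, l2⟩ := exists_list_of_mem_gp hc
    exact ⟨L, fun x hx => (l1 x hx).1.1, fun a ha b hb => hn a (l1 a ha) b (l1 b hb), l2⟩

end Cfsg.Agent.H3.TTC
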