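import Cfsg.Agent.Fs.IF3x

/-! Central elements of the group of the six-dimensional unitary space lie in the group of a line. -/

set_option autoImplicit false
set_option linter.unusedSectionVars false

namespace Cfsg.Agent.H3.TTC

open Subgroup MulAction

universe u

variable {G : Type u} [Group G] [Finite G] {T : TTC G} {X : Set T.Pt}

theorem f3_rel (H K : Subgroup G) : H.relIndex K * Nat.card (K ⊓ H : Subgroup G) = Nat.card K := by
  rw [← Nat.card_congr (subgroupOfEquivOfLe (inf_le_left : K ⊓ H ≤ K)).toEquiv, inf_subgroupOf_left,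
    relIndex, index_mul_card]

theorem UnE.four_rs (h : UnE 6 X) {d : T.Pt} (hd : d ∈ X) {a b c e : T.Pt} (ha : a ∈ Rs X d)
    (hb : b ∈ Rs X d) (hc : c ∈ Rs X d) (he : e ∈ Rs X d) :
    ∃ u ∈ Pp X d, ¬ cm a u ∧ ¬ cm b u ∧ ¬ cm c u ∧ ¬ cm e u := by
  obtain ⟨o, ho⟩ := (h.st (by norm_num)).exists_ncm hd
  have h4 := f3_four 3 (h.mu (n := 4) hd ho).srg4 (by norm_num) (by norm_num) (by norm_num)
  obtain ⟨a', ha', e1⟩ := h.proj hd ho ha
  obtain ⟨b', hb', e2⟩ := h.proj hd ho hb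
  obtain ⟨c', hc', e3⟩ := h.proj hd ho hc
  obtain ⟨e', he', e4⟩ := h.proj hd ho he
  obtain ⟨u, hu, h1, h2, h3, h5⟩ := h4 a' ha' b' hb' c' hc' e' he'
  have hu' : u ∈ Pp X d := ⟨hu.1, hu.2.1⟩
  exact ⟨u, hu', fun e => h1 ((e1 u hu').1 e.symm).symm, fun e => h2 ((e2 u hu').1 e.symm).symm,
    fun e => h3 ((e3 u hu').1 e.symm).symm, fun e => h5 ((e4 u hu').1 e.symm).symm⟩

/-- generation by points and elements of order three -/
def l3 (P : Set T.Pt) (x : T.Pt) : Subgroup G :=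
  closure ((gp (Pp P x) : Set G) ∪ {g | g ∈ gp P ∧ g • x = x ∧ g ^ 3 = 1})

theorem UnE.mem_l3 (h : UnE 6 X) {d e : T.Pt} (hd : d ∈ X) (he : e ∈ Rs X d) {g : G}
    (hg : g ∈ gp (Pp X d)) (hge : g • e = e) : g ∈ l3 (Pp X d) e := by
  have hP : Cl (Pp X d) := (h.st (by norm_num)).cl.pp d
  have hr : ∀ {x y : T.Pt}, x ∈ Pp X d → y ∈ Pp X d → ¬ cm x y → x ∈ Rs X d := fun hx hy hn =>
    ⟨hx.1, fun e => hn (e ▸ hy.2), hx.2⟩
  have he' : e ∈ Pp X d := ⟨he.1, he.2.2⟩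
  have hK : ∀ x, gp (Pp (Pp X d) x) ≤ l3 (Pp X d) x := fun x _ hk => subset_closure (Or.inl hk)
  refine m0 hP (l3 (Pp X d)) (fun g hg x hx k hk => ?_) (fun x _ e he => hK x (mem_gp he)) ?_ he' ?_ ?_ ?_
    hg hge
  · refine closure_induction (p := fun k _ => g * k * g⁻¹ ∈ l3 (Pp X d) (g • x)) ?_ (by simp)
      (fun a b _ _ h1 h2 => ?_) (fun a _ h1 => ?_) hk
    · rintro k (hk | ⟨h1, h2, h3⟩)
      · exact hK _ (f3_conj (S' := Pp (Pp X d) (g • x))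
          (fun e he => ⟨hP.smul_mem hg he.1, (cm_smul g x e).2 he.2⟩) hk)
      · refine subset_closure (Or.inr ⟨mul_mem (mul_mem hg h1) (inv_mem hg), ?_, ?_⟩)
        · rw [mul_smul, inv_smul_smul, mul_smul, h2]
        · rw [conj_pow, h3, mul_one, mul_inv_cancel]
    · rw [show g * (a * b) * g⁻¹ = (g * a * g⁻¹) * (g * b * g⁻¹) by group]; exact mul_mem h1 h2
    · rw [show g * a⁻¹ * g⁻¹ = (g * a * g⁻¹)⁻¹ by group]; exact inv_mem h1
  · intro x hx y hy z hz h1 h2 h3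
    by_cases h5 : cm z (x ◃ y)
    · obtain ⟨e1, e2⟩ := tri_eq h1 h2 h3 h5
      rw [e1]; exact hK x (mem_gp ⟨hP _ hy _ hz, e2⟩)
    have c1 : TTC.tri x y z * x.val ∈ l3 (Pp X d) x := subset_closure (Or.inr
      ⟨mul_mem (f3_tri_mem hP hx hy hz) (mem_gp hx), by
        rw [mul_smul, ← rf_def, (cm_refl x).rf_eq, tri_smul h1 h2 h3], tri_cube' h1 h2 h3 h5⟩)
    have := mul_mem c1 (hK x (mem_gp ⟨hx, cm_refl x⟩))
    rwa [mul_assoc, x.mul_self, mul_one] at this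
  · obtain ⟨u, hu, h1, -⟩ := h.four_rs hd he he he he; exact ⟨u, hu, h1⟩
  · intro y hy u hu u' hu' h1 _ _
    obtain ⟨w, hw, h2⟩ := h.four_rs hd he (hr hy.1 hu.1 h1) (hr hu.1 he' (ncm_symm hu.2))
      (hr hu'.1 he' (ncm_symm hu'.2))
    exact ⟨w, ⟨hw, h2.1⟩, h2.2⟩
  · intro y hy y' hy' h1
    obtain ⟨w, hw, h2⟩ := h.four_rs hd he (hr hy.1 hy'.1 h1) (hr hy'.1 hy.1 (ncm_symm h1)) he
    exact ⟨w, ⟨hw, h2.1⟩, h2.2.1, h2.2.2.1⟩

theorem UnE.card_b2 (h : UnE 6 X) {d e : T.Pt} (hd : d ∈ X) (he : e ∈ Rs X d) :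
    Nat.card (gp X ⊓ stabilizer G d ⊓ stabilizer G e : Subgroup G) =
      9 * (2 ^ 13 * Nat.card (gp X ⊓ fx X : Subgroup G)) := by
  have hs := h.st (by norm_num)
  have e1 := f3_rel (fx X) (gp X)
  have e2 := f3_orbit (gp X) d
  have e3 := f3_orbit (gp X ⊓ stabilizer G d) e
  have o1 : {y | ∃ g ∈ gp X, g • d = y} = X := by
    ext y; constructor
    · rintro ⟨g, hg, rfl⟩; exact hs.cl.smul_mem hg hd
    · exact fun hy => hs.cn.trans d hd y hy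
  have o2 : {y | ∃ g ∈ gp X ⊓ stabilizer G d, g • e = y} = Rs X d := by
    ext y; constructor
    · rintro ⟨g, ⟨hg, hg'⟩, rfl⟩
      have hg' : g • d = d := hg'
      refine ⟨hs.cl.smul_mem hg he.1, fun e' => he.2.1 (smul_left_cancel g (e'.trans hg'.symm)), ?_⟩
      rw [← hg']; exact (cm_smul g d e).2 he.2.2
    · intro hy
      obtain ⟨g, hg, e'⟩ := (hs.cn_rs hd).trans e he y hy
      exact ⟨g, ⟨gp_mono (fun _ h => h.1) hg, f3_rs_fix hg⟩, e'⟩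
  rw [o1, h.srg6.card] at e2
  rw [o2, h.srg6.rs d hd] at e3
  have e4 : (fx X).relIndex (gp X) = 9196830720 := h.cq
  rw [e4, e2, e3] at e1
  omega

theorem UnE.mem_line (h : UnE 6 X) (hE : Ex2 X) {d e : T.Pt} (hd : d ∈ X) (he : e ∈ Rs X d) {c : G}
    (hc : c ∈ gp X) (hf : c ∈ fx X) : c ∈ gp (Pp (Pp X d) e) := by
  have hs := h.st (by norm_num)
  have h4 := f3_four 45 h.srg6 (by norm_num) (by norm_num) (by norm_num)
  set B := gp X ⊓ stabilizer G d ⊓ stabilizer G e with hB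
  set K := gp (Pp (Pp X d) e) with hK
  set Z := gp X ⊓ fx X with hZ
  have hKB : K ≤ B := f3_gp_le fun x hx => ⟨⟨mem_gp hx.1.1, hx.1.2.rf_eq'⟩, hx.2.rf_eq'⟩
  have hZB : Z ≤ B := fun z hz => ⟨⟨hz.1, mem_fx.1 hz.2 d hd⟩, mem_fx.1 hz.2 e he.1⟩
  haveI : (K.subgroupOf B).Normal := ⟨fun n hn g => by
    have h1 : (g : G) • d = d := g.2.1.2
    have h2 : (g : G) • e = e := g.2.2
    exact f3_conj (S' := Pp (Pp X d) e) (fun x hx => ⟨⟨hs.cl.smul_mem g.2.1.1 hx.1.1,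
      h1 ▸ (cm_smul (g : G) d x).2 hx.1.2⟩, h2 ▸ (cm_smul (g : G) e x).2 hx.2⟩) hn⟩
  have key := f3_sz (K.subgroupOf B) (Z.subgroupOf B)
    (fun z hz => mem_center_iff.2 fun g => Subtype.ext (f3_comm hz.2 g.2.1.1).symm.eq)
    (fun z hz => Subtype.ext (hE z hz.1 hz.2)) ?_ ?_
  · exact key (show (⟨c, hZB ⟨hc, hf⟩⟩ : B) ∈ Z.subgroupOf B from ⟨hc, hf⟩)
  · rw [← subgroupOf_sup hKB hZB]
    have e1 := ((K ⊔ Z).subgroupOf B).index_mul_card
    rw [Nat.card_congr (subgroupOfEquivOfLe (sup_le hKB hZB)).toEquiv, h.card_b2 hd he] at e1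
    obtain ⟨m, hm⟩ := h.count hE hd he
    rw [hm, ← mul_assoc, mul_right_comm] at e1
    have e2 := Nat.eq_of_mul_eq_mul_right (Nat.mul_pos (by norm_num) Nat.card_pos) e1
    exact Odd.of_dvd_nat (by decide : Odd 9) ⟨m, e2.symm⟩
  · refine top_le_iff.1 fun g _ => ?_
    have h1 := h.mem_l3 hd he (f3_exact hs.cl h4 h.tri hE hd g.2.1.1 g.2.1.2) g.2.2
    have h2 : l3 (Pp X d) e ≤ (closure ((K.subgroupOf B : Set B) ∪ {g | g ^ 3 = 1})).map B.subtype := by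
      refine (closure_le _).2 ?_
      rintro k (hk | ⟨h1, h2, h3⟩)
      · exact ⟨⟨k, hKB hk⟩, subset_closure (Or.inl hk), rfl⟩
      · exact ⟨⟨k, ⟨gp_mono (fun _ h => h.1) h1, smul_eq_of_mem_gp (fun _ h => h.2) h1⟩, h2⟩,
          subset_closure (Or.inr (Subtype.ext h3)), rfl⟩
    obtain ⟨k, hk, e'⟩ := h2 h1
    rwa [show k = g from Subtype.ext e'] at hk

end Cfsg.Agent.H3.TTC
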