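import Cfsg.Agent.Fs.PF3b

/-! The two-part of the group of a line. -/

set_option autoImplicit false

namespace Cfsg.Agent.H3.TTC

open Subgroup MulAction

universe u

variable {G : Type u} [Group G] [Finite G] {T : TTC G} {X : Set T.Pt}

theorem UnE.count (h : UnE 6 X) (hE : Ex2 X) {d e : T.Pt} (hd : d ∈ X) (he : e ∈ Rs X d) :
    2 ^ 13 * Nat.card (gp X ⊓ fx X : Subgroup G) ∣
      Nat.card (gp (Pp (Pp X d) e) ⊔ (gp X ⊓ fx X) : Subgroup G) := by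
  have hs := h.st (by norm_num)
  obtain ⟨u₁, m₁, u₂, m₂, u₃, m₃, n12, n13, n23, h1, -, h2, -⟩ := h.six hd he
  have hR := h.srg6.lam d hd e he
  set R := Rs (Rs X d) e with hRd
  set P := Pp (Pp X d) e with hP
  set Z := gp X ⊓ fx X with hZ
  have hRP : R ⊆ P := fun x hx => ⟨⟨hx.1.1, hx.1.2.2⟩, hx.2.2⟩
  have hPc : Cl P := (hs.cl.pp d).pp e
  have h3 : ({u₁, u₂, u₃} : Set T.Pt).ncard = 3 := Set.ncard_eq_three.2 ⟨u₁, u₂, u₃, n12, n13, n23, rfl⟩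
  have hsub : ({u₁, u₂, u₃} : Set T.Pt) ⊆ R := by rintro _ (rfl | rfl | rfl) <;> assumption
  have hW : (R \ {u₁, u₂, u₃}).ncard = 48 := by rw [Set.ncard_diff hsub, hR, h3]
  have hu : ∀ u ∈ ({u₁, u₂, u₃} : Set T.Pt), ∀ z ∈ P, cm u z := by
    rintro _ (rfl | rfl | rfl) z hz
    exacts [(h1 z hz.1.1 hz.1.2 hz.2).1, (h1 z hz.1.1 hz.1.2 hz.2).2.1, (h1 z hz.1.1 hz.1.2 hz.2).2.2]
  have h2' : ∀ y ∈ R \ {u₁, u₂, u₃}, (∃ x ∈ R, ¬ cm y x) ∧ (Pp R y).ncard = 19 ∧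
      ∀ x ∈ R, ∀ z ∈ R, cm x y → cm y z → cm x z := fun y hy =>
    h2 y hy.1 (fun e => hy.2 (by simp [e])) (fun e => hy.2 (by simp [e])) (fun e => hy.2 (by simp [e]))
  obtain ⟨y, hy⟩ := Set.nonempty_of_ncard_ne_zero (s := R \ {u₁, u₂, u₃}) (by rw [hW]; norm_num)
  obtain ⟨⟨x, hx, hyx⟩, h19, htr⟩ := h2' y hy
  have hfix : ∀ g ∈ gp P ⊔ Z, g ∈ gp X ∧ ∀ u ∈ X, (∀ z ∈ P, cm u z) → g • u = u := fun g hg => by
    refine ⟨sup_le (gp_mono fun _ h => h.1.1) inf_le_left hg, fun u hu hc => ?_⟩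
    exact sup_le (b := Z) (c := stabilizer G u) (f3_gp_le fun z hz => (hc z hz).rf_eq')
      (fun z hz => mem_fx.1 hz.2 u hu) hg
  have o1 : {y' | ∃ g ∈ gp P ⊔ Z, g • y = y'} = R \ {u₁, u₂, u₃} := by
    ext y'; constructor
    · rintro ⟨g, hg, rfl⟩
      obtain ⟨g1, g2⟩ := hfix g hg
      have gd := g2 d hd fun z hz => hz.1.2
      have ge := g2 e he.1 fun z hz => hz.2
      refine ⟨⟨⟨hs.cl.smul_mem g1 hy.1.1.1, fun e' => hy.1.1.2.1 (smul_left_cancel g (e'.trans gd.symm)),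
        gd ▸ (cm_smul g d y).2 hy.1.1.2.2⟩, fun e' => hy.1.2.1 (smul_left_cancel g (e'.trans ge.symm)),
        ge ▸ (cm_smul g e y).2 hy.1.2.2⟩, fun hm => hy.2 ?_⟩
      rwa [smul_left_cancel g (g2 _ (hsub hm).1.1 (hu _ hm))] at hm
    · intro hy'
      have mm : ∀ a ∈ P, ∀ b ∈ P, (a ◃ b).val ∈ gp P ⊔ Z := fun a ha b hb =>
        mem_sup_left (mem_gp (hPc a ha b hb))
      by_cases c : cm y y'
      · have c' : ¬ cm x y' := fun k => hyx ((h2' y' hy').2.2 y hy.1 x hx c k.symm)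
        exact ⟨_, mul_mem (mm x (hRP hx) y' (hRP hy'.1)) (mm y (hRP hy.1) x (hRP hx)), by
          rw [mul_smul, smul_eq_of_ncm hyx, smul_eq_of_ncm c']⟩
      · exact ⟨_, mm y (hRP hy.1) y' (hRP hy'.1), smul_eq_of_ncm c⟩
  have hQ : ∀ a ∈ Pp P y, ∀ b ∈ Pp P y, cm a b := fun a ha b hb => by
    by_contra n
    have m : ∀ a ∈ P, ∀ b ∈ P, ¬ cm a b → a ∈ R := fun a ha b hb n =>
      ⟨⟨ha.1.1, fun e => n (e ▸ hb.1.2), ha.1.2⟩, fun e => n (e ▸ hb.2), ha.2⟩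
    exact n (htr a (m a ha.1 b hb.1 n) b (m b hb.1 a ha.1 (ncm_symm n)) ha.2.symm hb.2)
  set V := closure (Pt.val '' Pp P y ∪ (Z : Set G)) with hV
  have hV2 : IsPGroup 2 V := f3_exp2
    (by rintro _ (⟨a, -, rfl⟩ | hz); exacts [a.mul_self, hE _ hz.1 hz.2])
    (by
      rintro _ (⟨a, ha, rfl⟩ | hz) _ (⟨b, hb, rfl⟩ | hz')
      exacts [hQ a ha b hb, (f3_comm hz'.2 (mem_gp ha.1.1.1)).symm, f3_comm hz.2 (mem_gp hb.1.1.1),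
        f3_comm hz.2 hz'.1])
  have hVp : ∀ a ∈ Pp P y, a.val ∈ V := fun a ha => subset_closure (Or.inl ⟨a, ha, rfl⟩)
  have hVle : V ≤ (gp P ⊔ Z) ⊓ stabilizer G y := (closure_le _).2 (by
    rintro _ (⟨a, ha, rfl⟩ | hz)
    exacts [⟨mem_sup_left (mem_gp ha.1), ha.2.rf_eq'⟩, ⟨mem_sup_right hz, mem_fx.1 hz.2 y hy.1.1.1⟩])
  have e1 := f3_orbit (gp P ⊔ Z) y
  have e2 := f3_orbit V x
  rw [o1, hW] at e1
  have o2 : 17 ≤ {x' | ∃ g ∈ V, g • x = x'}.ncard := by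
    have n1 : ∀ p ∈ Pp R y \ {u₁, u₂, u₃}, ¬ cm p x := fun p hp k =>
      hyx ((h2' p ⟨hp.1.1, hp.2⟩).2.2 y hy.1 x hx hp.1.2 k)
    have c1 : 16 ≤ (Pp R y \ {u₁, u₂, u₃}).ncard := by
      have := Set.le_ncard_diff ({u₁, u₂, u₃} : Set T.Pt) (Pp R y)
      omega
    have c2 : ((· ◃ x) '' (Pp R y \ {u₁, u₂, u₃})).ncard = (Pp R y \ {u₁, u₂, u₃}).ncard :=
      Set.ncard_image_of_injOn fun a ha b hb e => rf_inj_left (n1 a ha) (n1 b hb) e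
    have c3 : x ∉ (· ◃ x) '' (Pp R y \ {u₁, u₂, u₃}) := by
      rintro ⟨p, hp, e⟩; exact rf_ne_right (n1 p hp) e
    have c4 := Set.ncard_insert_of_notMem c3
    refine le_trans (by omega) (Set.ncard_le_ncard (s := insert x ((· ◃ x) '' (Pp R y \ {u₁, u₂, u₃}))) ?_)
    rintro _ (rfl | ⟨p, hp, rfl⟩)
    exacts [⟨1, one_mem _, one_smul _ _⟩, ⟨p.val, hVp p ⟨hRP hp.1.1, hp.1.2⟩, rfl⟩]
  obtain ⟨n, hn⟩ := hV2.exists_card_eq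
  obtain ⟨k, -, hk⟩ := (Nat.dvd_prime_pow Nat.prime_two).1 (hn ▸ Dvd.intro _ e2.symm)
  have k5 : 5 ≤ k := by
    by_contra k5
    have : 2 ^ k ≤ 2 ^ 4 := Nat.pow_le_pow_right (by norm_num) (by omega)
    omega
  have hL : ∀ a ∈ [d, e, u₁, u₂], a ∈ P ∧ ∀ z ∈ P, cm a z := by
    simp only [List.mem_cons, List.not_mem_nil, or_false]
    rintro _ (rfl | rfl | rfl | rfl)
    exacts [⟨⟨⟨hd, cm_refl _⟩, he.2.2.symm⟩, fun z hz => hz.1.2⟩, ⟨⟨⟨he.1, he.2.2⟩, cm_refl _⟩, fun z hz => hz.2⟩,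
      ⟨hRP m₁, hu _ (by simp)⟩, ⟨hRP m₂, hu _ (by simp)⟩]
  obtain ⟨H, c1, -, c2⟩ := f3_ind hs [d, e, u₁, u₂] (fun a ha => (hL a ha).1.1.1)
    (by simp [he.2.1.symm, m₁.1.2.1.symm, m₂.1.2.1.symm, m₁.2.1.symm, m₂.2.1.symm, n12])
    (fun a ha b hb => (hL a ha).2 b (hL b hb).1) (by simp)
  have c3 := card_dvd_of_le (c2 (V ⊓ stabilizer G x)
    (fun z hz => ⟨subset_closure (Or.inr hz), mem_fx.1 hz.2 x hx.1.1⟩)
    (fun a ha => ⟨hVp a ⟨(hL a ha).1, ((hL a ha).2 y (hRP hy.1)).symm⟩, ((hL a ha).2 x (hRP hx)).rf_eq⟩))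
  have c4 := card_dvd_of_le hVle
  rw [e2, hk] at c4
  rw [c1] at c3
  have c5 := (Nat.mul_dvd_mul (Nat.pow_dvd_pow 2 k5) c3).trans c4
  rw [e1]
  refine dvd_trans (Dvd.intro 3 ?_) (Nat.mul_dvd_mul_left 48 c5)
  simp only [List.length_cons, List.length_nil, hZ]
  ring

end Cfsg.Agent.H3.TTC
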