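import Cfsg.Agent.Fs.PF3b

/-! Passage to the extension of `G` by the sign. -/

set_option autoImplicit false

namespace Cfsg.Agent.H3.TTC

universe u

variable {G : Type u} [Group G] {T : TTC G}

/-- the extension of `G` by the sign -/
def f3a_H (T : TTC G) : Subgroup (G × ℤˣ) := Subgroup.closure {x | x.1 ∈ T.D ∧ x.2 = -1}

theorem f3a_surj (g : G) : ∃ h : f3a_H T, h.1.1 = g := by
  have : (⊤ : Subgroup G) ≤ ((MonoidHom.fst G ℤˣ).comp (f3a_H T).subtype).range := by
    rw [← T.gen, Subgroup.closure_le]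
    exact fun x hx => ⟨⟨(x, -1), Subgroup.subset_closure ⟨hx, rfl⟩⟩, rfl⟩
  exact this (Subgroup.mem_top g)

/-- the transpositions of the extension -/
def f3a_S (T : TTC G) : TTC (f3a_H T) where
  D := {g | g.1.1 ∈ T.D ∧ g.1.2 = -1}
  tt := by
    constructor
    · intro d hd
      refine orderOf_eq_prime (Subtype.ext (Prod.ext ?_ ?_)) fun e => ?_
      · simpa [pow_two] using tt_mul_self T.tt hd.1
      · simp [hd.2]
      · have := hd.2
        rw [e] at this
        exact absurd (show (1 : ℤˣ) = -1 from this) (by decide)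
    · intro d hd e he
      refine (T.tt.2 _ hd.1 _ he.1).imp (fun h => Subtype.ext (Prod.ext ?_ ?_))
        (fun h => Subtype.ext (Prod.ext ?_ ?_))
      · simpa using h
      · simp [hd.2, he.2]
      · simpa using h
      · simp [hd.2, he.2]
  conj_mem := fun g d hd => ⟨T.conj_mem g.1.1 _ hd.1, by simp [hd.2]⟩
  trans := fun a ha b hb => by
    obtain ⟨g, hg⟩ := T.trans _ ha.1 _ hb.1
    obtain ⟨h, rfl⟩ := f3a_surj (T := T) g
    exact ⟨h, Subtype.ext (Prod.ext hg (by simp [ha.2, hb.2]))⟩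
  gen := Subgroup.closure_closure_coe_preimage

/-- the isomorphism of Fischer spaces -/
def f3a_iso (T : TTC G) : FIso T (f3a_S T) where
  toFun p := ⟨⟨(p.val, -1), Subgroup.subset_closure ⟨p.mem, rfl⟩⟩, p.mem, rfl⟩
  invFun q := ⟨q.val.1.1, q.mem.1⟩
  left_inv _ := rfl
  right_inv q := Pt.ext (Subtype.ext (Prod.ext rfl q.mem.2.symm))
  map_rf a b := Pt.ext (Subtype.ext (Prod.ext rfl (by simp [rf_def])))

theorem f3a_prod (L : List (f3a_S T).Pt) : (L.map Pt.val).prod.1.2 = (-1) ^ L.length := by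
  induction L with
  | nil => rfl
  | cons d L ih =>
    rw [List.map_cons, List.prod_cons, List.length_cons, pow_succ', ← ih, ← d.mem.2]; rfl

theorem f3a_prod' (L : List T.Pt) :
    ((L.map (f3a_iso T).toEquiv).map Pt.val).prod.1.1 = (L.map Pt.val).prod := by
  induction L with
  | nil => rfl
  | cons d L ih =>
    rw [List.map_cons, List.map_cons, List.map_cons, List.prod_cons, List.prod_cons, ← ih]; rfl

/-- (A) passage to the extension of `G` by the sign -/
theorem F3.sg_of [Finite G] (core : ∀ {H : Type u} [Group H] [Finite H] {S : TTC H},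
      F3 (Set.univ : Set S.Pt) → Ex2 (Set.univ : Set S.Pt) → ∀ c ∈ fx (Set.univ : Set S.Pt),
      ∃ L : List S.Pt, Even L.length ∧ (L.map Pt.val).prod = c)
    (h : F3 (Set.univ : Set T.Pt)) (hZ : Subgroup.center G = ⊥) : Sg (Set.univ : Set T.Pt) := by
  intro L _ hL
  have h3 : F3 ((f3a_iso T).toEquiv '' Set.univ) :=
    Loc.map _ (fun _ => Loc.map _ fun _ => Loc.map _ fun _ => UnE.map _) h
  rw [Set.image_univ, Equiv.range_eq_univ] at h3
  have hE : Ex2 (Set.univ : Set (f3a_S T).Pt) := by
    intro g _ hg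
    rw [fx_univ, Subgroup.mem_center_iff] at hg
    have h1 : g.1.1 ∈ Subgroup.center G := Subgroup.mem_center_iff.2 fun x => by
      obtain ⟨y, rfl⟩ := f3a_surj (T := T) x
      exact congrArg (fun z : f3a_H T => z.1.1) (hg y)
    rw [hZ, Subgroup.mem_bot] at h1
    exact Subtype.ext (Prod.ext (by simp [h1]) (by simp))
  obtain ⟨L', hL', e⟩ := core h3 hE ((L.map (f3a_iso T).toEquiv).map Pt.val).prod (by
    rw [fx_univ, Subgroup.mem_center_iff]
    intro g
    have h1 := (f3a_prod' L).trans hL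
    exact Subtype.ext (Prod.ext (by simp only [Subgroup.coe_mul, Prod.fst_mul, h1]; simp)
      (mul_comm _ _)))
  have h1 := f3a_prod L'
  rw [e, f3a_prod, hL'.neg_one_pow, List.length_map] at h1
  exact (neg_one_pow_eq_one_iff_even (by decide)).1 h1

end Cfsg.Agent.H3.TTC
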