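import Cfsg.Agent.Fs.IM
import Cfsg.Agent.Fs.IF
import Cfsg.Agent.Fs.IUn

/-! Exact centralizers and relations among commuting points. -/

set_option autoImplicit false
set_option linter.unusedSectionVars false

namespace Cfsg.Agent.H3.TTC

open Subgroup

variable {G : Type*} [Group G] [Finite G] {T : TTC G} {X : Set T.Pt}

theorem f3_gp_le {H : Subgroup G} (h : ∀ x ∈ X, x.val ∈ H) : gp X ≤ H :=
  (closure_le H).2 (by rintro _ ⟨x, hx, rfl⟩; exact h x hx)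

theorem f3_conj {S S' : Set T.Pt} {g : G} (h : ∀ x ∈ S, g • x ∈ S') {k : G} (hk : k ∈ gp S) :
    g * k * g⁻¹ ∈ gp S' :=
  gp_induction (X := S) (P := fun k => g * k * g⁻¹ ∈ gp S') (by simp) (fun x hx k _ ih => by
    rw [show g * (x.val * k) * g⁻¹ = (g • x).val * (g * k * g⁻¹) by rw [smul_val]; group]
    exact mul_mem (mem_gp (h x hx)) ih) k hk

/-- elements fixing `X` centralize `gp X` -/
theorem f3_comm {c g : G} (hc : c ∈ fx X) (hg : g ∈ gp X) : Commute c g :=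
  gp_induction (X := X) (P := fun g => Commute c g) (Commute.one_right c)
    (fun x hx _ _ ih => (commute_iff_smul_eq.2 (mem_fx.1 hc x hx)).mul_right ih) g hg

theorem f3_tri_mem (hX : Cl X) {x y z : T.Pt} (hx : x ∈ X) (hy : y ∈ X) (hz : z ∈ X) :
    tri x y z ∈ gp X :=
  mul_mem (mul_mem (mem_gp (hX _ hz _ hx)) (mem_gp (hX _ hy _ hz))) (mem_gp (hX _ hx _ hy))

/-- exponent two -/
def Ex2 (X : Set T.Pt) : Prop := ∀ g ∈ gp X, g ∈ fx X → g * g = 1

/-- any four points have a common noncommuting point -/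
def Four (X : Set T.Pt) : Prop :=
  ∀ a ∈ X, ∀ b ∈ X, ∀ c ∈ X, ∀ d ∈ X, ∃ u ∈ X, ¬ cm a u ∧ ¬ cm b u ∧ ¬ cm c u ∧ ¬ cm d u

theorem f3_exact (hX : Cl X) (h4 : Four X) (ht : Tri X) (hZ : Ex2 X) {d : T.Pt} (hd : d ∈ X) {g : G}
    (hg : g ∈ gp X) (hgd : g • d = d) : g ∈ gp (Pp X d) := by
  refine m0 hX (fun x => gp (Pp X x)) (fun g hg x _ h hh => f3_conj (S' := Pp X (g • x)) (fun e he =>
    ⟨hX.smul_mem hg he.1, (cm_smul g x e).2 he.2⟩) hh) (fun x _ e he => mem_gp he) ?_ hd ?_ ?_ ?_ hg hgd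
  · intro x hx y hy z hz h1 h2 h3
    by_cases h5 : cm z (x ◃ y)
    · obtain ⟨e1, e2⟩ := tri_eq h1 h2 h3 h5
      rw [e1]; exact mem_gp ⟨hX _ hy _ hz, e2⟩
    obtain ⟨k, hk, e⟩ := ht x hx y hy z hz h1 h2 h3
    have hk' : k ∈ gp X := gp_mono (fun _ h => h.1) hk
    have ht' := f3_tri_mem hX hx hy hz
    have c1 : k⁻¹ * tri x y z ∈ fx X := mem_fx.2 fun p hp => by rw [mul_smul, e p hp, inv_smul_smul]
    have c2 := hZ _ (mul_mem (inv_mem hk') ht') c1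
    have c3 := tri_cube' h1 h2 h3 h5
    have xk : x.val ∈ gp (Pp X x) := mem_gp ⟨hx, cm_refl x⟩
    generalize hc : k⁻¹ * tri x y z = c at c1 c2
    have e2 : tri x y z = k * c := by rw [← hc]; group
    have c4 : Commute c (k * x.val) := f3_comm c1 (mul_mem hk' (mem_gp hx))
    have c5 : tri x y z * x.val = (k * x.val) * c := by
      rw [e2, mul_assoc, (f3_comm c1 (mem_gp hx)).eq, mul_assoc]
    have c6 : tri x y z * x.val = (k * x.val) ^ 4 := by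
      calc tri x y z * x.val = (tri x y z * x.val) ^ 4 := by rw [pow_succ, c3, one_mul]
        _ = (k * x.val) ^ 4 * (c * c) ^ 2 := by rw [c5, c4.symm.mul_pow, ← pow_two, ← pow_mul]
        _ = _ := by rw [c2, one_pow, mul_one]
    rw [show tri x y z = (k * x.val) ^ 4 * x.val by rw [← c6, mul_assoc, x.mul_self, mul_one]]
    exact mul_mem (pow_mem (mul_mem hk xk) 4) xk
  · obtain ⟨u, hu, h, -⟩ := h4 d hd d hd d hd d hd; exact ⟨u, hu, h⟩
  · intro y hy u hu u' hu' _ _ _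
    obtain ⟨w, hw, h⟩ := h4 d hd y hy.1 u hu.1 u' hu'.1; exact ⟨w, ⟨hw, h.1⟩, h.2⟩
  · intro y hy y' hy' _
    obtain ⟨w, hw, h⟩ := h4 d hd y hy.1 y' hy'.1 y' hy'.1; exact ⟨w, ⟨hw, h.1⟩, h.2.1, h.2.2.1⟩

theorem f3_step {d : T.Pt} {g : G} (hg : g ∈ gp (Pp X d)) :
    g ∈ gp (Rs X d) ∨ d.val * g ∈ gp (Rs X d) :=
  gp_induction (X := Pp X d) (P := fun g => g ∈ gp (Rs X d) ∨ d.val * g ∈ gp (Rs X d))
    (Or.inl (one_mem _)) (fun x hx g _ ih => by
      by_cases e : x = d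
      · subst e
        rcases ih with h | h
        · right; rwa [← mul_assoc, x.mul_self, one_mul]
        · exact Or.inl h
      · have hx' : x.val ∈ gp (Rs X d) := mem_gp ⟨hx.1, e, hx.2⟩
        rcases ih with h | h
        · exact Or.inl (mul_mem hx' h)
        · right; rw [← mul_assoc, (show Commute d.val x.val from hx.2).eq, mul_assoc]; exact mul_mem hx' h) g hg

theorem f3_d_fx (d : T.Pt) : d.val ∈ fx (Rs X d) := mem_fx.2 fun _ hx => hx.2.2.rf_eq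

theorem f3_fx_rs {d : T.Pt} {g : G} (h : g ∈ fx X) : g ∈ fx (Rs X d) :=
  mem_fx.2 fun x hx => mem_fx.1 h x hx.1

theorem f3_ker (h : St X) {d : T.Pt} (hd : d ∈ X) {g : G} (hg : g ∈ gp X) (hgd : g • d = d)
    (hf : g ∈ fx (Rs X d)) : g ∈ fx X ∨ d.val * g ∈ fx X :=
  h.ker hd (fun _ hx => h.cl.smul_mem hg hx) hgd hf

theorem f3_sq (h : St X) (hZ : Ex2 X) {d : T.Pt} (hd : d ∈ X) {g : G} (hg : g ∈ gp X) (hgd : g • d = d)
    (hf : g ∈ fx (Rs X d)) : g * g = 1 := by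
  rcases f3_ker h hd hg hgd hf with h1 | h1
  · exact hZ g hg h1
  · have h2 := hZ _ (mul_mem (mem_gp hd) hg) h1
    have h3 : Commute g d.val := commute_iff_smul_eq.2 hgd
    rwa [show d.val * g * (d.val * g) = d.val * (g * d.val) * g by group, h3.eq,
      show d.val * (d.val * g) * g = (d.val * d.val) * (g * g) by group, d.mul_self, one_mul] at h2

theorem f3_rs_fix {d : T.Pt} {g : G} (hg : g ∈ gp (Rs X d)) : g • d = d :=
  smul_eq_of_mem_gp (fun _ hx => hx.2.2) hg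

theorem Ex2.rs (hZ : Ex2 X) (h : St X) {d : T.Pt} (hd : d ∈ X) : Ex2 (Rs X d) := fun _ hg hf =>
  f3_sq h hZ hd (gp_mono (fun _ h => h.1) hg) (f3_rs_fix hg) hf

/-- descent of central elements -/
theorem f3_down (hX : Cl X) (h4 : Four X) (ht : Tri X) (hZ : Ex2 X) {d : T.Pt} (hd : d ∈ X) {g : G}
    (hg : g ∈ gp X) (hf : g ∈ fx X) :
    ∃ g' ∈ gp (Rs X d), g' ∈ fx (Rs X d) ∧ (g = g' ∨ g = d.val * g') := by
  rcases f3_step (f3_exact hX h4 ht hZ hd hg (mem_fx.1 hf d hd)) with h | h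
  · exact ⟨g, h, f3_fx_rs hf, Or.inl rfl⟩
  · exact ⟨_, h, mul_mem (f3_d_fx d) (f3_fx_rs hf), Or.inr (by rw [← mul_assoc, d.mul_self, one_mul])⟩

theorem f3_four {v k lam mu : ℕ} (m : ℕ) (h : Srg X v k lam mu) (h1 : m ≤ lam + 2) (h2 : m ≤ mu)
    (h3 : 4 * (k + 1) < v + 3 * m) : Four X := fun _ ha _ hb _ hc _ hd => h.four h1 h2 h3 ha hb hc hd

/-! ### parity of relations among commuting points -/

theorem f3_tail {d : T.Pt} {L : List T.Pt} (hL : ∀ x ∈ d :: L, x ∈ X) (hn : (d :: L).Nodup)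
    (hc : ∀ x ∈ d :: L, ∀ y ∈ d :: L, cm x y) (hp : ((d :: L).map Pt.val).prod ∈ fx X) :
    (∀ x ∈ L, x ∈ Rs X d) ∧ L.Nodup ∧ (∀ x ∈ L, ∀ y ∈ L, cm x y) ∧ (L.map Pt.val).prod ∈ fx (Rs X d) := by
  refine ⟨fun x hx => ⟨hL x (List.mem_cons_of_mem _ hx), fun e => (List.nodup_cons.1 hn).1 (e ▸ hx),
    hc _ List.mem_cons_self _ (List.mem_cons_of_mem _ hx)⟩, (List.nodup_cons.1 hn).2,
    fun x hx y hy => hc _ (List.mem_cons_of_mem _ hx) _ (List.mem_cons_of_mem _ hy), ?_⟩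
  have := mul_mem (f3_d_fx (X := X) d) (f3_fx_rs hp)
  rwa [List.map_cons, List.prod_cons, ← mul_assoc, d.mul_self, one_mul] at this

theorem F3.seven (h : F3 X) {L : List T.Pt} (hL : ∀ x ∈ L, x ∈ X) (hn : L.Nodup)
    (hc : ∀ x ∈ L, ∀ y ∈ L, cm x y) (h0 : L ≠ []) (h7 : L.length ≤ 7) : (L.map Pt.val).prod ∉ fx X := by
  by_cases h4 : L.length ≤ 4
  · exact h.1.not_mem_fx hL hn hc h0 h4
  intro hp
  match L, hL, hn, hc, h7, h4, hp with
  | a :: b :: c :: e :: L, hL, hn, hc, h7, h4, hp =>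
    obtain ⟨a1, a2, a3, a4⟩ := f3_tail hL hn hc hp
    obtain ⟨b1, b2, b3, b4⟩ := f3_tail a1 a2 a3 a4
    obtain ⟨c1, c2, c3, c4⟩ := f3_tail b1 b2 b3 b4
    have := ((h.2 a (hL a (by simp))).2 b (a1 b (by simp))).2 c (b1 c (by simp))
    exact (this.st (by norm_num)).not_mem_fx c1 c2 c3 (by simp) (by simp at h7 ⊢; omega) c4
  | [], _, _, _, _, h4, _ => simp at h4
  | [_], _, _, _, _, h4, _ => simp at h4
  | [_, _], _, _, _, _, h4, _ => simp at h4
  | [_, _, _], _, _, _, _, h4, _ => simp at h4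

theorem f3_up (h : St X) {d : T.Pt} (hd : d ∈ X) {L : List T.Pt} (hL : ∀ x ∈ L, x ∈ Rs X d)
    (hp : (L.map Pt.val).prod ∈ fx (Rs X d)) :
    (L.map Pt.val).prod ∈ fx X ∨ ((d :: L).map Pt.val).prod ∈ fx X := by
  have hg : (L.map Pt.val).prod ∈ gp (Rs X d) := list_prod_mem fun g hg => by
    obtain ⟨x, hx, rfl⟩ := List.mem_map.1 hg; exact mem_gp (hL x hx)
  exact f3_ker h hd (gp_mono (fun _ h => h.1) hg) (f3_rs_fix hg) hp

/-- octads -/
theorem F3.octad (h : F3 X) {a b c d e : T.Pt} (ha : a ∈ X) (hb : b ∈ Rs X a) (hc : c ∈ Rs (Rs X a) b)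
    (hd : d ∈ Rs (Rs (Rs X a) b) c) (he : e ∈ Rs (Rs (Rs (Rs X a) b) c) d) :
    ∃ u₁ ∈ X, ∃ u₂ ∈ X, ∃ u₃ ∈ X, cm u₁ u₂ ∧ cm u₁ u₃ ∧ cm u₂ u₃ ∧
      (∀ z ∈ Rs (Rs (Rs X a) b) c, cm d z → cm e z → cm u₁ z ∧ cm u₂ z ∧ cm u₃ z) ∧
      ([a, b, c, d, e, u₁, u₂, u₃].map Pt.val).prod ∈ fx X := by
  have h1 := h.2 a ha
  have h2 := h1.2 b hb
  have h3 := h2.2 c hc
  obtain ⟨u₁, m1, u₂, m2, u₃, m3, n1, n2, n3, hz, hp, -⟩ := h3.six hd he
  have c12 := (hz u₂ m2.1.1 m2.1.2.2 m2.2.2).1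
  have c13 := (hz u₃ m3.1.1 m3.1.2.2 m3.2.2).1
  have c23 := (hz u₃ m3.1.1 m3.1.2.2 m3.2.2).2.1
  refine ⟨u₁, m1.1.1.1.1.1, u₂, m2.1.1.1.1.1, u₃, m3.1.1.1.1.1, c12, c13, c23, hz, ?_⟩
  have hp' : ([d, e, u₁, u₂, u₃].map Pt.val).prod ∈ fx (Rs (Rs (Rs X a) b) c) := by
    simpa [mul_assoc] using hp
  have M : ∀ x ∈ [d, e, u₁, u₂, u₃], x ∈ Rs (Rs (Rs X a) b) c := by
    simp only [List.mem_cons, List.not_mem_nil, or_false]
    rintro x (rfl | rfl | rfl | rfl | rfl)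
    exacts [hd, he.1, m1.1.1, m2.1.1, m3.1.1]
  have N : [a, b, c, d, e, u₁, u₂, u₃].Nodup := by
    simp only [List.nodup_cons, List.mem_cons, List.not_mem_nil, or_false, not_or, List.nodup_nil,
      not_false_eq_true, and_true]
    refine ⟨⟨hb.2.1.symm, hc.1.2.1.symm, hd.1.1.2.1.symm, he.1.1.1.2.1.symm, m1.1.1.1.1.2.1.symm,
      m2.1.1.1.1.2.1.symm, m3.1.1.1.1.2.1.symm⟩, ⟨hc.2.1.symm, hd.1.2.1.symm, he.1.1.2.1.symm,
      m1.1.1.1.2.1.symm, m2.1.1.1.2.1.symm, m3.1.1.1.2.1.symm⟩, ⟨hd.2.1.symm, he.1.2.1.symm,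
      m1.1.1.2.1.symm, m2.1.1.2.1.symm, m3.1.1.2.1.symm⟩, ⟨he.2.1.symm, m1.1.2.1.symm, m2.1.2.1.symm,
      m3.1.2.1.symm⟩, ⟨m1.2.1.symm, m2.2.1.symm, m3.2.1.symm⟩, ⟨n1, n2⟩, n3⟩
  have C5 : ∀ x ∈ [d, e, u₁, u₂, u₃], ∀ y ∈ [d, e, u₁, u₂, u₃], cm x y := by
    have q1 := he.2.2
    have q2 := m1.1.2.2
    have q3 := m2.1.2.2
    have q4 := m3.1.2.2
    have q5 := m1.2.2
    have q6 := m2.2.2
    have q7 := m3.2.2
    simp only [List.mem_cons, List.not_mem_nil, or_false]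
    rintro x (rfl | rfl | rfl | rfl | rfl) y (rfl | rfl | rfl | rfl | rfl) <;>
      first | exact cm_refl _ | assumption | (apply cm.symm; assumption)
  have C : ∀ x ∈ [a, b, c, d, e, u₁, u₂, u₃], x ∈ X ∧ ∀ y ∈ [a, b, c, d, e, u₁, u₂, u₃], cm x y := by
    have ext : ∀ {Y : Set T.Pt} {p : T.Pt} {L : List T.Pt}, p ∈ Y → (∀ x ∈ L, x ∈ Rs Y p ∧ ∀ y ∈ L, cm x y) →
        ∀ x ∈ p :: L, x ∈ Y ∧ ∀ y ∈ p :: L, cm x y := by
      intro Y p L hp hL x hx
      rcases List.mem_cons.1 hx with rfl | hx1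
      · refine ⟨hp, fun y hy => ?_⟩
        rcases List.mem_cons.1 hy with rfl | hy1
        exacts [cm_refl _, (hL y hy1).1.2.2]
      · refine ⟨(hL x hx1).1.1, fun y hy => ?_⟩
        rcases List.mem_cons.1 hy with rfl | hy1
        exacts [(hL x hx1).1.2.2.symm, (hL x hx1).2 y hy1]
    exact ext ha (ext hb (ext hc fun x hx => ⟨M x hx, C5 x hx⟩))
  have no : ∀ L : List T.Pt, L.Sublist [a, b, c, d, e, u₁, u₂, u₃] → L ≠ [] → L.length ≤ 7 →
      (L.map Pt.val).prod ∉ fx X := fun L hs h0 h7 =>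
    h.seven (fun x hx => (C x (hs.subset hx)).1) (N.sublist hs)
      (fun x hx y hy => (C x (hs.subset hx)).2 y (hs.subset hy)) h0 h7
  have up : ∀ L : List T.Pt, L.Sublist [b, c, d, e, u₁, u₂, u₃] → L ≠ [] →
      (L.map Pt.val).prod ∈ fx (Rs X a) → ((a :: L).map Pt.val).prod ∈ fx X := fun L hs h0 hp =>
    (f3_up h.1 ha (fun x hx => ⟨(C x (List.mem_cons_of_mem _ (hs.subset hx))).1,
      fun e => (List.nodup_cons.1 N).1 (e ▸ hs.subset hx),
      (C a List.mem_cons_self).2 x (List.mem_cons_of_mem _ (hs.subset hx))⟩) hp).resolve_left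
      (no L (hs.cons a) h0 (hs.length_le.trans (by simp)))
  have M' : ∀ x ∈ [c, d, e, u₁, u₂, u₃], x ∈ Rs (Rs X a) b := fun x hx => by
    rcases List.mem_cons.1 hx with rfl | hx
    exacts [hc, (M x hx).1]
  rcases f3_up h2.1 hc M hp' with k | k
  · rcases f3_up h1.1 hb (fun x hx => (M x hx).1) k with k | k
    · exact absurd (up _ (by simp) (by simp) k) (no _ (by simp) (by simp) (by simp))
    · exact absurd (up _ (by simp) (by simp) k) (no _ (by simp) (by simp) (by simp))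
  · rcases f3_up h1.1 hb M' k with k | k
    · exact absurd (up _ (by simp) (by simp) k) (no _ (by simp) (by simp) (by simp))
    · exact up _ (List.Sublist.refl _) (by simp) k

theorem F3.even (h : F3 X) : ∀ (n : ℕ) (L : List T.Pt), L.length = n → (∀ x ∈ L, x ∈ X) →
    (∀ x ∈ L, ∀ y ∈ L, cm x y) → (L.map Pt.val).prod ∈ fx X → Even L.length := by
  intro n
  induction n using Nat.strong_induction_on with
  | _ n ih =>
  intro L hn hL hc hp
  by_cases hd : L.Nodup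
  swap
  · obtain ⟨x, hx⟩ := List.exists_duplicate_iff_not_nodup.2 hd
    obtain ⟨L', hs⟩ := (List.duplicate_iff_sublist.1 hx).exists_perm_append
    have e : (L.map Pt.val).prod = (L'.map Pt.val).prod := by
      rw [(hs.map Pt.val).prod_eq' (List.pairwise_map.2 (List.pairwise_of_forall_mem_list hc))]
      simp [← mul_assoc, x.mul_self]
    have hl := hs.length_eq
    have sub : ∀ y ∈ L', y ∈ L := fun y hy => hs.mem_iff.2 (List.mem_append_right _ hy)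
    have := ih L'.length (by simp at hl; omega) L' rfl (fun y hy => hL y (sub y hy))
      (fun y hy z hz => hc y (sub y hy) z (sub z hz)) (e ▸ hp)
    rw [hl]; simp only [List.length_append, List.length_cons, List.length_nil]
    exact Even.add (by decide) this
  by_cases h0 : L = []
  · simp [h0]
  have h7 : ¬ L.length ≤ 7 := fun h7 => h.seven hL hd hc h0 h7 hp
  match L, hn, hL, hc, hp, hd, h7 with
  | a :: b :: c :: d :: e :: L, hn, hL, hc, hp, hd, _ =>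
    obtain ⟨a1, a2, a3, -⟩ := f3_tail hL hd hc hp
    obtain ⟨b1, b2, b3, -⟩ := f3_tail a1 a2 a3 (f3_tail hL hd hc hp).2.2.2
    have t2 := (f3_tail a1 a2 a3 (f3_tail hL hd hc hp).2.2.2).2.2.2
    obtain ⟨c1, c2, c3, t3⟩ := f3_tail b1 b2 b3 t2
    obtain ⟨d1, d2, d3, -⟩ := f3_tail c1 c2 c3 t3
    obtain ⟨u₁, m1, u₂, m2, u₃, m3, c12, c13, c23, hz, ho⟩ := h.octad (hL a (by simp)) (a1 b (by simp))
      (b1 c (by simp)) (c1 d (by simp)) (d1 e (by simp))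
    have hz' : ∀ z ∈ L, cm u₁ z ∧ cm u₂ z ∧ cm u₃ z := fun z hz0 =>
      hz z (c1 z (by simp [hz0])) (c3 d (by simp) z (by simp [hz0])) (c3 e (by simp) z (by simp [hz0]))
    have := ih (u₃ :: u₂ :: u₁ :: L).length (by simp at hn ⊢; omega) (u₃ :: u₂ :: u₁ :: L) rfl ?_ ?_ ?_
    · simp only [List.length_cons] at this ⊢
      exact (Nat.even_add_one.2 (Nat.even_add_one.not.2 (not_not.2 this)))
    · simp only [List.mem_cons]
      rintro x (rfl | rfl | rfl | hx)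
      exacts [m3, m2, m1, hL x (by simp [hx])]
    · simp only [List.mem_cons]
      rintro x (rfl | rfl | rfl | hx) y (rfl | rfl | rfl | hy)
      exacts [cm_refl _, c23.symm, c13.symm, (hz' y hy).2.2, c23, cm_refl _, c12.symm, (hz' y hy).2.1,
        c13, c12, cm_refl _, (hz' y hy).1, (hz' x hx).2.2.symm, (hz' x hx).2.1.symm, (hz' x hx).1.symm,
        hc x (by simp [hx]) y (by simp [hy])]
    · have := mul_mem (inv_mem ho) hp
      simp only [List.map_cons, List.prod_cons, List.map_nil, List.prod_nil, mul_one, mul_inv_rev,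
        Pt.inv_val, mul_assoc] at this ⊢
      have cn : ∀ (p : T.Pt) (g : G), p.val * (p.val * g) = g := fun p g => by
        rw [← mul_assoc, p.mul_self, one_mul]
      simpa only [cn] using this
  | [], _, _, _, _, _, h7 => simp at h7
  | [_], _, _, _, _, _, h7 => simp at h7
  | [_, _], _, _, _, _, _, h7 => simp at h7
  | [_, _, _], _, _, _, _, _, h7 => simp at h7
  | [_, _, _, _], _, _, _, _, _, h7 => simp at h7

end Cfsg.Agent.H3.TTC
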