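import Cfsg.Agent.Fs.PF3a

/-! Central elements of the group of the six-dimensional unitary space are products of cliques. -/

set_option autoImplicit false
set_option linter.unusedSectionVars false

namespace Cfsg.Agent.H3.TTC

open Subgroup

section gt
variable {G : Type*} [Group G] [Finite G]

theorem f3_sz {C : Type*} [Group C] [Finite C] (K Z : Subgroup C) [K.Normal] (hZ : Z ≤ center C)
    (h2 : ∀ z ∈ Z, z * z = 1) (ho : Odd (K ⊔ Z).index)
    (hg : closure ((K : Set C) ∪ {g | g ^ 3 = 1}) = ⊤) : Z ≤ K := by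
  let π := QuotientGroup.mk' K
  have hs : Function.Surjective π := QuotientGroup.mk'_surjective K
  have hc : Z.map π ≤ center _ := by
    rintro _ ⟨z, hz, rfl⟩
    refine mem_center_iff.2 fun y => ?_
    obtain ⟨y, rfl⟩ := hs y
    rw [← map_mul, ← map_mul, mem_center_iff.1 (hZ hz) y]
  haveI : (Z.map π).Normal := ⟨fun n hn g => by
    rw [mem_center_iff.1 (hc hn) g, mul_inv_cancel_right]; exact hn⟩
  have hi : (Z.map π).index = (K ⊔ Z).index := by
    rw [index_map, QuotientGroup.ker_mk', MonoidHom.range_eq_top.2 hs, index_top, mul_one, sup_comm]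
  have h2' : ∀ z ∈ Z.map π, z * z = 1 := by
    rintro _ ⟨z, hz, rfl⟩; rw [← map_mul, h2 z hz, map_one]
  have hp : IsPGroup 2 (Z.map π) := fun z => ⟨1, Subtype.ext (by simpa [sq] using h2' z z.2)⟩
  obtain ⟨n, hn⟩ := hp.exists_card_eq
  obtain ⟨H, hH⟩ := exists_right_complement'_of_coprime (N := Z.map π) (by
    rw [hn, hi]; exact (Nat.coprime_two_left.2 ho).pow_left n)
  have h3 : ∀ x : C ⧸ K, x ^ 3 = 1 → x ∈ H := fun x hx => by
    obtain ⟨⟨z, h⟩, rfl⟩ := hH.2 x
    have e1 : ((z : C ⧸ K) * h) ^ 3 = (z : C ⧸ K) ^ 3 * (h : C ⧸ K) ^ 3 :=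
      Commute.mul_pow (mem_center_iff.1 (hc z.2) h).symm 3
    have e2 : (z : C ⧸ K) ^ 3 = z := by rw [pow_succ, sq, h2' z z.2, one_mul]
    have e3 : (z : C ⧸ K) ∈ H := by
      have : (z : C ⧸ K) = ((h : C ⧸ K) ^ 3)⁻¹ := eq_inv_of_mul_eq_one_left (by rw [← e2, ← e1]; exact hx)
      rw [this]; exact inv_mem (pow_mem h.2 3)
    exact mul_mem e3 h.2
  have h4 : H.comap π = ⊤ := top_le_iff.1 (hg ▸ (closure_le _).2 (by
    rintro g (hg | hg)
    · have : π g = 1 := (QuotientGroup.eq_one_iff g).2 hg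
      show π g ∈ H
      rw [this]; exact one_mem H
    · exact h3 _ (by rw [← map_pow, show g ^ 3 = 1 from hg, map_one])))
  intro z hz
  have : π z ∈ Z.map π ⊓ H := ⟨mem_map_of_mem π hz, show z ∈ H.comap π from h4 ▸ mem_top z⟩
  rw [hH.disjoint.eq_bot] at this
  exact (QuotientGroup.eq_one_iff z).1 this

/-- extension of a subgroup by a centralizing involution -/
def ext2 (H : Subgroup G) (p : G) (hp : p * p = 1) (hc : ∀ h ∈ H, Commute p h) : Subgroup G where
  carrier := {g | g ∈ H ∨ p * g ∈ H}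
  one_mem' := Or.inl (one_mem H)
  mul_mem' := by
    rintro a b (ha | ha) (hb | hb)
    · exact Or.inl (mul_mem ha hb)
    · right; rw [← mul_assoc, (hc a ha).eq, mul_assoc]; exact mul_mem ha hb
    · right; rw [← mul_assoc]; exact mul_mem ha hb
    · left
      have := mul_mem ha hb
      rwa [← mul_assoc, ← (hc _ ha).eq, ← mul_assoc, hp, one_mul] at this
  inv_mem' := by
    rintro a (ha | ha)
    · exact Or.inl (inv_mem ha)
    · right
      have := inv_mem ha
      have e : Commute p a := by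
        have := (hc _ ha).eq
        rw [mul_assoc] at this
        exact mul_left_cancel this
      rwa [mul_inv_rev, inv_eq_of_mul_eq_one_right hp, ← e.inv_right.eq] at this

theorem card_ext2 (H : Subgroup G) (p : G) (hp : p * p = 1) (hc : ∀ h ∈ H, Commute p h) (hn : p ∉ H) :
    Nat.card (ext2 H p hp hc) = 2 * Nat.card H := by
  have hle : H ≤ ext2 H p hp hc := fun _ h => Or.inl h
  have : H.relIndex (ext2 H p hp hc) = 2 := by
    rw [relIndex, index_eq_two_iff']
    refine ⟨⟨p, Or.inr (by rw [hp]; exact one_mem H)⟩, fun b => ?_⟩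
    simp only [mem_subgroupOf, coe_mul]
    by_cases hb : (b : G) ∈ H
    · exact Or.inr ⟨hb, fun e => hn (by simpa using mul_mem e (inv_mem hb))⟩
    · exact Or.inl ⟨b.2.resolve_left hb, hb⟩
  rw [← this, ← Nat.card_congr (subgroupOfEquivOfLe hle).toEquiv, relIndex, index_mul_card]

theorem f3_orbit {α : Type*} [MulAction G α] (H : Subgroup G) (x : α) :
    Nat.card H = {y | ∃ h ∈ H, h • x = y}.ncard * Nat.card (H ⊓ MulAction.stabilizer G x : Subgroup G) := by
  have e1 : {y | ∃ h ∈ H, h • x = y} = MulAction.orbit H x := by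
    ext y; constructor
    · rintro ⟨h, hh, rfl⟩; exact ⟨⟨h, hh⟩, rfl⟩
    · rintro ⟨h, rfl⟩; exact ⟨h, h.2, rfl⟩
  rw [e1, ← MulAction.index_stabilizer, ← (MulAction.stabilizer H x).index_mul_card]
  congr 1
  rw [← Nat.card_congr (subgroupOfEquivOfLe (inf_le_left : H ⊓ MulAction.stabilizer G x ≤ H)).toEquiv]
  congr 2
  ext h; simp [mem_subgroupOf, MulAction.mem_stabilizer_iff]; rfl

theorem f3_exp2 {S : Set G} (h1 : ∀ a ∈ S, a * a = 1) (h2 : ∀ a ∈ S, ∀ b ∈ S, Commute a b) :
    IsPGroup 2 (closure S) := fun g => ⟨1, Subtype.ext (by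
  have hc : ∀ a ∈ closure S, ∀ b ∈ closure S, Commute a b := fun a ha b hb =>
    closure_induction₂ (p := fun a b _ _ => Commute a b) (fun x y hx hy => h2 x hx y hy) (fun _ _ => Commute.one_left _)
      (fun _ _ => Commute.one_right _) (fun _ _ _ _ _ _ h h' => h.mul_left h')
      (fun _ _ _ _ _ _ h h' => h.mul_right h') (fun _ _ _ _ h => h.inv_left)
      (fun _ _ _ _ h => h.inv_right) ha hb
  have : (g : G) * g = 1 := closure_induction (p := fun a _ => a * a = 1) h1 (by simp)
    (fun a b ha hb e1 e2 => by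
      rw [mul_assoc, ← mul_assoc b, ← (hc a ha b hb).eq, mul_assoc, e2, mul_one, e1])
    (fun a _ e => by rw [← mul_inv_rev, e, inv_one]) g.2
  simpa [sq] using this)⟩

end gt

variable {G : Type*} [Group G] [Finite G] {T : TTC G} {X : Set T.Pt}

/-- independent commuting points over the centre -/
theorem f3_ind (h : St X) : ∀ L : List T.Pt, (∀ x ∈ L, x ∈ X) → L.Nodup → (∀ x ∈ L, ∀ y ∈ L, cm x y) →
    L.length ≤ 4 → ∃ H : Subgroup G, Nat.card H = 2 ^ L.length * Nat.card (gp X ⊓ fx X : Subgroup G) ∧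
      (∀ g ∈ H, ∃ L' : List T.Pt, L'.Sublist L ∧ (L'.map Pt.val).prod * g ∈ gp X ⊓ fx X) ∧
      ∀ K : Subgroup G, gp X ⊓ fx X ≤ K → (∀ x ∈ L, x.val ∈ K) → H ≤ K := by
  intro L
  induction L with
  | nil => exact fun _ _ _ _ => ⟨gp X ⊓ fx X, by simp, fun g hg => ⟨[], List.Sublist.refl _, by simpa using hg⟩,
      fun K hK _ => hK⟩
  | cons p L ih =>
    intro h1 h2 h3 h4
    obtain ⟨H, e1, e2, e3⟩ := ih (fun x hx => h1 x (List.mem_cons_of_mem _ hx)) (List.nodup_cons.1 h2).2
      (fun x hx y hy => h3 x (List.mem_cons_of_mem _ hx) y (List.mem_cons_of_mem _ hy)) (by simp at h4; omega)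
    have hc : ∀ g ∈ H, Commute p.val g := fun g hg => by
      have := e3 (centralizer {p.val}) (fun c hc => mem_centralizer_singleton_iff.2
        (f3_comm hc.2 (mem_gp (h1 p List.mem_cons_self))).eq) (fun x hx => mem_centralizer_singleton_iff.2
        (Commute.eq (h3 x (List.mem_cons_of_mem _ hx) p List.mem_cons_self))) hg
      exact (mem_centralizer_singleton_iff.1 this).symm
    have cl : ∀ L' : List T.Pt, L'.Sublist L → Commute p.val (L'.map Pt.val).prod := fun L' hs =>
      Commute.list_prod_right _ _ fun g hg => by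
        obtain ⟨x, hx, rfl⟩ := List.mem_map.1 hg
        exact h3 p List.mem_cons_self x (List.mem_cons_of_mem _ (hs.subset hx))
    refine ⟨ext2 H p.val p.mul_self hc, ?_, ?_, fun K hK hL g hg => ?_⟩
    · rw [card_ext2 _ _ _ _ fun hp => ?_, e1, List.length_cons, pow_succ]; · ring
      obtain ⟨L', hs, e⟩ := e2 _ hp
      have hs' := hs.cons₂ p
      refine h.not_mem_fx (L := p :: L') (fun x hx => h1 x (hs'.subset hx)) (h2.sublist hs')
        (fun x hx y hy => h3 x (hs'.subset hx) y (hs'.subset hy)) (by simp) (hs'.length_le.trans h4) ?_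
      rw [List.map_cons, List.prod_cons, (cl L' hs).eq]; exact e.2
    · rintro g (hg | hg)
      · obtain ⟨L', hs, e⟩ := e2 _ hg
        exact ⟨L', hs.cons p, e⟩
      · obtain ⟨L', hs, e⟩ := e2 _ hg
        refine ⟨p :: L', hs.cons₂ p, ?_⟩
        rwa [List.map_cons, List.prod_cons, (cl L' hs).eq, mul_assoc]
    · have hH := e3 K hK fun x hx => hL x (List.mem_cons_of_mem _ hx)
      rcases hg with hg | hg
      · exact hH hg
      · have := mul_mem (hL p List.mem_cons_self) (hH hg)
        rwa [← mul_assoc, p.mul_self, one_mul] at this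

end Cfsg.Agent.H3.TTC
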