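import Cfsg.Agent.Fs.PMb
import Cfsg.Agent.Fs.IF
import Cfsg.Agent.Fs.IUn

/-! Centralizers and orders. -/

set_option autoImplicit false

namespace Cfsg.Agent.H3.TTC

variable {G : Type*} [Group G] [Finite G] {T : TTC G} {X : Set T.Pt}

/-- the centralizer of `d` is generated by the points commuting with `d` and triangle elements -/
theorem m0 (hX : Cl X) (L : T.Pt → Subgroup G)
    (hconj : ∀ g ∈ gp X, ∀ x ∈ X, ∀ h ∈ L x, g * h * g⁻¹ ∈ L (g • x))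
    (hK : ∀ x ∈ X, ∀ e ∈ Pp X x, e.val ∈ L x)
    (htri : ∀ x ∈ X, ∀ y ∈ X, ∀ z ∈ X, ¬ cm x y → ¬ cm y z → ¬ cm z x → tri x y z ∈ L x)
    {d : T.Pt} (hd : d ∈ X) (h0 : ∃ u, u ∈ Nc X d)
    (h1 : ∀ y ∈ Pp X d, ∀ u ∈ Nc X d, ∀ u' ∈ Nc X d, ¬ cm y u → ¬ cm y u' → cm u u' →
      ∃ w ∈ Nc X d, ¬ cm y w ∧ ¬ cm u w ∧ ¬ cm u' w)
    (h2 : ∀ y ∈ Pp X d, ∀ y' ∈ Pp X d, ¬ cm y y' → ∃ u ∈ Nc X d, ¬ cm y u ∧ ¬ cm y' u)
    {g : G} (hg : g ∈ gp X) (hgd : g • d = d) : g ∈ L d :=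
  m_m0 hX L hconj hK htri hd h0 h1 h2 hg hgd

/-- any four points have a common noncommuting point -/
theorem Srg.four {v k lam mu m : ℕ} (h : Srg X v k lam mu) (h1 : m ≤ lam + 2) (h2 : m ≤ mu)
    (h3 : 4 * (k + 1) < v + 3 * m) {a b c d : T.Pt} (ha : a ∈ X) (hb : b ∈ X) (hc : c ∈ X)
    (hd : d ∈ X) : ∃ u ∈ X, ¬ cm a u ∧ ¬ cm b u ∧ ¬ cm c u ∧ ¬ cm d u :=
  m_four h h1 h2 h3 ha hb hc hd

theorem F1.tri (h : F1 X) : Tri X :=
  m_tri h.1 (fun e he => (h.2 e he).tri) fun _ hd _ ha _ hz =>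
    m_n3 (j := 80) (c := 18) (N0 := 1680) (N1 := 30240) (N2 := 544320) h.srg
      (fun d hd => (h.2 d hd).srg6) (by norm_num) (by norm_num) (by norm_num) (by norm_num)
      (by norm_num) (by norm_num) hd ha hz

theorem F2.tri (h : F2 X) : Tri X :=
  m_tri h.1 (fun e he => (h.2 e he).tri) fun _ hd _ ha _ hz =>
    m_n3 (j := 224) (c := 27) (N0 := 21840) (N1 := 589680) (N2 := 15921360) h.srg
      (fun d hd => (h.2 d hd).srg) (by norm_num) (by norm_num) (by norm_num) (by norm_num)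
      (by norm_num) (by norm_num) hd ha hz

theorem F3.tri (h : F3 X) : Tri X :=
  m_tri h.1 (fun e he => (h.2 e he).tri) fun _ hd _ ha _ hz =>
    m_n3 (j := 2888) (c := 324) (N0 := 218400) (N1 := 70761600) (N2 := 22926758400) h.srg
      (fun d hd => (h.2 d hd).srg) (by norm_num) (by norm_num) (by norm_num) (by norm_num)
      (by norm_num) (by norm_num) hd ha hz

theorem F1.cq (h : F1 X) : cq X = 64561751654400 := by
  obtain ⟨d, hd⟩ := h.1.cn.ne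
  rw [m_cq h.1 h.tri (fun _ ha _ hb _ hc _ hd => h.srg.four (m := 0) (by norm_num) (by norm_num)
    (by norm_num) ha hb hc hd) hd, (h.2 d hd).cq, h.srg.card]

theorem F2.cq (h : F2 X) : cq X = 4089470473293004800 := by
  obtain ⟨d, hd⟩ := h.1.cn.ne
  rw [m_cq h.1 h.tri (fun _ ha _ hb _ hc _ hd => h.srg.four (m := 0) (by norm_num) (by norm_num)
    (by norm_num) ha hb hc hd) hd, (h.2 d hd).cq, h.srg.card]

end Cfsg.Agent.H3.TTC
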