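import Cfsg.Agent.Fs.IBase

/-! Centralizers of points: generation by commuting points and triangle elements. -/

set_option autoImplicit false

namespace Cfsg.Agent.H3.TTC

variable {G : Type*} [Group G] {T : TTC G} {X : Set T.Pt}

theorem m_mem_conj (hX : Cl X) {L : T.Pt → Subgroup G}
    (hconj : ∀ g ∈ gp X, ∀ x ∈ X, ∀ h ∈ L x, g * h * g⁻¹ ∈ L (g • x))
    {d u : T.Pt} (hd : d ∈ X) (hu : u ∈ X) (hdu : ¬ cm d u) {h : G} (hh : h ∈ L u) :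
    (d ◃ u).val * h * (d ◃ u).val ∈ L d := by
  have h1 := hconj _ (mem_gp (hX d hd u hu)) u hu h hh
  rw [Pt.inv_val, rf_comm hdu, smul_eq_of_ncm (ncm_symm hdu), ← rf_comm hdu] at h1
  exact h1

theorem m_indep0 (hX : Cl X) {L : T.Pt → Subgroup G}
    (hconj : ∀ g ∈ gp X, ∀ x ∈ X, ∀ h ∈ L x, g * h * g⁻¹ ∈ L (g • x))
    (htri : ∀ x ∈ X, ∀ y ∈ X, ∀ z ∈ X, ¬ cm x y → ¬ cm y z → ¬ cm z x → tri x y z ∈ L x)
    {d y u u' : T.Pt} (hd : d ∈ X) (hy : y ∈ X) (hu : u ∈ Nc X d) (hu' : u' ∈ Nc X d)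
    (hyu : ¬ cm y u) (hyu' : ¬ cm y u') (huu : ¬ cm u u') {g : G}
    (hg : (d ◃ u').val * (y ◃ u').val * g ∈ L d) : (d ◃ u).val * (y ◃ u).val * g ∈ L d := by
  have h1 := htri d hd u' hu'.1 u hu.1 hu'.2 (ncm_symm huu) (ncm_symm hu.2)
  have h2 := m_mem_conj hX hconj hd hu'.1 hu'.2
    (htri u' hu'.1 y hy u hu.1 (ncm_symm hyu') hyu huu)
  have h3 := (L d).mul_mem ((L d).mul_mem h1 h2) hg
  unfold tri at h3
  rw [rf_comm (ncm_symm hu.2), rf_comm (ncm_symm huu), rf_comm (ncm_symm hyu')] at h3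
  convert h3 using 1
  have e : ∀ (a : T.Pt) (x : G), a.val * (a.val * x) = x := fun a x => by
    rw [← mul_assoc, a.mul_self, one_mul]
  simp only [mul_assoc, e]

/-- the centralizer of `d` is generated by the points commuting with `d` and triangle elements -/
theorem m_m0 (hX : Cl X) (L : T.Pt → Subgroup G)
    (hconj : ∀ g ∈ gp X, ∀ x ∈ X, ∀ h ∈ L x, g * h * g⁻¹ ∈ L (g • x))
    (hK : ∀ x ∈ X, ∀ e ∈ Pp X x, e.val ∈ L x)
    (htri : ∀ x ∈ X, ∀ y ∈ X, ∀ z ∈ X, ¬ cm x y → ¬ cm y z → ¬ cm z x → tri x y z ∈ L x)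
    {d : T.Pt} (hd : d ∈ X) (h0 : ∃ u, u ∈ Nc X d)
    (h1 : ∀ y ∈ Pp X d, ∀ u ∈ Nc X d, ∀ u' ∈ Nc X d, ¬ cm y u → ¬ cm y u' → cm u u' →
      ∃ w ∈ Nc X d, ¬ cm y w ∧ ¬ cm u w ∧ ¬ cm u' w)
    (h2 : ∀ y ∈ Pp X d, ∀ y' ∈ Pp X d, ¬ cm y y' → ∃ u ∈ Nc X d, ¬ cm y u ∧ ¬ cm y' u)
    {g : G} (hg : g ∈ gp X) (hgd : g • d = d) : g ∈ L d := by
  have e : ∀ (a : T.Pt) (x : G), a.val * (a.val * x) = x := fun a x => by
    rw [← mul_assoc, a.mul_self, one_mul]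
  have ind : ∀ y ∈ Pp X d, ∀ u ∈ Nc X d, ∀ u' ∈ Nc X d, ¬ cm y u → ¬ cm y u' → ∀ g : G,
      (d ◃ u').val * (y ◃ u').val * g ∈ L d → (d ◃ u).val * (y ◃ u).val * g ∈ L d := by
    intro y hy u hu u' hu' hyu hyu' g hg
    by_cases huu : cm u u'
    · obtain ⟨w, hw, w1, w2, w3⟩ := h1 y hy u hu u' hu' hyu hyu' huu
      exact m_indep0 hX hconj htri hd hy.1 hu hw hyu w1 w2
        (m_indep0 hX hconj htri hd hy.1 hw hu' w1 hyu' (ncm_symm w3) hg)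
    · exact m_indep0 hX hconj htri hd hy.1 hu hu' hyu hyu' huu hg
  have key : ∀ g ∈ gp X, (¬ cm d (g • d) → (d ◃ (g • d)).val * g ∈ L d) ∧
      (cm d (g • d) → ∀ u ∈ Nc X d, ¬ cm (g • d) u →
        (d ◃ u).val * ((g • d) ◃ u).val * g ∈ L d) := by
    refine gp_induction ⟨fun h => absurd (by simp) h, fun _ u _ _ => ?_⟩ ?_
    · rw [one_smul, Pt.mul_self, one_mul]; exact one_mem _
    intro x hx g hg ⟨ih1, ih2⟩
    have hy : g • d ∈ X := hX.smul_mem hg hd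
    have hxg : (x.val * g) • d = x ◃ (g • d) := mul_smul _ _ _
    rw [hxg]
    generalize hyd : g • d = y at *
    by_cases hxy : cm x y
    · have h3 : (g⁻¹ • x).val ∈ L d := hK d hd _ ⟨hX.smul_mem (inv_mem hg) hx, by
        rw [cm_smul_right, inv_inv, hyd]; exact hxy.symm⟩
      have h4 : x.val * g = g * (g⁻¹ • x).val := by simp [mul_assoc]
      rw [hxy.rf_eq, h4]
      exact ⟨fun h => by simpa only [mul_assoc] using (L d).mul_mem (ih1 h) h3,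
        fun h u hu hyu => by simpa only [mul_assoc] using (L d).mul_mem (ih2 h u hu hyu) h3⟩
    · have hy' : x ◃ y ∈ X := hX x hx y hy
      have hyy : ¬ cm y (x ◃ y) := cm_rf_self_right hxy
      have hxe : x = y ◃ x ◃ y := (rf_rf_swap hxy).symm
      generalize x ◃ y = y' at *
      subst hxe
      refine ⟨fun h => ?_, fun h u hu hyu => ?_⟩
      · by_cases hdy : cm d y
        · have h5 := ih2 hdy y' ⟨hy', h⟩ hyy
          simpa only [mul_assoc] using h5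
        · have h5 := (L d).mul_mem (htri d hd y hy y' hy' hdy hyy (ncm_symm h)) (ih1 hdy)
          unfold tri at h5
          rw [rf_comm (ncm_symm h)] at h5
          simpa only [mul_assoc, e] using h5
      · by_cases hdy : cm d y
        · obtain ⟨w, hw, w1, w2⟩ := h2 y ⟨hy, hdy⟩ y' ⟨hy', h⟩ hyy
          refine ind y' ⟨hy', h⟩ u hu w hw hyu w2 _ ?_
          have h5 := (L d).mul_mem (m_mem_conj hX hconj hd hw.1 hw.2
            (htri w hw.1 y hy y' hy' (ncm_symm w1) hyy w2)) (ih2 hdy w hw w1)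
          unfold tri at h5
          rw [rf_comm (ncm_symm w1)] at h5
          simpa only [mul_assoc, e] using h5
        · refine ind y' ⟨hy', h⟩ u hu y ⟨hy, hdy⟩ hyu (ncm_symm hyy) _ ?_
          rw [rf_comm (ncm_symm hyy)]
          simpa only [mul_assoc, e] using ih1 hdy
  obtain ⟨u, hu⟩ := h0
  have h3 := (key g hg).2 (by rw [hgd]; exact cm_refl d) u hu (by rw [hgd]; exact hu.2)
  rwa [hgd, Pt.mul_self, one_mul] at h3

/-- the elements acting on `X` like an element of the group generated by the points commuting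
with `x` -/
def mInK (hX : Cl X) (x : T.Pt) : Subgroup G where
  carrier := {g | InK X x g}
  one_mem' := ⟨1, one_mem _, fun _ _ => rfl⟩
  mul_mem' := by
    rintro g g' ⟨h, hh, e⟩ ⟨h', hh', e'⟩
    refine ⟨h * h', mul_mem hh hh', fun p hp => ?_⟩
    rw [mul_smul, mul_smul, e' p hp]
    exact e _ (hX.smul_mem (gp_mono (fun _ h => h.1) hh') hp)
  inv_mem' := by
    rintro g ⟨h, hh, e⟩
    refine ⟨h⁻¹, inv_mem hh, fun p hp => ?_⟩
    rw [inv_smul_eq_iff, e _ (hX.smul_mem (gp_mono (fun _ h => h.1) (inv_mem hh)) hp),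
      smul_inv_smul]

theorem m_conj_gp (hX : Cl X) {g : G} (hg : g ∈ gp X) (x : T.Pt) {h : G} (hh : h ∈ gp (Pp X x)) :
    g * h * g⁻¹ ∈ gp (Pp X (g • x)) := by
  refine gp_induction (P := fun h => g * h * g⁻¹ ∈ gp (Pp X (g • x))) (by simp) ?_ h hh
  intro y hy k _ ih
  have h1 : (g • y).val ∈ gp (Pp X (g • x)) :=
    mem_gp ⟨hX.smul_mem hg hy.1, (cm_smul g x y).2 hy.2⟩
  have h2 := mul_mem h1 ih
  rw [smul_val] at h2
  convert h2 using 1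
  group

theorem m_inK (hX : Cl X) (ht : Tri X)
    (h4 : ∀ a ∈ X, ∀ b ∈ X, ∀ c ∈ X, ∀ d ∈ X, ∃ u ∈ X, ¬ cm a u ∧ ¬ cm b u ∧ ¬ cm c u ∧ ¬ cm d u)
    {d : T.Pt} (hd : d ∈ X) {g : G} (hg : g ∈ gp X) (hgd : g • d = d) : InK X d g := by
  refine m_m0 hX (mInK hX) ?_ (fun x _ e he => ⟨e.val, mem_gp he, fun _ _ => rfl⟩) ht hd ?_ ?_ ?_
    hg hgd
  · rintro g hg x - h ⟨k, hk, e⟩
    refine ⟨g * k * g⁻¹, m_conj_gp hX hg x hk, fun p hp => ?_⟩
    rw [mul_smul, mul_smul, mul_smul, mul_smul, e _ (hX.smul_mem (inv_mem hg) hp)]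
  · obtain ⟨u, hu, h, -⟩ := h4 d hd d hd d hd d hd
    exact ⟨u, hu, h⟩
  · intro y hy u hu u' hu' _ _ _
    obtain ⟨w, hw, w1, w2, w3, w4⟩ := h4 d hd y hy.1 u hu.1 u' hu'.1
    exact ⟨w, ⟨hw, w1⟩, w2, w3, w4⟩
  · intro y hy y' hy' _
    obtain ⟨w, hw, w1, w2, w3, -⟩ := h4 d hd y hy.1 y' hy'.1 d hd
    exact ⟨w, ⟨hw, w1⟩, w2, w3⟩

theorem m_relIndex {α : Type*} [MulAction G α] (a : α) (H : Subgroup G) :
    (MulAction.stabilizer G a).relIndex H = (MulAction.orbit H a).ncard := by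
  rw [← MulAction.index_stabilizer]
  rfl

theorem m_fx_eq (Y : Set T.Pt) :
    fx Y = MulAction.stabilizer G (Subtype.val : Y → T.Pt) := by
  ext g
  rw [mem_fx, MulAction.mem_stabilizer_iff, funext_iff]
  exact ⟨fun h x => h x x.2, fun h x hx => h ⟨x, hx⟩⟩

theorem m_act_rs (hX : Cl X) (d : T.Pt) {h : G} (hh : h ∈ gp (Pp X d)) :
    ∃ k ∈ gp (Rs X d), ∀ p ∈ Rs X d, h • p = k • p := by
  refine gp_induction (P := fun h => ∃ k ∈ gp (Rs X d), ∀ p ∈ Rs X d, h • p = k • p)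
    ⟨1, one_mem _, fun _ _ => rfl⟩ ?_ h hh
  rintro x hx g - ⟨k, hk, e⟩
  by_cases hxd : x = d
  · subst hxd
    refine ⟨k, hk, fun p hp => ?_⟩
    rw [mul_smul, e p hp]
    exact ((hX.rs x).smul_mem hk hp).2.2.rf_eq
  · exact ⟨x.val * k, mul_mem (mem_gp ⟨hx.1, hxd, hx.2⟩) hk, fun p hp => by
      rw [mul_smul, mul_smul, e p hp]⟩

variable [Finite G]

theorem m_cq (h : St X) (ht : Tri X)
    (h4 : ∀ a ∈ X, ∀ b ∈ X, ∀ c ∈ X, ∀ d ∈ X, ∃ u ∈ X, ¬ cm a u ∧ ¬ cm b u ∧ ¬ cm c u ∧ ¬ cm d u)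
    {d : T.Pt} (hd : d ∈ X) : cq X = 2 * cq (Rs X d) * X.ncard := by
  have hX := h.cl
  have e1 : fx X = fx X ⊓ MulAction.stabilizer G d :=
    (inf_eq_left.2 fun g hg => mem_fx.1 hg d hd).symm
  have e2 : fx X = fx X ⊓ fx (Rs X d) :=
    (inf_eq_left.2 fun g hg => mem_fx.2 fun x hx => mem_fx.1 hg x hx.1).symm
  have a1 : (MulAction.stabilizer G d).relIndex (gp X) = X.ncard := by
    rw [m_relIndex]
    congr 1
    ext x
    refine ⟨?_, fun hx => ?_⟩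
    · rintro ⟨g, rfl⟩
      exact hX.smul_mem g.2 hd
    · obtain ⟨g, hg, e⟩ := h.cn.trans d hd x hx
      exact ⟨⟨g, hg⟩, e⟩
  have a2 : (fx (Rs X d)).relIndex (MulAction.stabilizer G d ⊓ gp X) = cq (Rs X d) := by
    rw [cq, m_fx_eq, m_relIndex, m_relIndex]
    congr 1
    ext f
    refine ⟨?_, ?_⟩
    · rintro ⟨g, rfl⟩
      obtain ⟨k, hk, e⟩ := m_inK hX ht h4 hd g.2.2 g.2.1
      obtain ⟨k', hk', e'⟩ := m_act_rs hX d hk
      exact ⟨⟨k', hk'⟩, funext fun p => ((e p p.2.1).trans (e' p p.2)).symm⟩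
    · rintro ⟨g, rfl⟩
      exact ⟨⟨g, smul_eq_of_mem_gp (fun x hx => hx.2.2) g.2, gp_mono (fun _ h => h.1) g.2⟩, rfl⟩
  have a3 : (fx X).relIndex (fx (Rs X d) ⊓ (MulAction.stabilizer G d ⊓ gp X)) = 2 := by
    rw [Subgroup.relIindex_eq_two_iff']
    refine ⟨d.val, ⟨mem_fx.2 fun x hx => hx.2.2.rf_eq, rf_self d, mem_gp hd⟩, fun g hg => ?_⟩
    have n : ¬ (d.val * g ∈ fx X ∧ g ∈ fx X) := fun ⟨g1, g2⟩ => by
      obtain ⟨u, hu⟩ := h.exists_ncm hd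
      have h5 := mul_mem g1 (inv_mem g2)
      rw [mul_inv_cancel_right] at h5
      exact hu.2 (cm_iff_rf_eq.2 (mem_fx.1 h5 u hu.1))
    rcases h.ker hd (fun x hx => hX.smul_mem hg.2.2 hx) hg.2.1 hg.1 with h5 | h5
    · exact .inr ⟨h5, fun h6 => n ⟨h6, h5⟩⟩
    · exact .inl ⟨h5, fun h6 => n ⟨h5, h6⟩⟩
  rw [cq, e1, ← Subgroup.relIndex_inf_mul_relIndex, a1, e2, ← Subgroup.relIndex_inf_mul_relIndex,
    a2, a3]

theorem m_pp {d : T.Pt} (hd : d ∈ X) : (Pp X d).ncard = (Rs X d).ncard + 1 := by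
  rw [← Set.ncard_insert_of_notMem (a := d) (s := Rs X d) (fun h => h.2.1 rfl)]
  congr 1
  ext x
  refine ⟨fun hx => ?_, ?_⟩
  · by_cases e : x = d
    · exact .inl e
    · exact .inr ⟨hx.1, e, hx.2⟩
  · rintro (rfl | hx)
    · exact ⟨hd, cm_refl _⟩
    · exact ⟨hx.1, hx.2.2⟩

theorem m_mu_cm {v k lam mu : ℕ} (h : Srg X v k lam mu) {a b : T.Pt} (ha : a ∈ X)
    (hb : b ∈ Rs X a) : (Mu X a b).ncard = lam + 2 := by
  have e : Mu X a b = insert a (Pp (Rs X a) b) := by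
    ext x
    refine ⟨fun hx => ?_, ?_⟩
    · by_cases e : x = a
      · exact .inl e
      · exact .inr ⟨⟨hx.1, e, hx.2.1⟩, hx.2.2⟩
    · rintro (rfl | hx)
      · exact ⟨ha, cm_refl _, hb.2.2.symm⟩
      · exact ⟨hx.1.1, hx.1.2.2, hx.2⟩
  rw [e, Set.ncard_insert_of_notMem (fun h => h.1.2.1 rfl), m_pp hb, h.lam a ha b hb]

theorem m_mu_self {v k lam mu : ℕ} (h : Srg X v k lam mu) {a : T.Pt} (ha : a ∈ X) :
    (Mu X a a).ncard = k + 1 := by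
  rw [← h.rs a ha, ← m_pp ha]
  congr 1
  ext x
  exact ⟨fun hx => ⟨hx.1, hx.2.1⟩, fun hx => ⟨hx.1, hx.2, hx.2⟩⟩

theorem m_four {v k lam mu m : ℕ} (h : Srg X v k lam mu) (h1 : m ≤ lam + 2) (h2 : m ≤ mu)
    (h3 : 4 * (k + 1) < v + 3 * m) {a b c d : T.Pt} (ha : a ∈ X) (hb : b ∈ X) (hc : c ∈ X)
    (hd : d ∈ X) : ∃ u ∈ X, ¬ cm a u ∧ ¬ cm b u ∧ ¬ cm c u ∧ ¬ cm d u := by
  have key : ∀ b ∈ X, (Nc (Pp X b) a).ncard + m ≤ k + 1 := by
    intro b hb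
    have e1 : m ≤ (Mu X a b).ncard := by
      by_cases hab : cm a b
      · by_cases e : b = a
        · obtain ⟨l, j, -, e2, -⟩ := h.count
          rw [e, m_mu_self h ha]; omega
        · rw [m_mu_cm h ha ⟨hb, e, hab⟩]; exact h1
      · rw [h.mu a ha b ⟨hb, hab⟩]; exact h2
    have e2 : (Pp X b).ncard = (Nc (Pp X b) a).ncard + (Mu X a b).ncard := by
      rw [← Set.ncard_union_eq (Set.disjoint_left.2 fun x hx hx' => hx.2 hx'.2.1)]
      congr 1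
      ext x
      refine ⟨fun hx => ?_, ?_⟩
      · by_cases e : cm a x
        · exact .inr ⟨hx.1, e, hx.2⟩
        · exact .inl ⟨hx, e⟩
      · rintro (hx | hx)
        · exact hx.1
        · exact ⟨hx.1, hx.2.2⟩
    rw [m_pp hb, h.rs b hb] at e2
    omega
  by_contra! hn
  have hs : X ⊆ Pp X a ∪ Nc (Pp X b) a ∪ Nc (Pp X c) a ∪ Nc (Pp X d) a := by
    intro u hu
    by_cases e1 : cm a u
    · exact .inl (.inl (.inl ⟨hu, e1⟩))
    by_cases e2 : cm b u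
    · exact .inl (.inl (.inr ⟨⟨hu, e2⟩, e1⟩))
    by_cases e3 : cm c u
    · exact .inl (.inr ⟨⟨hu, e3⟩, e1⟩)
    exact .inr ⟨⟨hu, hn u hu e1 e2 e3⟩, e1⟩
  have e1 := Set.ncard_le_ncard hs
  have e2 := Set.ncard_union_le (Pp X a ∪ Nc (Pp X b) a ∪ Nc (Pp X c) a) (Nc (Pp X d) a)
  have e3 := Set.ncard_union_le (Pp X a ∪ Nc (Pp X b) a) (Nc (Pp X c) a)
  have e4 := Set.ncard_union_le (Pp X a) (Nc (Pp X b) a)
  have e5 := key b hb
  have e6 := key c hc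
  have e7 := key d hd
  rw [h.card] at e1
  rw [m_pp ha, h.rs a ha] at e4
  omega

end Cfsg.Agent.H3.TTC
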