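import Cfsg.Agent.Fs.PMa

/-! Affine triangles have a common commuting point. -/

set_option autoImplicit false

namespace Cfsg.Agent.H3.TTC

variable {G : Type*} [Group G] [Finite G] {T : TTC G} {X : Set T.Pt}

open Classical in
/-- the sum of a function over a set of points -/
noncomputable def mS (S : Set T.Pt) (f : T.Pt → ℕ) : ℕ :=
  ∑ x ∈ (Set.toFinite (Set.univ : Set T.Pt)).toFinset, if x ∈ S then f x else 0

theorem m_S_congr {S : Set T.Pt} {f g : T.Pt → ℕ} (h : ∀ x ∈ S, f x = g x) : mS S f = mS S g :=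
  Finset.sum_congr rfl fun x _ => by
    split_ifs with hx
    · exact h x hx
    · rfl

theorem m_S_one (S : Set T.Pt) : mS S (fun _ => 1) = S.ncard := by
  classical
  rw [mS, ← Finset.card_filter, ← Set.ncard_coe_finset]
  congr 1
  ext x
  simp

theorem m_S_const {S : Set T.Pt} {f : T.Pt → ℕ} {c : ℕ} (h : ∀ x ∈ S, f x = c) :
    mS S f = S.ncard * c := by
  rw [m_S_congr h, ← m_S_one, mS, mS, Finset.sum_mul]
  exact Finset.sum_congr rfl fun x _ => by split_ifs <;> simp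

theorem m_S_pp {S : Set T.Pt} {d : T.Pt} (hd : d ∈ S) (f : T.Pt → ℕ) :
    mS (Pp S d) f = f d + mS (Rs S d) f := by
  classical
  have e : f d = ∑ x ∈ (Set.toFinite (Set.univ : Set T.Pt)).toFinset, if x = d then f x else 0 := by
    simp
  rw [e, mS, mS, ← Finset.sum_add_distrib]
  refine Finset.sum_congr rfl fun x _ => ?_
  by_cases h : x = d
  · subst h; simp [Pp, Rs, hd]
  · by_cases h1 : x ∈ S <;> by_cases h2 : cm d x <;> simp [Pp, Rs, h, h1, h2]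

theorem m_S_split (S : Set T.Pt) (d : T.Pt) (f : T.Pt → ℕ) :
    mS S f = mS (Pp S d) f + mS (Nc S d) f := by
  rw [mS, mS, mS, ← Finset.sum_add_distrib]
  refine Finset.sum_congr rfl fun x _ => ?_
  by_cases h : x ∈ S <;> by_cases h' : cm d x <;> simp [Pp, Nc, h, h']

theorem m_S_comm (S U : Set T.Pt) (f : T.Pt → T.Pt → ℕ) :
    mS S (fun x => mS U (f x)) = mS U (fun y => mS S (fun x => f x y)) := by
  classical
  have e : ∀ (S U : Set T.Pt) (f : T.Pt → T.Pt → ℕ), mS S (fun x => mS U (f x)) =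
      ∑ x ∈ (Set.toFinite (Set.univ : Set T.Pt)).toFinset,
        ∑ y ∈ (Set.toFinite (Set.univ : Set T.Pt)).toFinset,
          if x ∈ S ∧ y ∈ U then f x y else 0 := fun S U f =>
    Finset.sum_congr rfl fun x _ => by
      by_cases h : x ∈ S <;> simp [mS, h]
  rw [e, e, Finset.sum_comm]
  simp only [and_comm]

theorem m_S_ite (S : Set T.Pt) (p : T.Pt → Prop) [DecidablePred p] :
    mS S (fun x => if p x then 1 else 0) = {x | x ∈ S ∧ p x}.ncard := by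
  rw [← m_S_one, mS, mS]
  refine Finset.sum_congr rfl fun x _ => ?_
  by_cases h : x ∈ S <;> by_cases h' : p x <;> simp [h, h']

theorem m_S_mul (S : Set T.Pt) (c : ℕ) (f : T.Pt → ℕ) :
    mS S (fun x => c * f x) = c * mS S f := by
  rw [mS, mS, Finset.mul_sum]
  exact Finset.sum_congr rfl fun x _ => by split_ifs <;> simp

theorem m_first (Z M : Set T.Pt) :
    mS Z (fun x => (Pp M x).ncard) = mS M (fun e => (Pp Z e).ncard) := by
  classical
  have e : ∀ (M : Set T.Pt) x, (Pp M x).ncard = mS M (fun e => if cm x e then 1 else 0) :=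
    fun M x => (m_S_ite M _).symm
  simp only [e]
  rw [m_S_comm]
  simp only [cm_comm]

theorem m_second (Z M : Set T.Pt) :
    mS Z (fun x => (Pp M x).ncard ^ 2) = mS M (fun e => mS M (fun e' => (Mu Z e e').ncard)) := by
  classical
  have e : ∀ x, (Pp M x).ncard ^ 2 =
      mS M (fun e => mS M (fun e' => if cm e x ∧ cm e' x then 1 else 0)) := by
    intro x
    have e1 : (Pp M x).ncard = mS M (fun e => if cm x e then 1 else 0) := (m_S_ite M _).symm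
    rw [sq]
    conv_lhs => rw [e1, mul_comm, ← m_S_mul]
    refine m_S_congr fun e _ => ?_
    rw [mul_comm, ← m_S_mul]
    refine m_S_congr fun e' _ => ?_
    by_cases h : cm x e <;> by_cases h' : cm x e' <;> simp [h, h', cm_comm (b := x)]
  simp only [e]
  rw [m_S_comm]
  refine m_S_congr fun e _ => ?_
  rw [m_S_comm]
  exact m_S_congr fun e' _ => m_S_ite Z _

theorem m_srg_first {Z M : Set T.Pt} {v k lam mu : ℕ} (h : Srg Z v k lam mu) (hM : M ⊆ Z) :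
    mS Z (fun x => (Pp M x).ncard) = M.ncard * (k + 1) := by
  rw [m_first]
  exact m_S_const fun e he => by rw [m_pp (hM he), h.rs e (hM he)]

theorem m_srg_second {Z M : Set T.Pt} {v k lam mu : ℕ} (h : Srg Z v k lam mu) (hM : M ⊆ Z)
    {κ j : ℕ} (h1 : ∀ e ∈ M, (Rs M e).ncard = κ) (h2 : M.ncard = 1 + κ + j) :
    mS Z (fun x => (Pp M x).ncard ^ 2) = M.ncard * (k + 1 + κ * (lam + 2) + j * mu) := by
  rw [m_second]
  refine m_S_const fun e he => ?_
  have h3 := ncard_eq_rs_nc he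
  rw [h1 e he, h2] at h3
  rw [m_S_split M e, m_S_pp he, m_mu_self h (hM he),
    m_S_const (c := lam + 2) fun x hx => m_mu_cm h (hM he) ⟨hM hx.1, hx.2⟩,
    m_S_const (c := mu) fun x hx => h.mu e (hM he) x ⟨hM hx.1, hx.2⟩, h1 e he,
    show (Nc M e).ncard = j by omega]

theorem m_S_line {d a : T.Pt} (hda : ¬ cm d a) (f : T.Pt → ℕ) :
    mS X f + 2 * mS (Mu X d a) f = mS (Nc (Nc (Nc X d) a) (d ◃ a)) f + mS (Pp X d) f +
      mS (Pp X a) f + mS (Pp X (d ◃ a)) f := by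
  simp only [mS, Finset.mul_sum, ← Finset.sum_add_distrib]
  refine Finset.sum_congr rfl fun x _ => ?_
  by_cases hx : x ∈ X
  · by_cases h1 : cm d x
    · have h3 : cm (d ◃ a) x ↔ cm a x := by rw [cm_rf_left, h1.rf_eq]
      by_cases h2 : cm a x <;> simp [Mu, Nc, Pp, hx, h1, h2, h3]; ring
    · by_cases h2 : cm a x
      · have h3 : ¬ cm (d ◃ a) x := by rw [rf_comm hda, cm_rf_left, h2.rf_eq]; exact h1
        simp [Mu, Nc, Pp, hx, h1, h2, h3]
      · by_cases h3 : cm (d ◃ a) x <;> simp [Mu, Nc, Pp, hx, h1, h2, h3]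
  · simp [Mu, Nc, Pp, hx]

theorem m_var {A : Set T.Pt} {n : T.Pt → ℕ} {c : ℕ}
    (h : mS A (fun x => n x ^ 2) + c ^ 2 * mS A (fun _ => 1) = 2 * c * mS A n) {z : T.Pt}
    (hz : z ∈ A) : n z = c := by
  classical
  have h1 : ∑ x ∈ (Set.toFinite (Set.univ : Set T.Pt)).toFinset,
      (if x ∈ A then ((n x : ℤ) - c) ^ 2 else 0) = 0 := by
    have h2 : ((mS A (fun x => n x ^ 2) + c ^ 2 * mS A (fun _ => 1) : ℕ) : ℤ) -
        ((2 * c * mS A n : ℕ) : ℤ) = 0 := by rw [h, sub_self]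
    refine Eq.trans ?_ h2
    simp only [mS, Finset.mul_sum, ← Finset.sum_add_distrib, Nat.cast_sum, ← Finset.sum_sub_distrib]
    refine Finset.sum_congr rfl fun x _ => ?_
    split_ifs
    · push_cast; ring
    · simp
  have h3 := (Finset.sum_eq_zero_iff_of_nonneg fun x _ => by
    split_ifs
    · exact sq_nonneg _
    · exact le_rfl).1 h1 z (by simp)
  rw [if_pos hz, sq_eq_zero_iff, sub_eq_zero] at h3
  exact_mod_cast h3

theorem m_n3 {v k lam mu lam' κ j c N0 N1 N2 : ℕ} (h : Srg X v k lam mu)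
    (hY : ∀ d ∈ X, Srg (Rs X d) k lam lam' κ) (hj : mu = 1 + κ + j)
    (e0 : v + 2 * mu = N0 + 3 * (k + 1))
    (e1 : mu * (k + 1) + 2 * (mu * (κ + 1)) = N1 + 3 * (mu + mu * (lam + 1)))
    (e2 : mu * (k + 1 + κ * (lam + 2) + j * mu) + 2 * (mu * (κ + 1) ^ 2) =
      N2 + 3 * (mu ^ 2 + mu * (lam + 1 + κ * (lam' + 2) + j * κ)))
    (e3 : N2 + c ^ 2 * N0 = 2 * c * N1) (hc : 0 < c) {d a z : T.Pt} (hd : d ∈ X) (ha : a ∈ X)
    (hz : z ∈ X) (hda : ¬ cm d a) (h1 : ¬ cm d z) (h2 : ¬ cm a z) (h3 : ¬ cm (d ◃ a) z) :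
    ∃ e ∈ X, cm d e ∧ cm a e ∧ cm z e := by
  have hb : d ◃ a ∈ X := h.st.cl d hd a ha
  have hM : (Mu X d a).ncard = mu := h.mu d hd a ⟨ha, hda⟩
  have hκ : ∀ e ∈ Mu X d a, (Rs (Mu X d a) e).ncard = κ := fun e he => by
    rw [rs_mu]
    exact (hY e he.1).mu d ⟨hd, fun h => hda (h ▸ he.2.2).symm, he.2.1.symm⟩ a
      ⟨⟨ha, fun h => hda (h ▸ he.2.1), he.2.2.symm⟩, hda⟩
  have hP : ∀ e ∈ Mu X d a, (Pp (Mu X d a) e).ncard = κ + 1 := fun e he => by
    rw [m_pp he, hκ e he]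
  have key : ∀ p ∈ X, Mu X d a ⊆ Rs X p → mS (Pp X p) (fun _ => 1) = k + 1 ∧
      mS (Pp X p) (fun x => (Pp (Mu X d a) x).ncard) = mu + mu * (lam + 1) ∧
      mS (Pp X p) (fun x => (Pp (Mu X d a) x).ncard ^ 2) =
        mu ^ 2 + mu * (lam + 1 + κ * (lam' + 2) + j * κ) := by
    intro p hp hs
    have e : Pp (Mu X d a) p = Mu X d a := Set.ext fun x => ⟨fun h => h.1, fun h => ⟨h, (hs h).2.2⟩⟩
    refine ⟨by rw [m_S_one, m_pp hp, h.rs p hp], ?_, ?_⟩
    · rw [m_S_pp hp, m_srg_first (hY p hp) hs, e, hM]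
    · rw [m_S_pp hp, m_srg_second (hY p hp) hs hκ (hM.trans hj), e, hM]
  obtain ⟨d0, d1, d2⟩ := key d hd (mu_subset_rs hda)
  obtain ⟨a0, a1, a2⟩ := key a ha (by rw [mu_comm]; exact mu_subset_rs (ncm_symm hda))
  obtain ⟨b0, b1, b2⟩ := key _ hb (by
    rw [← mu_rf, mu_comm]; exact mu_subset_rs (ncm_symm (mt (cm_rf_self_left d a).1 hda)))
  have s0 := m_S_line (X := X) hda (fun _ => 1)
  have s1 := m_S_line (X := X) hda (fun x => (Pp (Mu X d a) x).ncard)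
  have s2 := m_S_line (X := X) hda (fun x => (Pp (Mu X d a) x).ncard ^ 2)
  rw [d0, a0, b0, m_S_one X, m_S_one (Mu X d a), hM, h.card] at s0
  rw [d1, a1, b1, m_srg_first h fun _ h => h.1, m_S_const hP, hM] at s1
  rw [d2, a2, b2, m_srg_second h (fun _ h => h.1) hκ (hM.trans hj),
    m_S_const (c := (κ + 1) ^ 2) fun x hx => by rw [hP x hx], hM] at s2
  have h4 := m_var (A := Nc (Nc (Nc X d) a) (d ◃ a)) (n := fun x => (Pp (Mu X d a) x).ncard)
    (c := c) (by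
      rw [show mS (Nc (Nc (Nc X d) a) (d ◃ a)) (fun _ => 1) = N0 by omega,
        show mS (Nc (Nc (Nc X d) a) (d ◃ a)) (fun x => (Pp (Mu X d a) x).ncard) = N1 by omega,
        show mS (Nc (Nc (Nc X d) a) (d ◃ a)) (fun x => (Pp (Mu X d a) x).ncard ^ 2) = N2 by omega,
        e3]) (z := z) ⟨⟨⟨hz, h1⟩, h2⟩, h3⟩
  obtain ⟨e, he⟩ := Set.nonempty_of_ncard_ne_zero (s := Pp (Mu X d a) z) (by omega)
  exact ⟨e, he.1.1, he.1.2.1, he.1.2.2, he.2⟩

theorem m_tri (h : St X) (hY : ∀ e ∈ X, Tri (Rs X e))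
    (h3 : ∀ d ∈ X, ∀ a ∈ X, ∀ z ∈ X, ¬ cm d a → ¬ cm d z → ¬ cm a z → ¬ cm (d ◃ a) z →
      ∃ e ∈ X, cm d e ∧ cm a e ∧ cm z e) : Tri X := by
  intro x hx y hy z hz hxy hyz hzx
  have hX := h.cl
  by_cases h4 : cm z (x ◃ y)
  · obtain ⟨e1, e2⟩ := tri_eq hxy hyz hzx h4
    exact ⟨_, mem_gp (x := y ◃ z) ⟨hX y hy z hz, e2⟩, fun p _ => by rw [e1]⟩
  obtain ⟨e, he, ex, ey, ez⟩ := h3 x hx y hy z hz hxy (ncm_symm hzx) hyz (ncm_symm h4)
  have hx' : x ∈ Rs X e := ⟨hx, fun h => hxy (h ▸ ey).symm, ex.symm⟩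
  have hy' : y ∈ Rs X e := ⟨hy, fun h => hxy (h ▸ ex), ey.symm⟩
  have hz' : z ∈ Rs X e := ⟨hz, fun h => hyz (h ▸ ey), ez.symm⟩
  obtain ⟨k, hk, ek⟩ := hY e he x hx' y hy' z hz' hxy hyz hzx
  have hR := hX.rs e
  have ht : tri x y z ∈ gp (Rs X e) :=
    mul_mem (mul_mem (mem_gp (hR z hz' x hx')) (mem_gp (hR y hy' z hz'))) (mem_gp (hR x hx' y hy'))
  have hg : k⁻¹ * tri x y z ∈ gp (Rs X e) := mul_mem (inv_mem (gp_mono (fun _ h => h.1) hk)) ht
  have hk' : k ∈ gp (Pp X x) := gp_mono (fun p (h : p ∈ Pp (Rs X e) x) => (⟨h.1.1, h.2⟩ : p ∈ Pp X x)) hk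
  rcases h.ker he (fun p hp => hX.smul_mem (gp_mono (fun _ h => h.1) hg) hp)
    (smul_eq_of_mem_gp (fun _ h => h.2.2) hg)
    (mem_fx.2 fun p hp => by rw [mul_smul, ek p hp, inv_smul_smul]) with h5 | h5
  · refine ⟨k, hk', fun p hp => ?_⟩
    conv_rhs => rw [← mem_fx.1 h5 p hp, mul_smul, smul_inv_smul]
  · refine ⟨k * e.val, mul_mem hk' (mem_gp ⟨he, ex⟩), fun p hp => ?_⟩
    conv_rhs => rw [← mem_fx.1 h5 p hp, ← mul_smul]
    congr 1
    rw [mul_assoc, ← mul_assoc e.val, e.mul_self, one_mul, mul_inv_cancel_left]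

end Cfsg.Agent.H3.TTC
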