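import Cfsg.Agent.Fs.ISpec
import Cfsg.Agent.Fs.ISp
import Cfsg.Agent.Fs.ISym
import Cfsg.Agent.Fs.IO3
import Cfsg.Agent.Fs.IO3Top

/-! The orthogonal type over the field with two elements. -/

set_option autoImplicit false

namespace Cfsg.Agent.H3.TTC

variable {G : Type*} [Group G] [Finite G] {T : TTC G} {X : Set T.Pt}

omit [Finite G] in
theorem o2_mem {d a e : T.Pt} (hd : d ∈ X) (ha : a ∈ Nc X d) (he : e ∈ Mu X d a) :
    d ∈ Rs X e ∧ a ∈ Nc (Rs X e) d :=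
  ⟨⟨hd, fun h => ha.2 (h ▸ he.2.2).symm, he.2.1.symm⟩,
    ⟨ha.1, fun h => ha.2 (h ▸ he.2.1), he.2.2.symm⟩, ha.2⟩

theorem o2_srg {P : Set T.Pt → Prop} (h : Loc P X) :
    ∃ v k lam mu, Srg X v k lam mu ∧ ∃ Y, P Y ∧ Y.ncard = k ∧ ∃ e ∈ Y, (Rs Y e).ncard = lam := by
  obtain ⟨v, k, lam, mu, hs⟩ := h.1.exists_srg
  obtain ⟨d, hd⟩ := h.1.cn.ne
  obtain ⟨e, he⟩ := h.1.exists_cm hd
  exact ⟨v, k, lam, mu, hs, _, h.2 d hd, hs.rs d hd, e, he, hs.lam d hd e he⟩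

theorem o2_comp {P Q : Set T.Pt → Prop} (h : Loc P X)
    (hQ : ∀ e ∈ X, ∀ d ∈ Rs X e, ∀ a ∈ Nc (Rs X e) d,
      Q (Mu (Rs X e) d a) ∧ Red (Mu (Rs X e) d a)) {d a : T.Pt} (hd : d ∈ X)
    (ha : a ∈ Nc X d) : ∃ y ∈ Mu X d a, Loc Q (Cp (Mu X d a) y) ∧
      ∃ m, Odd m ∧ (Mu X d a).ncard = m * (Cp (Mu X d a) y).ncard := by
  obtain ⟨y, hy, h1, h2⟩ := h.1.exists_cm_cm hd ha.1
  have hy' : y ∈ Mu X d a := ⟨hy, h1, h2⟩
  have h3 : ∀ e ∈ Mu X d a, Q (Rs (Mu X d a) e) ∧ Red (Rs (Mu X d a) e) := fun e he => by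
    rw [rs_mu]
    exact hQ e he.1 d (o2_mem hd ha he).1 a (o2_mem hd ha he).2
  obtain ⟨h4, h5⟩ := mu_comp (h.1.cl.mu d a) (fun e he => (h3 e he).2) hy'
  refine ⟨y, hy', ⟨h4, fun e he => ?_⟩, h5⟩
  rw [rs_cp hy' he]
  exact (h3 e (cp_subset hy' he)).1

theorem O2.two (h : O2 2 X) : SyE 8 X ∨ O3 (-1) 5 X := by
  have h1 : Loc (SyE 6) X := ⟨h.1, fun d hd => (h.2 d hd).sye⟩
  rcases loc_sye (by decide) h1 with h2 | ⟨-, h2⟩
  · exact .inl h2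
  · exact .inr (loc_o3 (.inr rfl) (.inr ⟨rfl, rfl, h2⟩) ⟨h.1, fun d hd => (h1.2 d hd).o3⟩)

/-- the parameters, with `t = 2 ^ n` -/
def o2_par (n : ℕ) (X : Set T.Pt) : Prop :=
  ∃ v k lam mu : ℕ, Srg X v k lam mu ∧ ∃ ε : ℤ, (ε = 1 ∨ ε = -1) ∧
    (v : ℤ) = 2 * 2 ^ n * (4 * 2 ^ n + ε) ∧ (k : ℤ) = 4 * 2 ^ n * 2 ^ n - 1 ∧
    (lam : ℤ) = 2 * 2 ^ n * 2 ^ n - 2 ∧ (mu : ℤ) = 2 ^ n * (2 * 2 ^ n - ε)

theorem o2_kl {n : ℕ} (h : O2 (n + 1) X) : ∃ v k lam mu : ℕ, Srg X v k lam mu ∧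
    (k : ℤ) = 4 * 2 ^ n * 2 ^ n - 1 ∧ (lam : ℤ) = 2 * 2 ^ n * 2 ^ n - 2 := by
  obtain ⟨v, k, lam, mu, hs, Y, hY, h1, e, he, h2⟩ := o2_srg h
  have h3 := hY.card
  have h4 := hY.card_rs he
  rw [h1, pow_succ] at h3
  rw [h2] at h4
  have h5 : (4 : ℤ) ^ n = 2 ^ n * 2 ^ n := by rw [← mul_pow]; norm_num
  refine ⟨v, k, lam, mu, hs, ?_, ?_⟩
  · have : (k : ℤ) + 1 = 4 ^ n * 4 := by exact_mod_cast h3
    linarith
  · have : (lam : ℤ) + 2 = 2 * 4 ^ n := by exact_mod_cast h4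
    linarith

theorem o2_step {n : ℕ} (hn : 1 ≤ n) (ih : ∀ Y : Set T.Pt, O2 (n + 1) Y → o2_par n Y)
    (h : O2 (n + 2) X) :
    o2_par (n + 1) X ∧ ∀ d ∈ X, ∀ a ∈ Nc X d, O2 (n + 1) (Mu X d a) := by
  obtain ⟨v, k, lam, mu, hs, hk, hl⟩ := o2_kl h
  obtain ⟨l, j, e1, e2, e3, e4, e5, -⟩ := hs.count
  have ht : (0 : ℤ) < 2 ^ n := by positivity
  have key : ∀ d ∈ X, ∀ a ∈ Nc X d, O2 (n + 1) (Mu X d a) ∧ ∃ ε : ℤ, (ε = 1 ∨ ε = -1) ∧
      (mu : ℤ) = 2 * 2 ^ n * (4 * 2 ^ n + ε) := by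
    intro d hd a ha
    obtain ⟨y, hy, h1, m, h2, h3⟩ := o2_comp (Q := SpE (n + 1)) h (fun e he d hd a ha =>
      ⟨(h.2 e he).mu hd ha, (((h.2 e he).mu hd ha).st (by omega)).red⟩) hd ha
    obtain ⟨v', k', lam', mu', hs', ε, hε, h4, -⟩ := ih _ h1
    rw [hs.mu d hd a ha, hs'.card] at h3
    obtain rfl : m = 1 := by
      by_contra h5
      have h6 : 3 ≤ m := by obtain ⟨t, rfl⟩ := h2; omega
      have h7 : (3 : ℤ) * v' ≤ k := by
        have : 3 * v' ≤ k := (Nat.mul_le_mul_right v' h6).trans (h3 ▸ e5)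
        exact_mod_cast this
      rw [h4, hk, pow_succ] at h7
      rcases hε with rfl | rfl <;> nlinarith
    have h6 : Cp (Mu X d a) y = Mu X d a := Set.eq_of_subset_of_ncard_le (cp_subset hy)
      (by rw [hs.mu d hd a ha, hs'.card, h3, one_mul])
    exact ⟨h6 ▸ h1, ε, hε, by rw [h3, one_mul, h4]⟩
  refine ⟨⟨v, k, lam, mu, hs, ?_⟩, fun d hd a ha => (key d hd a ha).1⟩
  obtain ⟨d, hd⟩ := h.1.cn.ne
  obtain ⟨a, ha⟩ := h.1.exists_ncm hd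
  obtain ⟨ε, hε, h1⟩ := (key d hd a ha).2
  have f1 : (v : ℤ) = 1 + k + l := by exact_mod_cast e1
  have f2 : (k : ℤ) = 1 + lam + j := by exact_mod_cast e2
  have f3 : (k : ℤ) * j = mu * l := by exact_mod_cast e3
  have f4 : (0 : ℤ) < mu := by exact_mod_cast e4
  have f5 : (j : ℤ) = 8 * 2 ^ n * 2 ^ n := by rw [pow_succ] at hk hl; linarith
  have f6 : (l : ℤ) = 4 * 2 ^ n * (4 * 2 ^ n - ε) := by
    apply mul_left_cancel₀ f4.ne'
    rw [← f3, f5, hk, h1, pow_succ]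
    rcases hε with rfl | rfl <;> ring
  refine ⟨-ε, by omega, ?_, hk, hl, ?_⟩
  · rw [f1, f6, hk, pow_succ]; ring
  · rw [h1, pow_succ]; ring

theorem o2_base (h : O2 2 X) : o2_par 1 X := by
  obtain ⟨v, k, lam, mu, hs, hk, hl⟩ := o2_kl (n := 1) h
  obtain ⟨l, j, e1, e2, e3, -⟩ := hs.count
  obtain rfl : k = 15 := by omega
  obtain rfl : lam = 6 := by omega
  rcases h.two with h1 | h1
  · have h2 : v = 28 := hs.card.symm.trans h1.card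
    obtain rfl : l = 12 := by omega
    exact ⟨v, 15, 6, mu, hs, -1, .inr rfl, by omega, hk, hl, by omega⟩
  · have h2 : v = 36 := hs.card.symm.trans ((h1.card_B 5).1 rfl)
    obtain rfl : l = 20 := by omega
    exact ⟨v, 15, 6, mu, hs, 1, .inl rfl, by omega, hk, hl, by omega⟩

theorem o2_all {n : ℕ} (hn : 1 ≤ n) : ∀ Y : Set T.Pt, O2 (n + 1) Y → o2_par n Y := by
  induction n, hn using Nat.le_induction with
  | base => exact fun Y => o2_base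
  | succ n hn ih => exact fun Y h => (o2_step hn ih h).1

theorem o2_mu {n : ℕ} (hn : 1 ≤ n) (h : O2 (n + 2) X) {d a : T.Pt} (hd : d ∈ X)
    (ha : a ∈ Nc X d) : O2 (n + 1) (Mu X d a) := (o2_step hn (o2_all hn) h).2 d hd a ha

theorem O2.sg {n : ℕ} (h : O2 n X) (hn : 2 ≤ n) : Sg X := by
  obtain ⟨n, rfl⟩ : ∃ m, n = m + 1 := ⟨n - 1, by omega⟩
  obtain ⟨v, k, lam, mu, hs, ε, hε, h1, h2, h3, h4⟩ := o2_all (by omega) X h
  obtain ⟨l, j, e1, -⟩ := hs.count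
  have ht : (0 : ℤ) < 2 ^ n := by positivity
  have f1 : (v : ℤ) = 1 + k + l := by exact_mod_cast e1
  obtain ⟨N, h5, h6⟩ := hs.spec e1 (r := -ε * 2 ^ n - 1) (s := 2 * ε * 2 ^ n - 1)
    (by rcases hε with rfl | rfl <;> intro h <;> linarith) (by rw [h3, h4]; ring)
    (by rw [h2, h4]; rcases hε with rfl | rfl <;> ring)
  have h7 : (l : ℤ) = 2 * 2 ^ n * (2 * 2 ^ n + ε) := by linarith
  have h8 : 3 * (N : ℤ) = 4 * (2 ^ n * 2 ^ n) - 1 := by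
    apply mul_left_cancel₀ (a := 2 * ε * 2 ^ n)
      (by rcases hε with rfl | rfl <;> intro h <;> linarith)
    rw [h7] at h5
    rcases hε with rfl | rfl <;> linarith
  refine h6 (Nat.odd_iff.2 ?_)
  omega

theorem o2_not3 : ¬ Loc (O2 3) X := fun h => by
  obtain ⟨v, k, lam, mu, hs, Y, hY, h1, e, he, h2⟩ := o2_srg h
  obtain ⟨l, j, e1, e2, e3, -⟩ := hs.count
  obtain ⟨d, hd⟩ := h.1.cn.ne
  obtain ⟨a, ha⟩ := h.1.exists_ncm hd
  have par : ∀ e ∈ X, ∃ lam' mu', Srg (Rs X e) k 63 lam' mu' ∧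
      (k = 136 ∧ mu' = 28 ∨ k = 120 ∧ mu' = 36) := fun e he => by
    obtain ⟨v', k', lam', mu', hs', ε, hε, h3, h4, -, h5⟩ := o2_all (by decide) _ (h.2 e he)
    obtain rfl : v' = k := hs'.card.symm.trans (hs.rs e he)
    obtain rfl : k' = 63 := by omega
    exact ⟨lam', mu', hs', by omega⟩
  obtain ⟨x, hx⟩ := h.1.exists_cm hd
  obtain ⟨lam', mu', h3, h4⟩ := par d hd
  obtain rfl : lam = 63 := (hs.lam d hd x hx).symm.trans (h3.rs x hx)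
  rcases h4 with ⟨rfl, -⟩ | ⟨rfl, -⟩
  · obtain ⟨y, hy, h5, m, -, h6⟩ := o2_comp (Q := SyE 8) h (fun e he d hd a ha => by
      have h5 := o2_mu le_rfl (h.2 e he) hd ha
      refine ⟨h5.two.resolve_right fun h6 => ?_, h5.1.red⟩
      obtain ⟨lam', mu', h7, h8⟩ := par e he
      have := (h7.mu d hd a ha).symm.trans ((h6.card_B 5).1 rfl)
      omega) hd ha
    have h7 := ((loc_sye (by decide) h5).resolve_right (by omega)).card
    rw [hs.mu d hd a ha, h7] at h6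
    obtain rfl : j = 72 := by omega
    rw [h6, show m * Nat.choose (8 + 2) 2 * l = 5 * (9 * m * l) by
      rw [show Nat.choose (8 + 2) 2 = 45 from rfl]; ring] at e3
    omega
  · obtain ⟨y, hy, h5, m, -, h6⟩ := o2_comp (Q := O3 (-1) 5) h (fun e he d hd a ha => by
      have h5 := o2_mu le_rfl (h.2 e he) hd ha
      refine ⟨h5.two.resolve_left fun h6 => ?_, h5.1.red⟩
      obtain ⟨lam', mu', h7, h8⟩ := par e he
      have : mu' = 28 := (h7.mu d hd a ha).symm.trans h6.card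
      omega) hd ha
    have h7 := ((loc_o3 (.inr rfl) (.inl le_rfl) h5).card_B 6).2 rfl
    rw [hs.mu d hd a ha, h7] at h6
    obtain rfl : j = 56 := by omega
    rw [h6, show m * 117 * l = 13 * (9 * m * l) by ring] at e3
    omega

theorem not_loc_o2 {n : ℕ} (hn : 3 ≤ n) : ¬ Loc (O2 n) X := by
  induction n, hn using Nat.le_induction generalizing X with
  | base => exact o2_not3
  | succ n hn ih =>
    intro h
    obtain ⟨n, rfl⟩ : ∃ m, n = m + 1 := ⟨n - 1, by omega⟩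
    obtain ⟨d, hd⟩ := h.1.cn.ne
    obtain ⟨a, ha⟩ := h.1.exists_ncm hd
    obtain ⟨y, -, h1, -⟩ := o2_comp (Q := O2 (n + 1)) h (fun e he d hd a ha =>
      ⟨o2_mu (by omega) (h.2 e he) hd ha, (o2_mu (by omega) (h.2 e he) hd ha).1.red⟩) hd ha
    exact ih h1

end Cfsg.Agent.H3.TTC
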