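import Cfsg.Agent.Fs.PO3c

/-! The tower of orthogonal types over the field with three elements. -/

set_option autoImplicit false

namespace Cfsg.Agent.H3.TTC

open Matrix

variable {G : Type*} [Group G] {T : TTC G} {η : ZMod 3} {n : ℕ}
  {X : Set T.Pt} {ψ : T.Pt → Fin n → ZMod 3} {d a a' a'' : T.Pt} {s s' s'' : Fin n → ZMod 3}

open Classical in
/-- the intrinsic form on the points noncommuting with `d` -/
noncomputable def bt (d a a' : T.Pt) : ZMod 3 :=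
  if a' ≠ a ∧ cm a a' then -1 else if a' ≠ d ◃ a ∧ cm (d ◃ a) a' then 1 else 0

theorem bt_comm : bt d a a' = bt d a' a := by
  have h1 : (a' ≠ a ∧ cm a a') ↔ (a ≠ a' ∧ cm a' a) := by rw [ne_comm, cm_comm]
  have h2 : (a' ≠ d ◃ a ∧ cm (d ◃ a) a') ↔ (a ≠ d ◃ a' ∧ cm (d ◃ a') a) := by
    rw [cm_rf_left, cm_comm]
    exact and_congr_left' ⟨fun h e => h (by rw [e, rf_rf]), fun h e => h (by rw [e, rf_rf])⟩
  classical
  exact if_congr h1 rfl (if_congr h2 rfl rfl)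

theorem bt_rf (ha : ¬ cm d a) (ha' : ¬ cm d a') : bt d (d ◃ a) a' = -bt d a a' := by
  have : cm a a' → ¬ cm (d ◃ a) a' := fun h1 h2 => ha' (by
    have := h1.symm.rf_right h2.symm
    rw [rf_rf_swap ha] at this
    exact this.symm)
  unfold bt
  rw [rf_rf]
  split_ifs with h1 h2 h2
  · exact absurd h1.2 (this h2.2)
  all_goals simp

theorem bt_eq_neg : bt d a a' = -1 ↔ a' ≠ a ∧ cm a a' := by
  simp only [bt]
  split_ifs with h1 h2
  · simp [h1]
  · simp only [h1, iff_false]; decide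
  · simp only [h1, iff_false]; decide

theorem Sv.neg {Y : Set T.Pt} (h : Sv η Y ψ a s) : Sv η Y ψ a (-s) :=
  ⟨neg_ne_zero.2 h.ne, by simp [h.sing], fun y v k => by simpa using h.iff y v k⟩

theorem Sv.smul {Y : Set T.Pt} (h : Sv η Y ψ a s) {c : ZMod 3} (hc : c ≠ 0) : Sv η Y ψ a (c • s) := by
  rcases z3_cases c with rfl | rfl | rfl
  · exact absurd rfl hc
  · rwa [one_smul]
  · rw [neg_one_smul]; exact h.neg

theorem Sv.drf (h : Sv η (Rs X d) ψ a s) : Sv η (Rs X d) ψ (d ◃ a) s :=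
  ⟨h.ne, h.sing, fun y v k => by rw [cm_rf_left, k.1.2.2.rf_eq]; exact h.iff y v k⟩

theorem nc_drf (hX : Cl X) (hd : d ∈ X) (ha : a ∈ Nc X d) : d ◃ a ∈ Nc X d :=
  ⟨hX _ hd _ ha.1, by rw [cm_rf_self_left]; exact ha.2⟩

namespace OCtx

theorem three_le (C : OCtx η n X d ψ) : 3 ≤ n := by have := C.hn'; omega

theorem sv_rf (C : OCtx η n X d ψ) (h : Sv η (Rs X d) ψ a s) {e : T.Pt} {u : Fin n → ZMod 3}
    (he : Rep (Rs X d) ψ e u) : Sv η (Rs X d) ψ (e ◃ a) (s + b3 η s u • u) := by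
  have u1 := C.E.rep_norm he
  have h3 : ∀ x : ZMod 3, x + x + x = 0 := by decide
  refine ⟨fun k => h.ne ?_, ?_, fun y v k => ?_⟩
  · have := congrArg (b3 η · u) k
    simp only [b3_add_left, b3_smul_left, u1, b3_zero_left, mul_one] at this
    have k' : b3 η s u = 0 := by rw [← h3 (b3 η s u), this, zero_add]
    simpa [k'] using k
  · simp only [b3_add_left, b3_add_right, b3_smul_left, b3_smul_right, u1, h.sing, b3_comm u s]
    rw [zero_add, mul_one, mul_add, ← add_assoc, h3]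
  · rw [cm_rf_left, h.iff _ _ (C.E.rep_rf he k)]
    simp [b3_comm v u, mul_comm]

theorem sv_uniq (C : OCtx η n X d ψ) (h : Sv η (Rs X d) ψ a s) (h' : Sv η (Rs X d) ψ a s') :
    s' = s ∨ s' = -s := by
  have key : ∀ z, b3 η z z = 1 → b3 η s z = 0 → b3 η s' z = 0 := fun z k1 k2 => by
    obtain ⟨p, hp⟩ := C.E.rep_ex k1
    exact (h'.iff p z hp).1 ((h.iff p z hp).2 k2)
  by_contra hn
  have hc : ∀ c : ZMod 3, s' ≠ c • s := fun c e => hn (pm_of_smul h'.ne e)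
  obtain ⟨y, k1, k2, -⟩ := o3_dual' C.hη (w := ![]) (s := s) (z := s') (by simp) (by simp) (by simp)
    (by simp) hc
  by_cases hss : b3 η s s' = 0
  · obtain ⟨c, hc⟩ := z3_norm (b3 η y y) 1 one_ne_zero
    have := key (y + c • s') (by simpa [k1, b3_comm s' y, h'.sing] using hc)
      (by simp [b3_comm s y, k2, hss])
    simp [b3_comm s' y, k1, h'.sing] at this
  · obtain ⟨z, z1, z2, -⟩ := o3_conn C.hη C.hn' h.sing h'.sing h.sing hss h.sing
    obtain ⟨w, w1, w2⟩ : ∃ w, b3 η w w = 1 ∧ b3 η w s = 0 := by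
      by_cases e : b3 η z z = 1
      · exact ⟨z, e, z2⟩
      obtain ⟨z', k3, k4, k5⟩ := o3_ex1 C.hη (by have := C.hn'; omega) z1 (b3_comm z s ▸ z2)
      by_cases e' : b3 η z' z' = 1
      · exact ⟨z', e', k4⟩
      exact ⟨z' + z, by simpa [b3_comm z z', k5] using z3_two 1 _ _ one_ne_zero k3 z1 e' e,
        by simp [k4, z2]⟩
    have a1 := key w w1 (b3_comm w s ▸ w2)
    have a2 := key (w + s) (by simp [w1, w2, b3_comm s w, h.sing]) (by simp [b3_comm s w, w2, h.sing])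
    rw [b3_add_right, a1, zero_add, b3_comm] at a2
    exact hss a2

theorem sv_ob (C : OCtx η n X d ψ) (ha : a ∈ Nc X d) (ha' : a' ∈ Nc X d)
    (h : Sv η (Rs X d) ψ a s) (h' : Sv η (Rs X d) ψ a' s') (hne : a' ≠ a) (hc : cm a a') :
    b3 η s s' ≠ 0 ∧ Rep (Rs X d) ψ (a ◃ d ◃ a') (s - b3 η s s' • s') := by
  have h1 : ¬ cm a (d ◃ a') := by
    rw [cm_rf_right, rf_comm ha.2, cm_rf_left, hc.rf_eq]; exact ha'.2
  have h2 : cm d (a ◃ d ◃ a') := by
    rw [cm_rf_right, ← rf_comm ha.2, cm_rf]; exact hc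
  have h3 : (a ◃ d ◃ a') ◃ a = d ◃ a' := by
    rw [rf_rf_left, rf_self, rf_rf_swap (ncm_symm h1)]
  have he : Rep (Rs X d) ψ (a ◃ d ◃ a') (ψ (a ◃ d ◃ a')) := rep_self
    ⟨C.loc.1.cl _ ha.1 _ (C.loc.1.cl _ C.hd _ ha'.1), fun e => hne (rf_left_cancel (d := d) (by
      rw [← rf_rf a (d ◃ a'), e, rf_comm ha.2])), h2⟩
  generalize ψ (a ◃ d ◃ a') = u at he
  have h4 : b3 η s u ≠ 0 := fun e => h1 ((cm_rf_self_left _ _).1 ((h.iff _ _ he).2 e))
  have h5 := C.sv_rf h he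
  rw [h3] at h5
  have h6 := (he.smul h4).neg
  rcases C.sv_uniq h5 h'.drf with e | e
  · have k : b3 η s s' = 1 := by simp [e, h.sing, z3_sq h4]
    exact ⟨by simp [k], h6.of_eq (by rw [k, e]; simp)⟩
  · have k : b3 η s s' = -1 := by simp [e, h.sing, z3_sq h4]
    exact ⟨by rw [k]; decide, h6.of_eq (by rw [k, e]; simp)⟩

theorem sv_opp (C : OCtx η n X d ψ) (h : Sv η (Rs X d) ψ a s) (hs : b3 η s' s' = 0)
    (hss : b3 η s s' ≠ 0) : ∃ e ∈ Rs X d, ¬ cm a e ∧ Sv η (Rs X d) ψ (e ◃ a) s' := by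
  have hq := z3_sq hss
  obtain ⟨e, he⟩ := C.E.rep_ex (v := s - b3 η s s' • s') (by
    simp only [b3_sub_left, b3_sub_right, b3_smul_left, b3_smul_right, h.sing, hs, b3_comm s' s, hq]
    revert hq
    generalize b3 η s s' = x
    revert x; decide)
  have k : b3 η s (s - b3 η s s' • s') = -1 := by simp [h.sing, hq]
  refine ⟨e, he.1, fun e' => ?_, ?_⟩
  · rw [h.iff _ _ he, k] at e'
    exact absurd e' (by decide)
  · have := (C.sv_rf h he).smul hss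
    rwa [k, neg_one_smul, neg_sub, add_sub_cancel, smul_smul, hq, one_smul] at this

variable [Finite G]

theorem sv_inj (C : OCtx η n X d ψ) (ha : a ∈ Nc X d) (ha' : a' ∈ Nc X d)
    (h : Sv η (Rs X d) ψ a s) (h' : Sv η (Rs X d) ψ a' s) : a' = a ∨ a' = d ◃ a :=
  C.loc.1.inj C.hd ha ha' (Set.ext fun x => ⟨
    fun k => ⟨k.1, k.2.1, (h'.iff _ _ (rep_self (mu_subset_rs ha.2 k))).2
      ((h.iff _ _ (rep_self (mu_subset_rs ha.2 k))).1 k.2.2)⟩,
    fun k => ⟨k.1, k.2.1, (h.iff _ _ (rep_self (mu_subset_rs ha'.2 k))).2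
      ((h'.iff _ _ (rep_self (mu_subset_rs ha'.2 k))).1 k.2.2)⟩⟩)

theorem bt_ne (C : OCtx η n X d ψ) (ha : a ∈ Nc X d) (ha' : a' ∈ Nc X d)
    (h : Sv η (Rs X d) ψ a s) (h' : Sv η (Rs X d) ψ a' s') : bt d a a' = 0 ↔ b3 η s s' = 0 := by
  have hda := nc_drf C.loc.1.cl C.hd ha
  rw [← not_iff_not]
  constructor
  · intro k
    rcases z3_cases (bt d a a') with e | e | e
    · exact absurd e k
    · have := bt_eq_neg.1 ((bt_rf ha.2 ha'.2).trans (congrArg Neg.neg e))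
      exact (C.sv_ob hda ha' h.drf h' this.1 this.2).1
    · have := bt_eq_neg.1 e
      exact (C.sv_ob ha ha' h h' this.1 this.2).1
  · intro k
    obtain ⟨e, he, k1, k2⟩ := C.sv_opp h h'.sing k
    have hea : e ◃ a ∈ Nc X d := ⟨C.loc.1.cl _ he.1 _ ha.1, ncm_rf_of_cm he.2.2 ha.2⟩
    have k3 : bt d (d ◃ a) (e ◃ a) = -1 := bt_eq_neg.2
      ⟨fun k => he.2.1 (rf_inj_left (ncm_symm k1) ha.2 k),
        (cm_rf_rf' he.2.2).resolve_right (not_or.2 ⟨ha.2, ncm_symm k1⟩)⟩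
    rw [bt_rf ha.2 hea.2] at k3
    rcases C.sv_inj hea ha' k2 h' with rfl | rfl
    · intro k4; rw [k4] at k3; exact absurd k3 (by decide)
    · rw [bt_comm, bt_rf hea.2 ha.2, bt_comm, k3]; decide

theorem tri_aux (C : OCtx η n X d ψ) (ha : a ∈ Nc X d) (ha' : a' ∈ Nc X d) (ha'' : a'' ∈ Nc X d)
    (h : Sv η (Rs X d) ψ a s) (h' : Sv η (Rs X d) ψ a' s') (h'' : Sv η (Rs X d) ψ a'' s'')
    (k1 : bt d a a' = -1) (k2 : bt d a a'' = -1) (e1 : b3 η s s' = -1) (e2 : b3 η s s'' = -1) :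
    bt d a' a'' = b3 η s' s'' := by
  have r1 := (C.sv_ob ha ha' h h' (bt_eq_neg.1 k1).1 (bt_eq_neg.1 k1).2).2
  have r2 := (C.sv_ob ha ha'' h h'' (bt_eq_neg.1 k2).1 (bt_eq_neg.1 k2).2).2
  have := C.E.rep_ob r1 r2
  rw [cm_rf, cm_rf, show a ◃ d ◃ a'' ≠ a ◃ d ◃ a' ↔ a'' ≠ a' from
    ⟨fun k e => k (e ▸ rfl), fun k e => k (rf_left_cancel (rf_left_cancel e))⟩, ← bt_eq_neg (d := d)]
    at this
  simp only [b3_sub_left, b3_sub_right, b3_smul_left, b3_smul_right, h.sing, b3_comm s' s, e1,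
    e2] at this
  have k := C.bt_ne ha' ha'' h' h''
  revert this k
  generalize bt d a' a'' = x
  generalize b3 η s' s'' = y
  revert x y; decide

theorem tri (C : OCtx η n X d ψ) (ha : a ∈ Nc X d) (ha' : a' ∈ Nc X d) (ha'' : a'' ∈ Nc X d)
    (h : Sv η (Rs X d) ψ a s) (h' : Sv η (Rs X d) ψ a' s') (h'' : Sv η (Rs X d) ψ a'' s'')
    (k1 : bt d a a' = b3 η s s') (k2 : bt d a a'' = b3 η s s'') (e1 : b3 η s s' ≠ 0)
    (e2 : b3 η s s'' ≠ 0) : bt d a' a'' = b3 η s' s'' := by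
  have flip : ∀ {x y : T.Pt} {u v : Fin n → ZMod 3}, x ∈ Nc X d → y ∈ Nc X d →
      (bt d x (d ◃ y) = b3 η u (-v) ↔ bt d x y = b3 η u v) := fun hx hy => by
    rw [bt_comm, bt_rf hy.2 hx.2, bt_comm, b3_neg_right, neg_inj]
  wlog e3 : b3 η s s' = -1 generalizing a' s'
  · have hd' := nc_drf C.loc.1.cl C.hd ha'
    have := this hd' h'.drf.neg ((flip ha ha').2 k1) (by simpa using e1)
      (by rw [b3_neg_right, ((z3_cases _).resolve_left e1).resolve_right e3])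
    rwa [bt_comm, b3_comm, flip ha'' ha', bt_comm, b3_comm] at this
  wlog e4 : b3 η s s'' = -1 generalizing a'' s''
  · have hd' := nc_drf C.loc.1.cl C.hd ha''
    have := this hd' h''.drf.neg ((flip ha ha'').2 k2) (by simpa using e2)
      (by rw [b3_neg_right, ((z3_cases _).resolve_left e2).resolve_right e4])
    rwa [flip ha' ha''] at this
  exact C.tri_aux ha ha' ha'' h h' h'' (k1.trans e3) (k2.trans e4) e3 e4

theorem sv_sign (C : OCtx η n X d ψ) (ha : a ∈ Nc X d) (ha' : a' ∈ Nc X d)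
    (h : Sv η (Rs X d) ψ a s) (h' : Sv η (Rs X d) ψ a' s') :
    bt d a a' = b3 η s s' ∨ bt d a a' = b3 η s (-s') := by
  have k := C.bt_ne ha ha' h h'
  rw [b3_neg_right]
  revert k
  generalize bt d a a' = x
  generalize b3 η s s' = y
  revert x y; decide

theorem sv_surj (C : OCtx η n X d ψ) (h0 : s ≠ 0) (hs : b3 η s s = 0) :
    ∃ a ∈ Nc X d, Sv η (Rs X d) ψ a s := by
  obtain ⟨a, ha⟩ := C.loc.1.exists_ncm C.hd
  obtain ⟨t, ht⟩ := C.exists_sv ha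
  obtain ⟨u, u0, u1, u2⟩ := o3_opp C.hη C.three_le ht.ne h0 ht.sing hs
  obtain ⟨e, he, -, k⟩ := C.sv_opp ht u0 u1
  obtain ⟨f, hf, -, k'⟩ := C.sv_opp k hs (b3_comm s u ▸ u2)
  exact ⟨_, ⟨C.loc.1.cl _ hf.1 _ (C.loc.1.cl _ he.1 _ ha.1),
    ncm_rf_of_cm hf.2.2 (ncm_rf_of_cm he.2.2 ha.2)⟩, k'⟩

theorem exists_section (C : OCtx η n X d ψ) : ∃ σ : T.Pt → Fin n → ZMod 3,
    (∀ a ∈ Nc X d, Sv η (Rs X d) ψ a (σ a)) ∧
      ∀ a ∈ Nc X d, ∀ a' ∈ Nc X d, bt d a a' = b3 η (σ a) (σ a') := by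
  obtain ⟨a₀, ha₀⟩ := C.loc.1.exists_ncm C.hd
  obtain ⟨s₀, h₀⟩ := C.exists_sv ha₀
  let N : T.Pt → (Fin n → ZMod 3) → Prop := fun x u =>
    x ∈ Nc X d ∧ Sv η (Rs X d) ψ x u ∧ b3 η s₀ u ≠ 0 ∧ bt d a₀ x = b3 η s₀ u
  have hN : ∀ {x u x' u'}, N x u → N x' u' → bt d x x' = b3 η u u' := fun k k' =>
    C.tri ha₀ k.1 k'.1 h₀ k.2.1 k'.2.1 k.2.2.2 k'.2.2.2 k.2.2.1 k'.2.2.1
  have exN' : ∀ x u, x ∈ Nc X d → Sv η (Rs X d) ψ x u → b3 η s₀ u ≠ 0 → N x u ∨ N x (-u) :=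
    fun x u hx k k' => (C.sv_sign ha₀ hx h₀ k).imp (fun e => ⟨hx, k, k', e⟩)
      fun e => ⟨hx, k.neg, by simpa using k', e⟩
  have exN : ∀ u, b3 η u u = 0 → b3 η s₀ u ≠ 0 → ∃ x w, N x w ∧ ∀ v, b3 η v w = 0 ↔ b3 η v u = 0 :=
    fun u k k' => by
      obtain ⟨x, hx, k''⟩ := C.sv_surj (s := u) (fun e => k' (by simp [e])) k
      rcases exN' x u hx k'' k' with e | e
      · exact ⟨x, u, e, fun _ => Iff.rfl⟩
      · exact ⟨x, -u, e, by simp⟩
  have conn : ∀ a s x u, a ∈ Nc X d → Sv η (Rs X d) ψ a s → b3 η s s₀ = 0 → N x u →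
      b3 η s u ≠ 0 → bt d a x = b3 η s u → ∀ x' u', N x' u' → bt d a x' = b3 η s u' := by
    intro a s x u ha h e hx k1 k2
    have step : ∀ {x u x' u'}, N x u → b3 η s u ≠ 0 → bt d a x = b3 η s u → N x' u' →
        b3 η u u' ≠ 0 → bt d a x' = b3 η s u' := fun hx k1 k2 hx' k3 =>
      C.tri hx.1 ha hx'.1 hx.2.1 h hx'.2.1 (by rw [bt_comm, b3_comm, k2]) (hN hx hx')
        (b3_comm s _ ▸ k1) k3
    intro x' u' hx'
    by_cases k3 : b3 η u u' ≠ 0
    · exact step hx k1 k2 hx' k3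
    obtain ⟨z, z0, z1, z2, z3⟩ := o3_conn C.hη C.hn' h₀.sing hx.2.1.sing h.sing hx.2.2.1 e
    obtain ⟨c, c0, hc⟩ : ∃ c : ZMod 3, c ≠ 0 ∧
        b3 η u u' + c * b3 η z u' + b3 η z z * b3 η s₀ u * b3 η s₀ u' ≠ 0 := by
      have := mul_ne_zero (mul_ne_zero z0 hx.2.2.1) hx'.2.2.1
      rw [not_not.1 k3]
      revert this
      generalize b3 η z z * b3 η s₀ u * b3 η s₀ u' = y
      generalize b3 η z u' = y'
      revert y y'; decide
    obtain ⟨y, w, hy, hw⟩ := exN (u + c • z + (b3 η z z * b3 η s₀ u) • s₀) (by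
      simp only [b3_add_left, b3_add_right, b3_smul_left, b3_smul_right, hx.2.1.sing, h₀.sing, z1,
        z2, b3_comm u z, b3_comm u s₀, b3_comm s₀ z]
      have := hx.2.2.1
      clear hc
      revert this c0
      generalize b3 η z z = y
      generalize b3 η s₀ u = y'
      revert y y' c; decide) (by simpa [b3_comm s₀ z, z1, h₀.sing] using hx.2.2.1)
    refine step hy (by simpa [hw, b3_comm s z, z3, e] using k1) (step hx k1 k2 hy ?_) hx' ?_
    · simpa [hw, hx.2.1.sing, b3_comm u z, z2, b3_comm u s₀, hx.2.2.1] using z0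
    · rw [b3_comm, Ne, hw, b3_comm]
      simpa using hc
  have good : ∀ a ∈ Nc X d, ∃ s, Sv η (Rs X d) ψ a s ∧ ∀ x u, N x u → bt d a x = b3 η s u := by
    intro a ha
    obtain ⟨s, h⟩ := C.exists_sv ha
    by_cases e : b3 η s₀ s = 0
    · obtain ⟨u, u0, u1, u2⟩ := o3_opp C.hη C.three_le h₀.ne h.ne h₀.sing h.sing
      obtain ⟨x, w, hx, hw⟩ := exN u u0 u1
      rw [b3_comm] at e
      rcases C.sv_sign ha hx.1 h hx.2.1 with k | k
      · exact ⟨s, h, conn a s x w ha h e hx (by rwa [Ne, hw]) k⟩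
      · exact ⟨-s, h.neg, conn a (-s) x w ha h.neg (by simp [e]) hx (by simpa [hw] using u2)
          (by simpa using k)⟩
    · rcases exN' a s ha h e with k | k
      · exact ⟨s, h, fun x u hx => hN k hx⟩
      · exact ⟨-s, h.neg, fun x u hx => hN k hx⟩
  choose! σ h1 h2 using good
  have mem : ∀ a ∈ Nc X d, b3 η s₀ (σ a) ≠ 0 → N a (σ a) := fun a ha e => by
    refine (exN' a _ ha (h1 a ha) e).resolve_right fun k => ?_
    obtain ⟨u, u0, u1, u2⟩ := o3_opp C.hη C.three_le h₀.ne (h1 a ha).ne h₀.sing (h1 a ha).sing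
    obtain ⟨x, w, hx, hw⟩ := exN u u0 u1
    have := (h2 a ha x w hx).symm.trans (hN k hx)
    rw [Ne, ← hw] at u2
    rw [b3_neg_left] at this
    revert this u2
    generalize b3 η (σ a) w = y
    revert y; decide
  refine ⟨σ, h1, fun a ha a' ha' => ?_⟩
  by_cases e0 : b3 η (σ a) (σ a') = 0
  · rw [e0]; exact (C.bt_ne ha ha' (h1 a ha) (h1 a' ha')).2 e0
  by_cases e1 : b3 η s₀ (σ a') = 0
  swap
  · exact h2 a ha _ _ (mem a' ha' e1)
  by_cases e2 : b3 η s₀ (σ a) = 0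
  swap
  · rw [bt_comm, b3_comm]; exact h2 a' ha' _ _ (mem a ha e2)
  obtain ⟨y, hy⟩ := o3_nondeg C.hη h₀.ne
  obtain ⟨α, γ, k1, k2⟩ : ∃ α γ : ZMod 3, b3 η (σ a) y + γ * b3 η (σ a) (σ a') ≠ 0 ∧
      b3 η (σ a') y + α * b3 η (σ a) (σ a') ≠ 0 := by
    revert e0
    generalize b3 η (σ a) y = x1
    generalize b3 η (σ a') y = x2
    generalize b3 η (σ a) (σ a') = x3
    revert x1 x2 x3; decide
  obtain ⟨y', y1, y2, y3⟩ : ∃ y', b3 η s₀ y' = 1 ∧ b3 η (σ a) y' ≠ 0 ∧ b3 η (σ a') y' ≠ 0 :=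
    ⟨y + α • σ a + γ • σ a', by simp [e1, e2, b3_comm s₀ y, hy], by simpa [(h1 a ha).sing] using k1,
      by simpa [(h1 a' ha').sing, b3_comm (σ a') (σ a)] using k2⟩
  obtain ⟨x, w, hx, hw⟩ := exN (y' + b3 η y' y' • s₀) (by
    simp only [b3_add_left, b3_add_right, b3_smul_left, b3_smul_right, h₀.sing, b3_comm y' s₀, y1]
    generalize b3 η y' y' = x
    revert x; decide) (by simp [y1, h₀.sing])
  exact C.tri hx.1 ha ha' hx.2.1 (h1 a ha) (h1 a' ha') (by rw [bt_comm, b3_comm, h2 a ha _ _ hx])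
    (by rw [bt_comm, b3_comm, h2 a' ha' _ _ hx])
    (by rw [b3_comm, Ne, hw]; simpa [b3_comm (σ a) s₀, e2] using y2)
    (by rw [b3_comm, Ne, hw]; simpa [b3_comm (σ a') s₀, e1] using y3)

theorem o3_succ (C : OCtx η n X d ψ) : O3 η (n + 1) X := by
  classical
  obtain ⟨σ, h1, h2⟩ := C.exists_section
  have hn : 0 < n := by have := C.three_le; omega
  let Ψ : T.Pt → Fin (n + 1) → ZMod 3 := fun x =>
    if x = d then Fin.cons 1 0 else if cm d x then Fin.cons 0 (ψ x) else Fin.cons 1 (σ x)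
  have e0 : Ψ d = Fin.cons 1 0 := if_pos rfl
  have e1 : ∀ x ∈ Rs X d, Ψ x = Fin.cons 0 (ψ x) := fun x hx =>
    (if_neg hx.2.1).trans (if_pos hx.2.2)
  have e2 : ∀ x ∈ Nc X d, Ψ x = Fin.cons 1 (σ x) := fun x hx =>
    (if_neg fun e : x = d => hx.2 (e ▸ cm_refl x)).trans (if_neg hx.2)
  have tri : ∀ x ∈ X, x = d ∨ x ∈ Rs X d ∨ x ∈ Nc X d := fun x hx => by
    by_cases k1 : x = d
    · exact Or.inl k1
    by_cases k2 : cm d x
    · exact Or.inr (Or.inl ⟨hx, k1, k2⟩)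
    · exact Or.inr (Or.inr ⟨hx, k2⟩)
  have hneg : ∀ (α : ZMod 3) (u : Fin n → ZMod 3),
      -(Fin.cons α u : Fin (n + 1) → ZMod 3) = Fin.cons (-α) (-u) := fun α u => by
    ext i; refine Fin.cases ?_ (fun i => ?_) i <;> simp
  have hσ : ∀ a ∈ Nc X d, σ (d ◃ a) = -σ a := fun a ha => by
    have hda := nc_drf C.loc.1.cl C.hd ha
    refine (C.sv_uniq (h1 a ha).drf (h1 _ hda)).resolve_left fun e => ?_
    obtain ⟨u, u0, u1, -⟩ := o3_opp C.hη C.three_le (h1 a ha).ne (h1 a ha).ne (h1 a ha).sing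
      (h1 a ha).sing
    obtain ⟨x, hx, k⟩ := C.sv_surj (s := u) (fun e => u1 (by simp [e])) u0
    have k1 : b3 η (σ a) (σ x) ≠ 0 := by
      rcases C.sv_uniq k (h1 x hx) with e | e <;> simpa [e] using u1
    have k2 := h2 _ hda x hx
    rw [bt_rf ha.2 hx.2, h2 a ha x hx, e] at k2
    revert k1 k2
    generalize b3 η (σ a) (σ x) = y
    revert y; decide
  have norm : ∀ p ∈ X, b3 η (Ψ p) (Ψ p) = 1 := fun p hp => by
    rcases tri p hp with rfl | k | k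
    · simp [e0, b3_cons hn]
    · simp [e1 p k, b3_cons hn, C.E.norm p k]
    · simp [e2 p k, b3_cons hn, (h1 p k).sing]
  have inj : ∀ p ∈ X, ∀ q ∈ X, Ψ p = Ψ q ∨ Ψ p = -Ψ q → p = q := fun p hp q hq e => by
    have k1 : (1 : ZMod 3) ≠ -1 := by decide
    rcases tri p hp with rfl | k | k <;> rcases tri q hq with rfl | k' | k'
    · rfl
    · simp [e0, e1 q k', hneg] at e
    · simp [e0, e2 q k', hneg, k1, (h1 q k').ne.symm] at e
    · simp [e0, e1 p k, hneg] at e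
    · exact C.E.inj p k q k' (by simpa [e1 p k, e1 q k', hneg] using e)
    · simp [e1 p k, e2 q k', hneg] at e
    · simp [e0, e2 p k, hneg, k1, (h1 p k).ne] at e
    · simp [e2 p k, e1 q k', hneg] at e
    · have e' : σ p = σ q := by simpa [e2 p k, e2 q k', hneg, k1] using e
      refine ((C.sv_inj k k' (h1 p k) (e' ▸ h1 q k')).resolve_right fun e'' => ?_).symm
      rw [e'', hσ p k] at e'
      refine (h1 p k).ne (funext fun i => ?_)
      have := congrFun e' i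
      simp only [Pi.neg_apply, Pi.zero_apply] at this ⊢
      revert this
      generalize σ p i = y
      revert y; decide
  have surj : ∀ v, b3 η v v = 1 → ∃ p ∈ X, Ψ p = v ∨ Ψ p = -v := fun v hv => by
    have key : ∀ u : Fin n → ZMod 3, b3 η u u = 0 → ∃ p ∈ X, Ψ p = Fin.cons 1 u := fun u hu => by
      by_cases k : u = 0
      · exact ⟨d, C.hd, k ▸ e0⟩
      obtain ⟨x, hx, k'⟩ := C.sv_surj k hu
      rcases C.sv_uniq k' (h1 x hx) with e | e
      · exact ⟨x, hx.1, by rw [e2 x hx, e]⟩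
      · have hdx := nc_drf C.loc.1.cl C.hd hx
        exact ⟨_, hdx.1, by rw [e2 _ hdx, hσ x hx, e, neg_neg]⟩
    rw [← Fin.cons_self_tail v] at hv ⊢
    generalize v 0 = α at *
    generalize Fin.tail v = u at *
    rw [b3_cons hn] at hv
    rcases z3_cases α with rfl | rfl | rfl
    · obtain ⟨p, hp⟩ := C.E.rep_ex (v := u) (by simpa using hv)
      exact ⟨p, hp.1.1, by simpa [e1 p hp.1, hneg] using hp.2⟩
    · obtain ⟨p, hp, e⟩ := key u (by simpa using hv)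
      exact ⟨p, hp, Or.inl e⟩
    · obtain ⟨p, hp, e⟩ := key (-u) (by simpa using hv)
      exact ⟨p, hp, Or.inr (by rw [e, hneg, neg_neg])⟩
  have cmi : ∀ p ∈ X, ∀ q ∈ X, p ≠ q → (cm p q ↔ b3 η (Ψ p) (Ψ q) = 0) := fun p hp q hq hne => by
    rcases tri p hp with rfl | k | k <;> rcases tri q hq with rfl | k' | k'
    · exact absurd rfl hne
    · simp [e0, e1 q k', b3_cons hn, k'.2.2]
    · simp [e0, e2 q k', b3_cons hn, k'.2]
    · simp [e0, e1 p k, b3_cons hn, k.2.2.symm]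
    · simpa [e1 p k, e1 q k', b3_cons hn] using C.E.cm_iff p k q k' hne
    · rw [cm_comm, b3_comm]
      simpa [e1 p k, e2 q k', b3_cons hn] using (h1 q k').iff _ _ (rep_self k)
    · simp [e0, e2 p k, b3_cons hn, ncm_symm k.2]
    · simpa [e2 p k, e1 q k', b3_cons hn] using (h1 p k).iff _ _ (rep_self k')
    · rw [e2 p k, e2 q k', b3_cons hn, ← h2 p k q k', one_mul, add_eq_zero_iff_neg_eq, eq_comm,
        bt_eq_neg]
      exact ⟨fun e => ⟨hne.symm, e⟩, fun e => e.2⟩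
  refine ⟨Ψ, C.loc.1.cl, norm, inj, surj, cmi, fun q hq p hp => ?_⟩
  by_cases hc : cm q p
  · rw [hc.rf_eq]
    by_cases e : p = q
    · right
      rw [e, norm q hq, one_smul]
      ext i
      simp only [Pi.neg_apply, Pi.add_apply]
      generalize Ψ q i = y
      revert y; decide
    · left
      rw [(cmi p hp q hq e).1 hc.symm, zero_smul, add_zero]
  have hpq : p ≠ q := fun e => hc (e ▸ cm_refl p)
  have hb : b3 η (Ψ p) (Ψ q) ≠ 0 := fun e => hc ((cmi p hp q hq hpq).2 e).symm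
  have hx := C.loc.1.cl q hq p hp
  have hsm : ∀ x ∈ X, ∀ y ∈ X, ∀ c : ZMod 3, Ψ x = c • Ψ y → x = y := fun x hx y hy c e =>
    inj x hx y hy (pm_of_smul (fun e => by simpa [e] using norm x hx) e)
  obtain ⟨α, γ, e⟩ := o3_span C.hη (C.hn'.imp (by omega) fun h => ⟨by omega, h.2⟩) (norm q hq)
    (s := Ψ p - b3 η (Ψ p) (Ψ q) • Ψ q) (x := Ψ (q ◃ p))
    (fun e => hpq (hsm p hp q hq _ (sub_eq_zero.1 e)))
    (by simp [norm p hp, norm q hq, b3_comm (Ψ q), z3_sq hb]) (by simp [norm q hq])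
    (fun z z1 z2 z3 => by
      obtain ⟨w, hw, k⟩ := surj z z1
      have k' : ∀ v, b3 η z v = 0 ↔ b3 η (Ψ w) v = 0 := fun v => by
        rcases k with k | k <;> simp [k]
      have z4 : b3 η z (Ψ p) = 0 := by simpa [z2] using z3
      rw [k'] at z2 z4 ⊢
      have k1 : cm w q := (cmi w hw q hq fun e => by simp [e, norm q hq] at z2).2 z2
      have k2 : cm w p := (cmi w hw p hp fun e => by simp [e, norm p hp] at z4).2 z4
      exact (cmi w hw _ hx fun e => hc ((cm_rf_self_left _ _).1 (e ▸ k1.symm))).1 (k1.rf_right k2))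
  have g0 : γ ≠ 0 := fun k => rf_ne_left hc (hsm _ hx q hq α (by simp [e, k]))
  have a0 : α ≠ γ * b3 η (Ψ p) (Ψ q) := fun k => rf_ne_right hc (hsm _ hx p hp γ (by
    rw [e, k]; module))
  have nx := norm _ hx
  rw [e] at nx ⊢
  simp only [b3_add_left, b3_add_right, b3_sub_left, b3_sub_right, b3_smul_left, b3_smul_right,
    norm p hp, norm q hq, b3_comm (Ψ q) (Ψ p)] at nx
  have a1 : α = -(γ * b3 η (Ψ p) (Ψ q)) := by
    revert hb g0 a0 nx
    generalize b3 η (Ψ p) (Ψ q) = β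
    clear e
    revert α β γ; decide
  have h3 : ∀ v : Fin (n + 1) → ZMod 3, -v - v = v := fun v => funext fun i => by
    simp only [Pi.neg_apply, Pi.sub_apply]
    generalize v i = y
    revert y; decide
  have : α • Ψ q + γ • (Ψ p - b3 η (Ψ p) (Ψ q) • Ψ q) = γ • (Ψ p + b3 η (Ψ p) (Ψ q) • Ψ q) := by
    conv_rhs => rw [← h3 (b3 η (Ψ p) (Ψ q) • Ψ q)]
    rw [a1]; module
  rw [this]
  rcases z3_cases γ with rfl | rfl | rfl
  · exact absurd rfl g0
  · exact Or.inl (one_smul _ _)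
  · exact Or.inr (neg_one_smul _ _)

end OCtx

theorem loc_o3 [Finite G] {η : ZMod 3} {n : ℕ} (hη : η = 1 ∨ η = -1)
    (hn : 5 ≤ n ∨ (n = 4 ∧ η = -1 ∧ ∀ d ∈ X, ∀ a ∈ Nc X d, NoP4 (Mu X d a)))
    (h : Loc (O3 η n) X) : O3 η (n + 1) X := by
  obtain ⟨d, hd⟩ := h.1.cn.ne
  obtain ⟨ψ, E⟩ := h.2 d hd
  exact OCtx.o3_succ ⟨hη, hn, h, hd, E⟩

end Cfsg.Agent.H3.TTC
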