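import Cfsg.Agent.Fs.PO3TopA

/-! Identification of the orthogonal groups over the field with three elements. -/

set_option autoImplicit false
set_option linter.unusedSectionVars false

namespace Cfsg.Agent.H3.TTC

open QuadraticMap Module Cfsg.Agent.H7

variable {G : Type*} [Group G] [Finite G] {T : TTC G} {X : Set T.Pt}

theorem o3t_ncard {η : ZMod 3} (hη : η = 1 ∨ η = -1) {n : ℕ} (h : O3 η (n + 1) X) :
    2 * X.ncard = o3t_f η n 1 := by
  obtain ⟨ψ, E⟩ := h
  have := ncard_double X {v : Fin (n + 1) → ZMod 3 | b3 η v v = 1}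
    (fun p v => ψ p = v ∨ ψ p = -v) (m := 2) (n := 1) (fun p hp => by
      have hn := E.norm p hp
      have : {b | b ∈ {v : Fin (n + 1) → ZMod 3 | b3 η v v = 1} ∧ (ψ p = b ∨ ψ p = -b)} =
          {ψ p, -ψ p} := by
        ext v
        simp only [Set.mem_ofPred_eq, Set.mem_insert_iff, Set.mem_singleton_iff]
        constructor
        · rintro ⟨-, h | h⟩
          · exact Or.inl h.symm
          · exact Or.inr (by rw [h, neg_neg])
        · rintro (rfl | rfl)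
          · exact ⟨hn, Or.inl rfl⟩
          · exact ⟨by rw [← o3t_Q_apply, Q_neg, o3t_Q_apply, hn], Or.inr (neg_neg _).symm⟩
      rw [this, Set.ncard_pair]
      intro e
      have h0 : ψ p = 0 := by
        rw [eq_neg_iff_add_eq_zero, ← two_smul (ZMod 3), smul_eq_zero] at e
        exact e.resolve_left o3t_two_ne
      rw [← o3t_Q_apply, h0, map_zero] at hn
      exact zero_ne_one hn) (fun v hv => by
      obtain ⟨p, hp, e⟩ := E.surj v hv
      rw [Set.ncard_eq_one]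
      refine ⟨p, Set.ext fun q => ⟨fun hq => E.inj q hq.1 p hp ?_, ?_⟩⟩
      · rcases hq.2 with h1 | h1 <;> rcases e with h2 | h2 <;> simp [h1, h2]
      · rintro rfl; exact ⟨hp, e⟩)
  rw [mul_comm, this, mul_one, ← o3t_card hη, ← Nat.card_eq_fintype_card]
  rfl

theorem O3.card_A (n : ℕ) (h : O3 1 n X) : (n = 6 → X.ncard = 126) ∧ (n = 7 → X.ncard = 351) ∧
    (n = 8 → X.ncard = 1080) := by
  refine ⟨?_, ?_, ?_⟩ <;> rintro rfl <;> have := o3t_ncard (Or.inl rfl) h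
  · have e : o3t_f 1 5 1 = 252 := by decide
    omega
  · have e : o3t_f 1 6 1 = 702 := by decide
    omega
  · have e : o3t_f 1 7 1 = 2160 := by decide
    omega

theorem O3.card_B (n : ℕ) (h : O3 (-1) n X) : (n = 5 → X.ncard = 36) ∧ (n = 6 → X.ncard = 117) := by
  refine ⟨?_, ?_⟩ <;> rintro rfl <;> have := o3t_ncard (Or.inr rfl) h
  · have e : o3t_f (-1) 4 1 = 72 := by decide
    omega
  · have e : o3t_f (-1) 5 1 = 234 := by decide
    omega

/-- `R` induces the action of `g` on the points -/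
def o3t_Ind {η : ZMod 3} {n : ℕ} (X : Set T.Pt) (ψ : T.Pt → Fin n → ZMod 3) (g : G)
    (R : OG (o3t_Q η n)) : Prop :=
  ∀ p ∈ X, g • p ∈ X ∧ (ψ (g • p) = R.1 (ψ p) ∨ ψ (g • p) = -R.1 (ψ p))

section Ind

variable {η : ZMod 3} {n : ℕ} {ψ : T.Pt → Fin n → ZMod 3}

omit [Finite G] in
theorem o3t_Ind_one : o3t_Ind X ψ (1 : G) (1 : OG (o3t_Q η n)) := fun p hp => by simp [hp]

omit [Finite G] in
theorem o3t_Ind.mul {g g' : G} {R R' : OG (o3t_Q η n)} (h : o3t_Ind X ψ g R)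
    (h' : o3t_Ind X ψ g' R') : o3t_Ind X ψ (g * g') (R * R') := fun p hp => by
  obtain ⟨h1, h2⟩ := h' p hp
  obtain ⟨h3, h4⟩ := h _ h1
  rw [mul_smul]
  refine ⟨h3, ?_⟩
  rcases h2 with h2 | h2 <;> rcases h4 with h4 | h4 <;> simp [h4, h2]

omit [Finite G] in
theorem o3t_Ind.neg {g : G} {R : OG (o3t_Q η n)} (h : o3t_Ind X ψ g R) :
    o3t_Ind X ψ g (negOne _ * R) := fun p hp => by
  obtain ⟨h1, h2⟩ := h p hp
  exact ⟨h1, by simpa [or_comm] using h2⟩

omit [Finite G] in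
theorem o3t_Ind_refl (E : OE η n X ψ) {d : T.Pt} (hd : d ∈ X) :
    o3t_Ind X ψ d.val (refl (o3t_Q η n) (ψ d)) := fun p hp =>
  ⟨E.cl d hd p hp, by rw [o3t_refl (E.norm d hd)]; exact E.rf d hd p hp⟩

omit [Finite G] in
theorem o3t_Ind.scalar (E : OE η n X ψ) (hη : η = 1 ∨ η = -1) (h5 : 5 ≤ n) {R : OG (o3t_Q η n)}
    (h : o3t_Ind X ψ (1 : G) R) : R = 1 ∨ R = negOne _ := by
  refine o3t_scalar hη h5 R fun v hv => ?_
  obtain ⟨p, hp, e⟩ := E.surj v hv
  have h1 := (h p hp).2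
  rw [one_smul] at h1
  rcases e with e | e <;> rw [e] at h1
  · rcases h1 with h1 | h1
    · exact Or.inl h1.symm
    · exact Or.inr (neg_eq_iff_eq_neg.1 h1.symm)
  · rw [map_neg, neg_neg, neg_inj] at h1
    rcases h1 with h1 | h1
    · exact Or.inl h1.symm
    · exact Or.inr h1.symm

end Ind

theorem O3.sg {η : ZMod 3} {n : ℕ} (h : O3 η n X) (hη : η = 1 ∨ η = -1) (h5 : 5 ≤ n)
    (hn : Even n ∨ η = -1) : Sg X := by
  obtain ⟨ψ, E⟩ := h
  intro L hL h1
  have key : ∀ L : List T.Pt, (∀ x ∈ L, x ∈ X) →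
      o3t_Ind X ψ (L.map Pt.val).prod ((L.map ψ).map (refl (o3t_Q η n))).prod := by
    intro L hL
    induction L with
    | nil => exact o3t_Ind_one
    | cons d L ih =>
      simp only [List.map_cons, List.prod_cons]
      exact (o3t_Ind_refl E (hL d (by simp))).mul (ih fun x hx => hL x (by simp [hx]))
  have h2 := key L hL
  rw [h1] at h2
  have hq : ∀ v ∈ L.map ψ, o3t_Q η n v = 1 := by
    intro v hv
    obtain ⟨x, hx, rfl⟩ := List.mem_map.1 hv
    rw [o3t_Q_apply, E.norm x (hL x hx)]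
  have hq' : ∀ v ∈ L.map ψ, o3t_Q η n v ≠ 0 := fun v hv => by rw [hq v hv]; exact one_ne_zero
  have h3 := even_rk_list (o3t_nd hη) (L.map ψ) hq'
  rw [List.length_map] at h3
  rcases h2.scalar E hη h5 with h4 | h4
  · rw [← h3, h4, rk_one]; exact Even.zero
  · rcases hn with hn | rfl
    · rw [← h3, h4, rk_negOne o3t_two_ne]; simpa using hn
    · exfalso
      have h5' := theta_list (o3t_nd hη) (L.map ψ) hq'
      rw [h4, o3t_theta_negOne (by omega), o3t_chi_neg_one, List.prod_eq_one (fun x hx => by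
        obtain ⟨v, hv, rfl⟩ := List.mem_map.1 hx
        exact hq v hv), map_one] at h5'
      exact absurd h5' (by decide)

theorem o3t_mem_Om {m : ℕ} {v : Fin (2 * m + 1) → ZMod 3} (hv : o3t_Q 1 _ v = 1) :
    negOne _ * refl (o3t_Q 1 (2 * m + 1)) v ∈ Om (o3t_Q 1 (2 * m + 1)) := by
  have hQ := o3t_nd (n := 2 * m + 1) (Or.inl rfl)
  have hE := o3t_ne (n := 2 * m + 1) (Or.inl rfl)
  have hv' : o3t_Q 1 _ v ≠ 0 := by rw [hv]; exact one_ne_zero
  rw [mem_commutator_iff hQ hE, even_rk_mul hQ hE, theta_mul hQ hE, rk_negOne o3t_two_ne,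
    rk_refl hQ hv', theta_refl hQ hv', o3t_theta_negOne (by omega), hv]
  simp

theorem o3t_Om_le {n : ℕ} (h5 : 5 ≤ n) {K : Subgroup (OG (o3t_Q 1 n))}
    (hK : ∀ u v, o3t_Q 1 n u = 1 → o3t_Q 1 n v = 1 → refl _ u * refl _ v ∈ K) :
    Om (o3t_Q 1 n) ≤ K := by
  have hQ := o3t_nd (n := n) (Or.inl rfl)
  have hE := o3t_ne (n := n) (Or.inl rfl)
  refine (Om_le_sgAll hQ hE (by simp; omega)).trans ?_
  rw [sgAll, Subgroup.closure_le]
  rintro _ ⟨p, w, hp, hw, rfl⟩
  have h1 : ∀ p w hp hw, o3t_Q 1 n w = 1 → siegel p w hp hw ∈ K := by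
    intro p w hp hw h
    rw [siegel_eq_refl_mul hp hw (by rw [h]; exact one_ne_zero)]
    refine hK _ _ ?_ h
    rw [Q_add, Q_smul, hp, B_smul_right, B_comm, hw, h]; simp
  refine hE.siegel_mem (fun p w hp hw h => ?_) p w hp hw
  by_cases h2 : o3t_Q 1 n w = 1
  · exact h1 _ _ _ _ h2
  have h3 : o3t_Q 1 n w = -1 := by
    revert h h2; generalize o3t_Q 1 n w = c; revert c; decide
  by_cases hp0 : p = 0
  · have : siegel p w hp hw = 1 := OG.ext' fun x => by rw [siegel_apply]; simp [hp0]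
    rw [this]; exact K.one_mem
  let e : ℕ → Fin n → ZMod 3 := fun k i => if i.val = k then 1 else 0
  have he : ∀ i : Fin n, e i.val = Pi.single i 1 := fun i => by
    ext j; simp [e, Pi.single_apply, Fin.ext_iff]
  have hc : ∀ i, o3t_c 1 n i = 1 := fun i => by simp [o3t_c]
  have hpo : ∀ (k : ℕ) (hk : k < 5) (y : Fin n → ZMod 3),
      polar (o3t_Q 1 n) (e k) y = -y ⟨k, by omega⟩ := fun k hk y => by
    rw [show e k = Pi.single ⟨k, by omega⟩ 1 from he ⟨k, by omega⟩, o3t_polar_single, hc, one_mul]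
  have hq : ∀ (k : ℕ), k < 5 → o3t_Q 1 n (e k) = 1 := fun k hk => by
    rw [show e k = Pi.single ⟨k, by omega⟩ 1 from he ⟨k, by omega⟩, o3t_Q_single, hc]
  have q0 : o3t_Q 1 n (e 2 + (e 3 + e 4)) = 0 := by
    simp only [Q_add, hq 2, hq 3, hq 4, hpo 2, hpo 3, Nat.reduceLT, Pi.add_apply]
    simp [e]; decide
  have q1 : o3t_Q 1 n (e 0 + e 1) = -1 := by
    simp only [Q_add, hq 0, hq 1, hpo 0, Nat.reduceLT]
    simp [e]; decide
  have b0 : polar (o3t_Q 1 n) (e 2 + (e 3 + e 4)) (e 0) = 0 := by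
    rw [B_comm, hpo 0 (by omega)]; simp [e]
  have b1 : polar (o3t_Q 1 n) (e 2 + (e 3 + e 4)) (e 1) = 0 := by
    rw [B_comm, hpo 1 (by omega)]; simp [e]
  have hne : e 2 + (e 3 + e 4) ≠ 0 := fun h0 => by
    simpa [e] using congrFun h0 ⟨2, by omega⟩
  have hsp : ∀ {p w : Fin n → ZMod 3}, o3t_Q 1 n p = 0 → o3t_Q 1 n w = -1 → w ∉ (ZMod 3) ∙ p := by
    intro p w hp hw hm
    obtain ⟨c, rfl⟩ := Submodule.mem_span_singleton.1 hm
    rw [Q_smul, hp, mul_zero] at hw
    exact absurd hw (by decide)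
  obtain ⟨g, -, hg⟩ := witt_family hQ gen_top ![e 2 + (e 3 + e 4), e 0 + e 1] ![p, w]
    (linearIndependent_pair_of hne (hsp q0 q1)) (linearIndependent_pair_of hp0 (hsp hp h3))
    (fun i => by fin_cases i <;> simp [q0, q1, hp, h3])
    (fun i j => by
      fin_cases i <;> fin_cases j
      · simp only [Fin.zero_eta, Matrix.cons_val_zero, B_self, q0, hp]
      · simp only [Fin.zero_eta, Fin.mk_one, Matrix.cons_val_zero, Matrix.cons_val_one,
          polar_add_right, b0, b1, hw, add_zero]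
      · simp only [Fin.zero_eta, Fin.mk_one, Matrix.cons_val_zero, Matrix.cons_val_one]
        rw [B_comm, polar_add_right, b0, b1, B_comm, hw, add_zero]
      · simp only [Fin.mk_one, Matrix.cons_val_zero, Matrix.cons_val_one, B_self, q1, h3])
  have g0 : g.1 (e 2 + (e 3 + e 4)) = p := hg 0
  have g1 : g.1 (e 0) + g.1 (e 1) = w := by rw [← map_add]; exact hg 1
  have c0 : polar (o3t_Q 1 n) p (g.1 (e 0)) = 0 := by rw [← g0, OG.map_B, b0]
  have c1 : polar (o3t_Q 1 n) p (g.1 (e 1)) = 0 := by rw [← g0, OG.map_B, b1]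
  subst g1
  rw [← siegel_mul hp c0 c1]
  exact K.mul_mem (h1 _ _ _ _ (by rw [OG.map_Q, hq 0 (by omega)]))
    (h1 _ _ _ _ (by rw [OG.map_Q, hq 1 (by omega)]))

theorem o3t_similar (m : ℕ) : ∃ (c : ZMod 3) (e : (Fin (2 * m + 1) → ZMod 3) ≃ₗ[ZMod 3]
    (Unit ⊕ (Fin m ⊕ Fin m) → ZMod 3)), c ≠ 0 ∧ ∀ x, QO (ZMod 3) m (e x) = c * o3t_Q 1 _ x := by
  have hQ := o3t_nd (n := 2 * m + 1) (Or.inl rfl)
  have hQO := nd_QO (F := ZMod 3) (m := m) o3t_two_ne
  have hd : finrank (ZMod 3) (Fin (2 * m + 1) → ZMod 3) =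
      finrank (ZMod 3) (Unit ⊕ (Fin m ⊕ Fin m) → ZMod 3) := by simp; omega
  by_cases h : disc (o3t_Q 1 (2 * m + 1)) = disc (QO (ZMod 3) m)
  · obtain ⟨e, he⟩ := exists_isometry_of_disc o3t_two_ne hQ hQO hd h
    exact ⟨1, e, one_ne_zero, by simpa using he⟩
  · have hp : ∀ x y, polar ⇑(-o3t_Q 1 (2 * m + 1)) x y = -polar (o3t_Q 1 (2 * m + 1)) x y :=
      fun x y => by simp only [polar, neg_apply]; ring
    have hQ' : ND (-o3t_Q 1 (2 * m + 1)) := nd_of fun x hx =>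
      hQ.eq_zero fun y => neg_eq_zero.1 ((hp x y).symm.trans (hx y))
    have h1 : disc (-o3t_Q 1 (2 * m + 1)) = -disc (o3t_Q 1 (2 * m + 1)) := by
      rw [disc_eq _ (Pi.basisFun (ZMod 3) _), disc_eq (o3t_Q 1 _) (Pi.basisFun (ZMod 3) _)]
      have : gram (polarBilin (-o3t_Q 1 (2 * m + 1))) (Pi.basisFun (ZMod 3) (Fin (2 * m + 1))) =
          -gram (polarBilin (o3t_Q 1 (2 * m + 1))) (Pi.basisFun (ZMod 3) (Fin (2 * m + 1))) := by
        ext i j
        simp only [gram, Matrix.of_apply, polarBilin_apply_apply, Matrix.neg_apply]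
        exact hp _ _
      rw [this, Matrix.det_neg, map_mul, map_pow, o3t_chi_neg_one, Fintype.card_fin,
        Odd.neg_one_pow (odd_two_mul_add_one m), neg_one_mul]
    obtain ⟨e, he⟩ := exists_isometry_of_disc o3t_two_ne hQ' hQO hd (by
      rw [h1]
      rcases disc_dichotomy hQ with h2 | h2 <;> rcases disc_dichotomy hQO with h3 | h3 <;>
        simp_all)
    exact ⟨-1, e, by decide, by simpa using he⟩

theorem o3t_comm_equiv {K H : Type*} [Group K] [Group H] (φ : K ≃* H) :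
    Nonempty (commutator K ≃* commutator H) :=
  ⟨⟨⟨fun s => ⟨φ s.1, (mem_commutator_congr φ _).2 s.2⟩,
    fun s => ⟨φ.symm s.1, (mem_commutator_congr φ.symm _).2 s.2⟩,
    fun s => by simp, fun s => by simp⟩, fun s t => by simp⟩⟩

theorem o3t_om_equiv (m : ℕ) : Nonempty (Om (o3t_Q 1 (2 * m + 1)) ≃*
    Cfsg.Omega (ZMod 3) (Cfsg.quadFormOdd m (ZMod 3))) := by
  obtain ⟨c, e, hc, he⟩ := o3t_similar m
  have h1 : OG (o3t_Q 1 (2 * m + 1)) = OG (c • o3t_Q 1 (2 * m + 1)) := by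
    ext g; simp [mem_OG, hc]
  exact o3t_comm_equiv (H := Cfsg.isometryGroup (ZMod 3) ⇑(QO (ZMod 3) m))
    (((MulEquiv.subgroupCongr h1).trans (OG.congr e (by simpa using he))).trans (isoEquiv _).symm)

theorem O3.top {m : ℕ} (h : O3 1 (2 * m + 1) (Set.univ : Set T.Pt)) (hm : 2 ≤ m) [IsSimpleGroup G]
    (hna : ∃ x y : G, x * y ≠ y * x) :
    Nonempty (G ≃* Cfsg.POmega (ZMod 3) (Cfsg.quadFormOdd m (ZMod 3))) := by
  obtain ⟨ψ, E⟩ := h
  have hQ := o3t_nd (n := 2 * m + 1) (Or.inl rfl)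
  have hE := o3t_ne (n := 2 * m + 1) (Or.inl rfl)
  have hZ : Subgroup.center G = ⊥ := by
    refine (IsSimpleGroup.eq_bot_or_eq_top_of_normal _ inferInstance).resolve_right fun h => ?_
    obtain ⟨x, y, hxy⟩ := hna
    exact hxy (Subgroup.mem_center_iff.1 (h ▸ Subgroup.mem_top y : y ∈ Subgroup.center G) x)
  let Γ : Subgroup (G × Om (o3t_Q 1 (2 * m + 1))) :=
    { carrier := {x | o3t_Ind Set.univ ψ x.1 x.2.1}
      one_mem' := o3t_Ind_one
      mul_mem' := fun ha hb => ha.mul hb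
      inv_mem' := fun {x} hx p _ => ⟨trivial, by
        have h1 := (hx (x.1⁻¹ • p) trivial).2
        rw [smul_inv_smul] at h1
        change ψ (x.1⁻¹ • p) = (x.2.1⁻¹).1 (ψ p) ∨ ψ (x.1⁻¹ • p) = -(x.2.1⁻¹).1 (ψ p)
        rcases h1 with h1 | h1 <;> simp [h1]⟩ }
  have hv : ∀ d : T.Pt, o3t_Q 1 _ (ψ d) = 1 := fun d => by rw [o3t_Q_apply, E.norm d trivial]
  have hd : ∀ d : T.Pt, (d.val, ⟨_, o3t_mem_Om (hv d)⟩) ∈ Γ := fun d =>
    (o3t_Ind_refl E trivial).neg
  let f1 := (MonoidHom.fst _ _).comp Γ.subtype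
  let f2 := (MonoidHom.snd _ _).comp Γ.subtype
  have b1 : Function.Bijective f1 := by
    constructor
    · rw [injective_iff_map_eq_one]
      rintro ⟨⟨g, R⟩, hx⟩ (rfl : g = 1)
      rcases o3t_Ind.scalar E (Or.inl rfl) (by omega) hx with h | h
      · exact Subtype.ext (Prod.ext rfl (Subtype.ext h))
      · have h1 := even_rk_of_mem_commutator hQ hE R.2
        rw [show R.1 = _ from h, rk_negOne o3t_two_ne] at h1
        simp at h1
    · rw [← MonoidHom.range_eq_top, eq_top_iff, ← T.gen, Subgroup.closure_le]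
      exact fun x hx => ⟨⟨_, hd ⟨x, hx⟩⟩, rfl⟩
  have b2 : Function.Bijective f2 := by
    constructor
    · rw [injective_iff_map_eq_one]
      rintro ⟨⟨g, R⟩, hx⟩ (rfl : R = 1)
      have : g ∈ fx (Set.univ : Set T.Pt) :=
        mem_fx.2 fun p _ => E.inj _ trivial _ trivial (hx p trivial).2
      rw [fx_univ, hZ, Subgroup.mem_bot] at this
      exact Subtype.ext (Prod.ext this rfl)
    · intro s
      have key : ∀ u, o3t_Q 1 (2 * m + 1) u = 1 →
          negOne _ * refl _ u ∈ f2.range.map (Om (o3t_Q 1 (2 * m + 1))).subtype := by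
        intro u hu
        obtain ⟨p, -, e⟩ := E.surj u (by rw [← o3t_Q_apply, hu])
        refine ⟨_, ⟨⟨_, hd p⟩, rfl⟩, ?_⟩
        change negOne _ * refl _ (ψ p) = _
        rcases e with e | e
        · rw [e]
        · rw [e, ← neg_one_smul (ZMod 3) u, refl_smul (by decide)]
      obtain ⟨t, ⟨x, hx⟩, ht⟩ := o3t_Om_le (by omega)
        (K := f2.range.map (Om (o3t_Q 1 (2 * m + 1))).subtype) (fun u v hu hv => by
          convert Subgroup.mul_mem _ (key u hu) (key v hv) using 1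
          exact OG.ext' fun x => by simp) s.2
      exact ⟨x, hx.trans (Subtype.ext ht)⟩
  obtain ⟨e3⟩ := o3t_om_equiv m
  let e := ((MulEquiv.ofBijective f1 b1).symm.trans (MulEquiv.ofBijective f2 b2)).trans e3
  obtain ⟨e4⟩ := equiv_of_center_eq_bot (H := Cfsg.Omega (ZMod 3) (Cfsg.quadFormOdd m (ZMod 3))) (by
    rw [eq_bot_iff]
    intro z hz
    obtain ⟨z, rfl⟩ := e.surjective z
    have : z ∈ Subgroup.center G := Subgroup.mem_center_iff.2 fun g => e.injective (by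
      rw [map_mul, map_mul]; exact Subgroup.mem_center_iff.1 hz _)
    rw [hZ, Subgroup.mem_bot] at this
    rw [this, map_one]; exact Subgroup.one_mem _)
  exact ⟨e.trans e4.symm⟩

end Cfsg.Agent.H3.TTC
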