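import Cfsg.Agent.Fs.IBase
import Cfsg.Agent.H7.Iwa

/-! The quadratic form over the field with three elements attached to `b3`. -/

set_option autoImplicit false

namespace Cfsg.Agent.H3.TTC

open QuadraticMap Module Cfsg.Agent.H7

/-- the coefficients of `b3` -/
def o3t_c (η : ZMod 3) (n : ℕ) (i : Fin n) : ZMod 3 := if i.val + 1 = n then η else 1

/-- the quadratic form of `b3` -/
noncomputable def o3t_Q (η : ZMod 3) (n : ℕ) : QuadraticForm (ZMod 3) (Fin n → ZMod 3) :=
  weightedSumSquares (ZMod 3) (o3t_c η n)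

variable {η : ZMod 3} {n : ℕ}

theorem o3t_b3 (x y : Fin n → ZMod 3) : b3 η x y = ∑ i, o3t_c η n i * (x i * y i) := rfl

theorem o3t_Q_apply (v : Fin n → ZMod 3) : o3t_Q η n v = b3 η v v := by
  rw [o3t_Q, weightedSumSquares_apply]; rfl

theorem o3t_two : (2 : ZMod 3) = -1 := rfl

theorem o3t_polar (x y : Fin n → ZMod 3) : polar (o3t_Q η n) x y = -b3 η x y := by
  simp only [polar, o3t_Q_apply, o3t_b3, ← Finset.sum_sub_distrib, ← Finset.sum_neg_distrib,
    Pi.add_apply]
  refine Finset.sum_congr rfl fun i _ => ?_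
  linear_combination (o3t_c η n i * x i * y i) * o3t_two

theorem o3t_b3_single (i : Fin n) (y : Fin n → ZMod 3) :
    b3 η (Pi.single i 1) y = o3t_c η n i * y i := by
  rw [o3t_b3, Finset.sum_eq_single i] <;> simp +contextual

theorem o3t_polar_single (i : Fin n) (y : Fin n → ZMod 3) :
    polar (o3t_Q η n) (Pi.single i 1) y = -(o3t_c η n i * y i) := by
  rw [o3t_polar, o3t_b3_single]

theorem o3t_Q_single (i : Fin n) : o3t_Q η n (Pi.single i 1) = o3t_c η n i := by
  rw [o3t_Q_apply, o3t_b3_single]; simp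

theorem o3t_c_cases (hη : η = 1 ∨ η = -1) (i : Fin n) : o3t_c η n i = 1 ∨ o3t_c η n i = -1 := by
  unfold o3t_c; split_ifs
  exacts [hη, Or.inl rfl]

theorem o3t_c_ne (hη : η = 1 ∨ η = -1) (i : Fin n) : o3t_c η n i ≠ 0 := by
  rcases o3t_c_cases hη i with h | h <;> rw [h] <;> decide

theorem o3t_nd (hη : η = 1 ∨ η = -1) : ND (o3t_Q η n) := nd_of fun x hx => by
  ext i
  have := hx (Pi.single i 1)
  rw [B_comm, o3t_polar_single, neg_eq_zero, mul_eq_zero] at this
  exact this.resolve_left (o3t_c_ne hη i)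

theorem o3t_two_ne : (2 : ZMod 3) ≠ 0 := by decide

theorem o3t_ne (hη : η = 1 ∨ η = -1) : NonExc (o3t_Q η n) := nonExc_of_two (o3t_nd hη) o3t_two_ne

theorem o3t_refl {v : Fin n → ZMod 3} (hv : b3 η v v = 1) (x : Fin n → ZMod 3) :
    (refl (o3t_Q η n) v).1 x = x + b3 η x v • v := by
  rw [refl_apply, o3t_Q_apply, hv, o3t_polar]; simp

theorem o3t_prod_c (hn : 1 ≤ n) : ∏ i, o3t_c η n i = η := by
  rw [Finset.prod_eq_single (⟨n - 1, by omega⟩ : Fin n)]
  · simp only [o3t_c]; rw [if_pos (by omega)]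
  · intro i _ hi
    simp only [o3t_c]; rw [if_neg]
    intro e; apply hi; ext; simp only; omega
  · simp

theorem o3t_disc (hn : 1 ≤ n) : disc (o3t_Q η n) = chi ((2 : ZMod 3) ^ n * η) := by
  rw [disc_eq _ (Pi.basisFun (ZMod 3) (Fin n))]
  have : gram (polarBilin (o3t_Q η n)) (Pi.basisFun (ZMod 3) (Fin n)) =
      Matrix.diagonal fun i => 2 * o3t_c η n i := by
    ext i j
    simp only [gram, Matrix.of_apply, Pi.basisFun_apply, polarBilin_apply_apply, o3t_polar_single,
      Matrix.diagonal_apply, Pi.single_apply, o3t_two]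
    by_cases h : i = j <;> simp [h]
  rw [this, Matrix.det_diagonal, Finset.prod_mul_distrib, o3t_prod_c hn]
  simp

theorem o3t_theta_negOne (hn : 1 ≤ n) : theta (negOne (o3t_Q η n)) = chi η := by
  rw [theta_of_fix_bot (fixS_negOne o3t_two_ne), o3t_disc hn]
  have : LinearMap.id - (negOne (o3t_Q η n)).1.toLinearMap = (2 : ZMod 3) • LinearMap.id := by
    refine LinearMap.ext fun x => ?_; simp [two_smul]
  rw [this, LinearMap.det_smul, LinearMap.det_id, mul_one, map_mul, ← mul_assoc]
  simp only [finrank_fintype_fun_eq_card, Fintype.card_fin]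
  rw [chi_mul_self (pow_ne_zero _ o3t_two_ne), one_mul]

theorem o3t_chi_neg_one : chi (-1 : ZMod 3) = -1 := chi_eq_neg_one_iff.2 (by decide)

/-- an isometry fixing all points of norm one is `± 1` -/
theorem o3t_scalar (hη : η = 1 ∨ η = -1) (h5 : 5 ≤ n) (R : OG (o3t_Q η n))
    (hR : ∀ v, b3 η v v = 1 → R.1 v = v ∨ R.1 v = -v) : R = 1 ∨ R = negOne _ := by
  have key : ∀ R : OG (o3t_Q η n), (∀ v, b3 η v v = 1 → R.1 v = v ∨ R.1 v = -v) →
      ∀ s, o3t_Q η n s = 1 → R.1 s = s → ∀ v, o3t_Q η n v = 1 → polar (o3t_Q η n) v s ≠ 0 →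
        R.1 v = v := by
    intro R hR s _ hs v hv hvs
    refine (hR v (by rw [← o3t_Q_apply, hv])).resolve_right fun e => hvs ?_
    have := OG.map_B R v s
    rw [e, hs, polar_neg_left] at this
    have h2 : 2 * polar (o3t_Q η n) v s = 0 := by linear_combination -this
    exact (mul_eq_zero.1 h2).resolve_left o3t_two_ne
  let e : ℕ → Fin n → ZMod 3 := fun k i => if i.val = k then 1 else 0
  have he : ∀ i : Fin n, e i.val = Pi.single i 1 := fun i => by
    ext j; simp [e, Pi.single_apply, Fin.ext_iff]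
  have hc : ∀ (k : ℕ) (hk : k < 4), o3t_c η n ⟨k, by omega⟩ = 1 := fun k hk => by
    simp only [o3t_c]; rw [if_neg (by omega)]
  have hp : ∀ (k : ℕ) (hk : k < 4) (y : Fin n → ZMod 3),
      polar (o3t_Q η n) (e k) y = -y ⟨k, by omega⟩ := fun k hk y => by
    rw [show e k = Pi.single ⟨k, by omega⟩ 1 from he ⟨k, by omega⟩, o3t_polar_single, hc k hk,
      one_mul]
  have hq : ∀ (k : ℕ), k < 4 → o3t_Q η n (e k) = 1 := fun k hk => by
    rw [show e k = Pi.single ⟨k, by omega⟩ 1 from he ⟨k, by omega⟩, o3t_Q_single, hc k hk]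
  have hs : o3t_Q η n (e 0 + (e 1 + (e 2 + e 3))) = 1 := by
    simp only [Q_add, hq 0, hq 1, hq 2, hq 3, hp 0, hp 1, hp 2, Nat.reduceLT, Pi.add_apply]
    simp [e]; decide
  have main : ∀ R : OG (o3t_Q η n), (∀ v, b3 η v v = 1 → R.1 v = v ∨ R.1 v = -v) →
      R.1 (e 0 + (e 1 + (e 2 + e 3))) = e 0 + (e 1 + (e 2 + e 3)) → R = 1 := by
    intro R hR hs'
    have h0 : ∀ k, k < 4 → R.1 (e k) = e k := fun k hk =>
      key R hR _ hs hs' _ (hq k hk) (by
        rw [hp k hk]
        interval_cases k <;> simp [e])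
    have h1 : ∀ i : Fin n, R.1 (Pi.single i 1) = Pi.single i 1 := by
      intro i
      by_cases hi : i.val < 4
      · rw [← he]; exact h0 _ hi
      have hz : ∀ (k : ℕ) (hk : k < 4), (Pi.single i 1 : Fin n → ZMod 3) ⟨k, by omega⟩ = 0 :=
        fun k hk => Pi.single_eq_of_ne (fun e => hi (by rw [← e]; exact hk)) _
      rcases o3t_c_cases hη i with h | h
      · have := key R hR _ (hq 0 (by omega)) (h0 0 (by omega))
          (e 0 + (e 1 + (e 2 + Pi.single i 1))) (by
            simp only [Q_add, hq 0, hq 1, hq 2, hp 0, hp 1, hp 2, Nat.reduceLT, Pi.add_apply,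
              o3t_Q_single, h, hz 0, hz 1, hz 2]
            simp [e]; decide) (by
            rw [B_comm, hp 0 (by omega)]
            simp only [Pi.add_apply, hz 0 (by omega)]
            simp [e])
        simpa [h0] using this
      · have := key R hR _ (hq 0 (by omega)) (h0 0 (by omega))
          (e 0 + (e 1 + Pi.single i 1)) (by
            simp only [Q_add, hq 0, hq 1, hp 0, hp 1, Nat.reduceLT, Pi.add_apply,
              o3t_Q_single, h, hz 0, hz 1]
            simp [e]) (by
            rw [B_comm, hp 0 (by omega)]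
            simp only [Pi.add_apply, hz 0 (by omega)]
            simp [e])
        simpa [h0] using this
    refine OG.ext' fun x => ?_
    have : R.1.toLinearMap = LinearMap.id := by
      ext1 i; ext1; simpa using h1 i
    exact LinearMap.congr_fun this x
  rcases hR _ (by rw [← o3t_Q_apply, hs]) with h | h
  · exact Or.inl (main R hR h)
  · right
    have := main (negOne _ * R) (fun v hv => by
      rcases hR v hv with h | h <;> simp [h]) (by simp only [OG.mul_apply, h, negOne_apply, neg_neg])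
    refine OG.ext' fun x => ?_
    have h2 := congrArg (fun g : OG (o3t_Q η n) => g.1 x) this
    simp only [OG.mul_apply, negOne_apply, OG.one_apply] at h2 ⊢
    exact neg_eq_iff_eq_neg.1 h2

/-- the number of vectors of given norm -/
def o3t_f (η : ZMod 3) : ℕ → ZMod 3 → ℕ
  | 0, c => (if c = 0 then 1 else 0) + 2 * (if c = η then 1 else 0)
  | n + 1, c => o3t_f η n c + 2 * o3t_f η n (c - 1)

theorem o3t_card (hη : η = 1 ∨ η = -1) (n : ℕ) : ∀ c : ZMod 3,
    Fintype.card {v : Fin (n + 1) → ZMod 3 // b3 η v v = c} = o3t_f η n c := by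
  induction n with
  | zero => rcases hη with rfl | rfl <;> decide
  | succ n ih =>
    intro c
    have e : ∀ (t : ZMod 3) (x : Fin (n + 1) → ZMod 3),
        b3 η (Fin.cons t x : Fin (n + 2) → ZMod 3) (Fin.cons t x) = t * t + b3 η x x := by
      intro t x
      simp [b3, Fin.sum_univ_succ (n := n + 1)]
    have h1 : Fintype.card {v : Fin (n + 2) → ZMod 3 // b3 η v v = c} =
        Fintype.card (Σ t : ZMod 3, {x : Fin (n + 1) → ZMod 3 // b3 η x x = c - t * t}) := by
      refine Fintype.card_congr ⟨fun v => ⟨v.1 0, Fin.tail v.1, ?_⟩,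
        fun p => ⟨Fin.cons p.1 p.2.1, ?_⟩, fun v => ?_, fun p => ?_⟩
      · rw [eq_sub_iff_add_eq', ← e, Fin.cons_self_tail, v.2]
      · rw [e, p.2.2]; ring
      · simp
      · rfl
    rw [h1, Fintype.card_sigma]
    simp only [ih]
    rw [show (Finset.univ : Finset (ZMod 3)) = {0, 1, 2} from rfl, Finset.sum_insert (by decide),
      Finset.sum_insert (by decide), Finset.sum_singleton, show (2 : ZMod 3) * 2 = 1 from rfl]
    simp only [o3t_f, mul_zero, sub_zero, mul_one]
    ring

end Cfsg.Agent.H3.TTC
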