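import Cfsg.Agent.Fs.IBase

/-! Linear algebra over the field with three elements. -/

set_option autoImplicit false

namespace Cfsg.Agent.H3.TTC

open Matrix Module

variable {η : ZMod 3} {n : ℕ}

theorem b3_comm (x y : Fin n → ZMod 3) : b3 η x y = b3 η y x := by
  simp only [b3, mul_comm]

@[simp] theorem b3_add_left (x y z : Fin n → ZMod 3) : b3 η (x + y) z = b3 η x z + b3 η y z := by
  simp only [b3, Pi.add_apply, add_mul, mul_add, Finset.sum_add_distrib]

@[simp] theorem b3_add_right (x y z : Fin n → ZMod 3) : b3 η x (y + z) = b3 η x y + b3 η x z := by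
  simp only [b3, Pi.add_apply, mul_add, Finset.sum_add_distrib]

@[simp] theorem b3_smul_left (c : ZMod 3) (x y : Fin n → ZMod 3) :
    b3 η (c • x) y = c * b3 η x y := by
  simp only [b3, Pi.smul_apply, smul_eq_mul, Finset.mul_sum]
  exact Finset.sum_congr rfl fun _ _ => by ring

@[simp] theorem b3_smul_right (c : ZMod 3) (x y : Fin n → ZMod 3) :
    b3 η x (c • y) = c * b3 η x y := by rw [b3_comm, b3_smul_left, b3_comm]

@[simp] theorem b3_neg_left (x y : Fin n → ZMod 3) : b3 η (-x) y = -b3 η x y := by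
  rw [← neg_one_smul (ZMod 3), b3_smul_left, neg_one_mul]

@[simp] theorem b3_neg_right (x y : Fin n → ZMod 3) : b3 η x (-y) = -b3 η x y := by
  rw [← neg_one_smul (ZMod 3), b3_smul_right, neg_one_mul]

@[simp] theorem b3_sub_left (x y z : Fin n → ZMod 3) : b3 η (x - y) z = b3 η x z - b3 η y z := by
  simp [sub_eq_add_neg]

@[simp] theorem b3_sub_right (x y z : Fin n → ZMod 3) : b3 η x (y - z) = b3 η x y - b3 η x z := by
  simp [sub_eq_add_neg]

@[simp] theorem b3_zero_left (x : Fin n → ZMod 3) : b3 η 0 x = 0 := by simp [b3]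

@[simp] theorem b3_zero_right (x : Fin n → ZMod 3) : b3 η x 0 = 0 := by simp [b3]

theorem b3_sum_left {κ : Type*} (s : Finset κ) (f : κ → Fin n → ZMod 3) (y : Fin n → ZMod 3) :
    b3 η (∑ i ∈ s, f i) y = ∑ i ∈ s, b3 η (f i) y := by
  classical
  induction s using Finset.induction_on with
  | empty => simp
  | insert a s ha ih => rw [Finset.sum_insert ha, Finset.sum_insert ha, b3_add_left, ih]

theorem b3_cons (hn : 0 < n) (α γ : ZMod 3) (u v : Fin n → ZMod 3) :
    b3 η (Fin.cons α u : Fin (n + 1) → ZMod 3) (Fin.cons γ v) = α * γ + b3 η u v := by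
  simp only [b3, Fin.sum_univ_succ, Fin.cons_zero, Fin.cons_succ, Fin.val_zero, Fin.val_succ,
    Nat.add_right_cancel_iff, zero_add]
  simp [hn.ne]

theorem z3_sq {x : ZMod 3} (h : x ≠ 0) : x * x = 1 := by revert x; decide

theorem z3_cases (x : ZMod 3) : x = 0 ∨ x = 1 ∨ x = -1 := by revert x; decide

theorem o3_exists_dual (hη : η = 1 ∨ η = -1) (S : Set (Fin n → ZMod 3)) {t : Fin n → ZMod 3}
    (ht : t ∉ Submodule.span (ZMod 3) S) : ∃ y, b3 η y t = 1 ∧ ∀ u ∈ S, b3 η y u = 0 := by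
  obtain ⟨v, h1, h2⟩ := H6.exists_dot_of_notMem _ ht
  have key : ∀ u, b3 η (fun i => (if i.val + 1 = n then η else 1) * v i) u = u ⬝ᵥ v := fun u => by
    refine Finset.sum_congr rfl fun i _ => ?_
    by_cases h : i.val + 1 = n
    · simp only [if_pos h]
      rcases hη with rfl | rfl <;> ring
    · simp only [if_neg h]
      ring
  exact ⟨_, (key t).trans h1, fun u hu => (key u).trans (h2 u (Submodule.subset_span hu))⟩

theorem o3_nondeg (hη : η = 1 ∨ η = -1) {t : Fin n → ZMod 3} (ht : t ≠ 0) : ∃ y, b3 η y t = 1 := by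
  obtain ⟨y, h, -⟩ := o3_exists_dual hη ∅ (t := t) (by simpa using ht)
  exact ⟨y, h⟩

theorem o3_mem_span {j : ℕ} {w : Fin j → Fin n → ZMod 3} (h1 : ∀ i, b3 η (w i) (w i) ≠ 0)
    (h2 : ∀ i k, i ≠ k → b3 η (w i) (w k) = 0) {s z : Fin n → ZMod 3} (hs : ∀ i, b3 η s (w i) = 0)
    (hz : ∀ i, b3 η z (w i) = 0) (h : z ∈ Submodule.span (ZMod 3) (insert s (Set.range w))) :
    ∃ c : ZMod 3, z = c • s := by
  obtain ⟨c, z', hz', rfl⟩ := Submodule.mem_span_insert.1 h
  obtain ⟨a, rfl⟩ := (Submodule.mem_span_range_iff_exists_fun _).1 hz'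
  refine ⟨c, ?_⟩
  have : ∀ k, a k = 0 := fun k => by
    have := hz k
    rw [b3_add_left, b3_smul_left, hs, mul_zero, zero_add, b3_sum_left,
      Finset.sum_eq_single k (fun i _ hi => by rw [b3_smul_left, h2 i k hi, mul_zero]) (by simp),
      b3_smul_left] at this
    exact (mul_eq_zero.1 this).resolve_right (h1 k)
  simp [this]

theorem o3_dual' (hη : η = 1 ∨ η = -1) {j : ℕ} {w : Fin j → Fin n → ZMod 3}
    (h1 : ∀ i, b3 η (w i) (w i) ≠ 0) (h2 : ∀ i k, i ≠ k → b3 η (w i) (w k) = 0)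
    {s z : Fin n → ZMod 3} (hs : ∀ i, b3 η s (w i) = 0) (hz : ∀ i, b3 η z (w i) = 0)
    (h : ∀ c : ZMod 3, z ≠ c • s) :
    ∃ y, b3 η y z = 1 ∧ b3 η y s = 0 ∧ ∀ i, b3 η y (w i) = 0 := by
  obtain ⟨y, k1, k2⟩ := o3_exists_dual hη (insert s (Set.range w)) (t := z) fun e => by
    obtain ⟨c, hc⟩ := o3_mem_span h1 h2 hs hz e
    exact h c hc
  exact ⟨y, k1, k2 s (by simp), fun i => k2 _ (by simp)⟩

theorem o3_exns (hη : η = 1 ∨ η = -1) {j : ℕ} {w : Fin j → Fin n → ZMod 3}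
    (h1 : ∀ i, b3 η (w i) (w i) ≠ 0) (h2 : ∀ i k, i ≠ k → b3 η (w i) (w k) = 0)
    {s : Fin n → ZMod 3} (hs : ∀ i, b3 η s (w i) = 0) (hn : j + 3 ≤ n ∨ (s = 0 ∧ j + 1 ≤ n)) :
    ∃ z, b3 η z z ≠ 0 ∧ b3 η z s = 0 ∧ ∀ i, b3 η z (w i) = 0 := by
  by_contra hc
  push Not at hc
  let f : (Fin n → ZMod 3) →ₗ[ZMod 3] (Fin j → ZMod 3) :=
    { toFun := fun z i => b3 η z (w i)
      map_add' := fun x y => by ext; simp
      map_smul' := fun c x => by ext; simp }
  let g : (Fin n → ZMod 3) →ₗ[ZMod 3] ZMod 3 :=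
    { toFun := fun z => b3 η z s
      map_add' := fun x y => by simp
      map_smul' := fun c x => by simp }
  have hs0 : ∀ z, b3 η z s = 0 → (∀ i, b3 η z (w i) = 0) → b3 η z z = 0 := fun z k1 k2 => by
    by_contra e
    obtain ⟨i, hi⟩ := hc z e k1
    exact hi (k2 i)
  have hle : LinearMap.ker (f.prod g) ≤ Submodule.span (ZMod 3) {s} := fun z hz => by
    have k1 : b3 η z s = 0 := congrArg Prod.snd hz
    have k2 : ∀ i, b3 η z (w i) = 0 := congrFun (congrArg Prod.fst hz)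
    by_contra e
    obtain ⟨y, k3, k4, k5⟩ := o3_dual' hη h1 h2 hs k2 (fun c e' => e (e' ▸
      Submodule.smul_mem _ c (Submodule.mem_span_singleton_self s)))
    have := hs0 (y + z) (by simp [k1, k4]) (fun i => by simp [k2, k5])
    rw [b3_add_left, b3_add_right, b3_add_right, hs0 y k4 k5, hs0 z k1 k2, b3_comm z y, k3] at this
    exact absurd this (by decide)
  rcases hn with hn | ⟨rfl, hn⟩
  · have e1 := (f.prod g).finrank_range_add_finrank_ker
    have e2 := (LinearMap.range (f.prod g)).finrank_le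
    have e3 := (Submodule.finrank_mono hle).trans (finrank_span_le_card _)
    simp at e1 e2 e3
    omega
  · have e1 := f.finrank_range_add_finrank_ker
    have e2 := (LinearMap.range f).finrank_le
    have e3 : LinearMap.ker f = ⊥ := eq_bot_iff.2 fun z hz => by
      simpa using hle (show z ∈ LinearMap.ker (f.prod g) from Prod.ext hz (by simp [g]))
    rw [e3] at e1
    simp at e1 e2
    omega

theorem o3_disc (hn : 0 < n) {w : Fin n → Fin n → ZMod 3} (h1 : ∀ i, b3 η (w i) (w i) ≠ 0)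
    (h2 : ∀ i k, i ≠ k → b3 η (w i) (w k) = 0) : ∏ i, b3 η (w i) (w i) = η := by
  have e : Matrix.of w * diagonal (fun i : Fin n => if i.val + 1 = n then η else 1) *
      (Matrix.of w)ᵀ = diagonal fun i => b3 η (w i) (w i) := by
    ext i k
    have : (Matrix.of w * diagonal (fun i : Fin n => if i.val + 1 = n then η else 1) *
      (Matrix.of w)ᵀ) i k = b3 η (w i) (w k) := by
      simp only [Matrix.mul_apply (N := (Matrix.of w)ᵀ), mul_diagonal, of_apply, transpose_apply, b3]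
      exact Finset.sum_congr rfl fun _ _ => by ring
    rw [this]
    by_cases hik : i = k
    · rw [hik, diagonal_apply_eq]
    · rw [diagonal_apply_ne _ hik, h2 i k hik]
  have e2 := congrArg det e
  rw [det_mul, det_mul, det_transpose, det_diagonal, det_diagonal,
    Finset.prod_eq_single (⟨n - 1, by omega⟩ : Fin n) (fun i _ hi => if_neg fun h =>
      hi (Fin.ext (by simp; omega))) (by simp), if_pos (by simp; omega)] at e2
  have h0 : (Matrix.of w).det ≠ 0 := fun h => by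
    rw [h, mul_zero] at e2
    exact Finset.prod_ne_zero_iff.2 (fun i _ => h1 i) e2.symm
  rw [← e2, mul_right_comm, z3_sq h0, one_mul]

/-- a hyperbolic partner -/
theorem o3_hyp (hη : η = 1 ∨ η = -1) {j : ℕ} {w : Fin j → Fin n → ZMod 3}
    (h1 : ∀ i, b3 η (w i) (w i) ≠ 0) (h2 : ∀ i k, i ≠ k → b3 η (w i) (w k) = 0)
    {s : Fin n → ZMod 3} (hs : ∀ i, b3 η s (w i) = 0) (h0 : s ≠ 0) (hss : b3 η s s = 0) :
    ∃ f g, b3 η f f = 1 ∧ b3 η g g = -1 ∧ b3 η f g = 0 ∧ (∀ i, b3 η f (w i) = 0) ∧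
      ∀ i, b3 η g (w i) = 0 := by
  obtain ⟨y, k1, -, k2⟩ := o3_dual' hη h1 h2 (s := 0) (by simp) hs (by simpa using h0)
  refine ⟨y + (b3 η y y - 1) • s, y + (b3 η y y + 1) • s, ?_, ?_, ?_, fun i => by simp [k2, hs],
    fun i => by simp [k2, hs]⟩ <;>
  · simp only [b3_add_left, b3_add_right, b3_smul_left, b3_smul_right, k1, b3_comm s y, hss]
    generalize b3 η y y = x
    revert x; decide

theorem o3_ex1 (hη : η = 1 ∨ η = -1) (hn : 4 ≤ n) {p s : Fin n → ZMod 3} (hp : b3 η p p ≠ 0)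
    (hs : b3 η s p = 0) : ∃ z, b3 η z z ≠ 0 ∧ b3 η z s = 0 ∧ b3 η z p = 0 := by
  obtain ⟨z, k1, k2, k3⟩ := o3_exns hη (w := ![p]) (s := s) (by simpa) (by simp) (by simpa)
    (Or.inl hn)
  exact ⟨z, k1, k2, k3 0⟩

theorem o3_ex2 (hη : η = 1 ∨ η = -1) {p q s : Fin n → ZMod 3} (hn : 5 ≤ n ∨ (s = 0 ∧ 3 ≤ n))
    (hp : b3 η p p ≠ 0) (hq : b3 η q q ≠ 0) (hpq : b3 η p q = 0) (hs : b3 η s p = 0)
    (hs' : b3 η s q = 0) : ∃ z, b3 η z z ≠ 0 ∧ b3 η z s = 0 ∧ b3 η z p = 0 ∧ b3 η z q = 0 := by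
  obtain ⟨z, k1, k2, k3⟩ := o3_exns hη (w := ![p, q]) (s := s) (by simp [Fin.forall_fin_two, *])
    (by simp [Fin.forall_fin_two, b3_comm q p, *]) (by simp [Fin.forall_fin_two, *]) hn
  exact ⟨z, k1, k2, k3 0, k3 1⟩

theorem o3_ex3 (hη : η = 1 ∨ η = -1) (hn : 6 ≤ n) {p q r s : Fin n → ZMod 3}
    (hp : b3 η p p ≠ 0) (hq : b3 η q q ≠ 0) (hr : b3 η r r ≠ 0) (hpq : b3 η p q = 0)
    (hpr : b3 η p r = 0) (hqr : b3 η q r = 0) (hs : b3 η s p = 0)
    (hs' : b3 η s q = 0) (hs'' : b3 η s r = 0) :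
    ∃ z, b3 η z z ≠ 0 ∧ b3 η z s = 0 ∧ b3 η z p = 0 ∧ b3 η z q = 0 ∧ b3 η z r = 0 := by
  obtain ⟨z, k1, k2, k3⟩ := o3_exns hη (w := ![p, q, r]) (s := s)
    (by simp [Fin.forall_fin_succ, *])
    (by simp [Fin.forall_fin_succ, b3_comm q p, b3_comm r p, b3_comm r q, *])
    (by simp [Fin.forall_fin_succ, *]) (Or.inl hn)
  exact ⟨z, k1, k2, k3 0, k3 1, k3 2⟩

theorem z3_two : ∀ c x y : ZMod 3, c ≠ 0 → x ≠ 0 → y ≠ 0 → x ≠ c → y ≠ c → x + y = c := by decide

theorem o3_norm1 (hη : η = 1 ∨ η = -1) (hn : 5 ≤ n ∨ (n = 4 ∧ η = -1)) {p s : Fin n → ZMod 3}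
    (hp : b3 η p p = 1) (h0 : s ≠ 0) (hss : b3 η s s = 0) (hs : b3 η s p = 0) :
    ∃ z, b3 η z z = 1 ∧ b3 η z s = 0 ∧ b3 η z p = 0 := by
  obtain ⟨z, k1, k2, k3⟩ := o3_ex1 hη (by omega) (by simp [hp]) hs
  by_cases e : b3 η z z = 1
  · exact ⟨z, e, k2, k3⟩
  rcases hn with hn | ⟨rfl, rfl⟩
  · obtain ⟨y, l1, l2, l3, l4⟩ := o3_ex2 hη (Or.inl hn) (by simp [hp]) k1 (b3_comm p z ▸ k3) hs
      (b3_comm s z ▸ k2)
    by_cases e' : b3 η y y = 1
    · exact ⟨y, e', l2, l3⟩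
    exact ⟨y + z, by simpa [b3_comm z y, l4] using z3_two 1 _ _ one_ne_zero l1 k1 e' e,
      by simp [l2, k2], by simp [l3, k3]⟩
  · obtain ⟨f, g, f1, g1, fg, f2, g2⟩ := o3_hyp hη (w := ![p, z]) (s := s)
      (by simp [Fin.forall_fin_two, *]) (by simp [Fin.forall_fin_two, b3_comm p z, *])
      (by simp [Fin.forall_fin_two, b3_comm s z, *]) h0 hss
    simp only [Fin.forall_fin_two, cons_val_zero, cons_val_one] at f2 g2
    have := o3_disc (by norm_num) (η := -1) (w := ![p, z, f, g]) (by simp [Fin.forall_fin_succ, *])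
      (by simp [Fin.forall_fin_succ, b3_comm p z, b3_comm p f, b3_comm p g, b3_comm z f,
        b3_comm z g, b3_comm g f, *])
    simp [Fin.prod_univ_succ, *] at this

theorem o3_norm2 (hη : η = 1 ∨ η = -1) (hn : 6 ≤ n ∨ (n = 5 ∧ η = -1)) {p q s : Fin n → ZMod 3}
    (hp : b3 η p p = 1) (hq : b3 η q q ≠ 0) (hpq : b3 η p q = 0) (h0 : s ≠ 0) (hss : b3 η s s = 0)
    (hs : b3 η s p = 0) (hs' : b3 η s q = 0) :
    ∃ z, b3 η z z = b3 η q q ∧ b3 η z s = 0 ∧ b3 η z p = 0 ∧ b3 η z q = 0 := by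
  obtain ⟨z, k1, k2, k3, k4⟩ := o3_ex2 hη (Or.inl (by omega)) (by simp [hp]) hq hpq hs hs'
  by_cases e : b3 η z z = b3 η q q
  · exact ⟨z, e, k2, k3, k4⟩
  rcases hn with hn | ⟨rfl, rfl⟩
  · obtain ⟨y, l1, l2, l3, l4, l5⟩ := o3_ex3 hη hn (by simp [hp]) hq k1 hpq (b3_comm p z ▸ k3)
      (b3_comm q z ▸ k4) hs hs' (b3_comm s z ▸ k2)
    by_cases e' : b3 η y y = b3 η q q
    · exact ⟨y, e', l2, l3, l4⟩
    exact ⟨y + z, by simpa [b3_comm z y, l5] using z3_two _ _ _ hq l1 k1 e' e,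
      by simp [l2, k2], by simp [l3, k3], by simp [l4, k4]⟩
  · obtain ⟨f, g, f1, g1, fg, f2, g2⟩ := o3_hyp hη (w := ![p, q, z]) (s := s)
      (by simp [Fin.forall_fin_succ, *])
      (by simp [Fin.forall_fin_succ, b3_comm p z, b3_comm q p, b3_comm q z, *])
      (by simp [Fin.forall_fin_succ, b3_comm s z, *]) h0 hss
    simp only [Fin.forall_fin_succ, cons_val_zero, cons_val_succ] at f2 g2
    have := o3_disc (by norm_num) (η := -1) (w := ![p, q, z, f, g])
      (by simp [Fin.forall_fin_succ, *])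
      (by simp [Fin.forall_fin_succ, b3_comm p z, b3_comm p f, b3_comm p g, b3_comm z f,
        b3_comm z g, b3_comm g f, b3_comm q p, b3_comm q z, b3_comm q f, b3_comm q g, *])
    simp only [Fin.prod_univ_succ, Fin.prod_univ_zero, cons_val_zero, cons_val_succ, hp, f1,
      g1] at this
    exfalso
    revert this e k1 hq
    generalize b3 (-1) z z = x
    generalize b3 (-1) q q = y
    revert x y; decide

/-- a nonsingular vector orthogonal to a hyperbolic pair and a singular vector -/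
theorem o3_conn (hη : η = 1 ∨ η = -1) (hn : 5 ≤ n ∨ (n = 4 ∧ η = -1)) {s₀ u s : Fin n → ZMod 3}
    (h0 : b3 η s₀ s₀ = 0) (hu : b3 η u u = 0) (hs : b3 η s s = 0) (h1 : b3 η s₀ u ≠ 0)
    (h2 : b3 η s s₀ = 0) : ∃ z, b3 η z z ≠ 0 ∧ b3 η z s₀ = 0 ∧ b3 η z u = 0 ∧ b3 η z s = 0 := by
  have hq := z3_sq h1
  have a1 : b3 η (s₀ + u) (s₀ + u) = -b3 η s₀ u := by
    simp only [b3_add_left, b3_add_right, h0, hu, b3_comm u s₀]
    generalize b3 η s₀ u = x; revert x; decide
  have a2 : b3 η (s₀ - u) (s₀ - u) = b3 η s₀ u := by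
    simp only [b3_sub_left, b3_sub_right, h0, hu, b3_comm u s₀]
    generalize b3 η s₀ u = x; revert x; decide
  have a3 : b3 η (s₀ + u) (s₀ - u) = 0 := by simp [h0, hu, b3_comm u s₀]
  set v := s - (b3 η s u * b3 η s₀ u) • s₀ with hv
  have v0 : b3 η v s₀ = 0 := by simp [hv, h0, h2]
  have v1 : b3 η v u = 0 := by simp [hv, mul_assoc, hq]
  have v2 : b3 η v v = 0 := by simp [hv, hs, h2, h0, b3_comm s₀ s]
  by_cases hc : 5 ≤ n ∨ (v = 0 ∧ 3 ≤ n)
  · obtain ⟨z, k1, k2, k3, k4⟩ := o3_ex2 hη hc (p := s₀ + u) (q := s₀ - u) (by simpa [a1])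
      (by rwa [a2]) a3 (by simp [v0, v1]) (by simp [v0, v1])
    simp only [b3_add_right, b3_sub_right] at k3 k4
    have k5 : b3 η z s₀ = 0 ∧ b3 η z u = 0 := by
      revert k3 k4
      generalize b3 η z s₀ = x
      generalize b3 η z u = y
      revert x y; decide
    exact ⟨z, k1, k5.1, k5.2, by simpa [hv, k5.1] using k2⟩
  · obtain ⟨rfl, rfl⟩ := hn.resolve_left fun e => hc (Or.inl e)
    have hv0 : v ≠ 0 := fun e => hc (Or.inr ⟨e, by norm_num⟩)
    have c1 : b3 (-1) v (s₀ + u) = 0 := by simp [v0, v1]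
    have c2 : b3 (-1) v (s₀ - u) = 0 := by simp [v0, v1]
    clear_value v
    clear hv
    generalize s₀ + u = p at *
    generalize s₀ - u = q at *
    obtain ⟨f, g, f1, g1, fg, f2, g2⟩ := o3_hyp hη (w := ![p, q]) (s := v)
      (by simp [Fin.forall_fin_two, *]) (by simp [Fin.forall_fin_two, b3_comm q p, *])
      (by simp [Fin.forall_fin_two, *]) hv0 v2
    simp only [Fin.forall_fin_two, cons_val_zero, cons_val_one] at f2 g2
    have := o3_disc (by norm_num) (η := -1) (w := ![p, q, f, g]) (by simp [Fin.forall_fin_succ, *])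
      (by simp [Fin.forall_fin_succ, b3_comm q p, b3_comm p f, b3_comm p g, b3_comm q f,
        b3_comm q g, b3_comm g f, *])
    simp only [Fin.prod_univ_succ, Fin.prod_univ_zero, cons_val_zero, cons_val_succ, a1, a2, f1,
      g1] at this
    exact absurd this (by
      revert h1
      generalize b3 (-1) s₀ u = x
      revert x; decide)

/-- two singular vectors have a common opposite -/
theorem o3_opp (hη : η = 1 ∨ η = -1) (hn : 3 ≤ n) {s t : Fin n → ZMod 3} (hs : s ≠ 0) (ht : t ≠ 0)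
    (hss : b3 η s s = 0) (htt : b3 η t t = 0) :
    ∃ u, b3 η u u = 0 ∧ b3 η s u ≠ 0 ∧ b3 η t u ≠ 0 := by
  by_cases h : b3 η s t = 0
  · obtain ⟨y, k1, k2⟩ : ∃ y, b3 η s y ≠ 0 ∧ b3 η t y ≠ 0 := by
      obtain ⟨y, hy⟩ := o3_nondeg hη hs
      obtain ⟨z, hz⟩ := o3_nondeg hη ht
      rw [b3_comm] at hy hz
      by_cases e1 : b3 η t y = 0
      · by_cases e2 : b3 η s z = 0
        · exact ⟨y + z, by simp [*], by simp [*]⟩
        · exact ⟨z, e2, by simp [hz]⟩
      · exact ⟨y, by simp [hy], e1⟩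
    refine ⟨y + (b3 η y y * b3 η s y) • s, ?_, by simpa [hss], by simpa [b3_comm t s, h]⟩
    simp only [b3_add_left, b3_add_right, b3_smul_left, b3_smul_right, hss, b3_comm y s]
    revert k1
    generalize b3 η s y = x
    generalize b3 η y y = w
    revert x w; decide
  · obtain ⟨z, k1, -, k2, k3⟩ := o3_ex2 hη (Or.inr ⟨rfl, hn⟩) (p := s + t) (q := s - t)
      (by simp only [b3_add_left, b3_add_right, hss, htt, b3_comm t s]
          revert h; generalize b3 η s t = x; revert x; decide)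
      (by simp only [b3_sub_left, b3_sub_right, hss, htt, b3_comm t s]
          revert h; generalize b3 η s t = x; revert x; decide)
      (by simp [hss, htt, b3_comm t s]) (by simp) (by simp)
    simp only [b3_add_right, b3_sub_right] at k2 k3
    have k5 : b3 η z s = 0 ∧ b3 η z t = 0 := by
      revert k2 k3
      generalize b3 η z s = x
      generalize b3 η z t = y
      revert x y; decide
    refine ⟨t + z + (b3 η z z * b3 η s t) • s, ?_, by simpa [hss, b3_comm s z, k5.1],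
      by simp [htt, b3_comm t z, k5.2, b3_comm t s, h, k1]⟩
    simp only [b3_add_left, b3_add_right, b3_smul_left, b3_smul_right, hss, htt, b3_comm t s,
      b3_comm s z, b3_comm t z, k5.1, k5.2]
    revert h
    generalize b3 η s t = x
    generalize b3 η z z = w
    revert x w; decide

/-- the vectors of norm one span the orthogonal complement of a line -/
theorem o3_span (hη : η = 1 ∨ η = -1) (hn : 6 ≤ n ∨ (n = 5 ∧ η = -1)) {p s x : Fin n → ZMod 3}
    (hp : b3 η p p = 1) (h0 : s ≠ 0) (hss : b3 η s s = 0) (hs : b3 η s p = 0)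
    (h : ∀ z, b3 η z z = 1 → b3 η z p = 0 → b3 η z s = 0 → b3 η z x = 0) :
    ∃ α γ : ZMod 3, x = α • p + γ • s := by
  by_contra hc
  obtain ⟨y, k1, k2⟩ := o3_exists_dual hη {p, s} (t := x) fun e => by
    obtain ⟨α, γ, e⟩ := Submodule.mem_span_pair.1 e
    exact hc ⟨α, γ, e.symm⟩
  have k3 := k2 p (by simp)
  have k4 := k2 s (by simp)
  obtain ⟨z, z1, z2, z3⟩ := o3_norm1 hη (Or.inl (by omega)) hp h0 hss hs
  have z4 := h z z1 z3 z2
  have key : ∀ y, b3 η y x = 1 → b3 η y p = 0 → b3 η y s = 0 → b3 η y y ≠ -1 := by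
    intro y k1 k3 k4 e
    obtain ⟨u, u1, u2, u3, u4⟩ := o3_norm2 hη hn hp (q := y) (by rw [e]; decide) (b3_comm p y ▸ k3)
      h0 hss hs (b3_comm s y ▸ k4)
    have a1 := h (y + u) (by simp [u1, e, b3_comm y u, u4]; decide) (by simp [*]) (by simp [*])
    have a2 := h (y - u) (by simp [u1, e, b3_comm y u, u4]; decide) (by simp [*]) (by simp [*])
    simp only [b3_add_left, b3_sub_left, k1] at a1 a2
    revert a1 a2
    generalize b3 η u x = w
    revert w; decide
  have key2 : ∀ c : ZMod 3, b3 η (y + c • z) (y + c • z) = 0 := fun c => by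
    rcases z3_cases (b3 η (y + c • z) (y + c • z)) with e | e | e
    · exact e
    · have := h _ e (by simp [*]) (by simp [*])
      simp [k1, z4] at this
    · exact absurd e (key _ (by simp [*]) (by simp [*]) (by simp [*]))
  have a0 := key2 0
  have a1 := key2 1
  have a2 := key2 (-1)
  simp only [b3_add_left, b3_add_right, b3_smul_left, b3_smul_right, z1, b3_comm z y] at a0 a1 a2
  revert a0 a1 a2
  generalize b3 η y y = a
  generalize b3 η y z = b
  revert a b; decide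

end Cfsg.Agent.H3.TTC
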