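import Cfsg.Agent.Fs.PO3a

/-! The common neighbours of two noncommuting points in a locally orthogonal space. -/

set_option autoImplicit false

namespace Cfsg.Agent.H3.TTC

open Matrix

variable {G : Type*} [Group G] {T : TTC G} {η : ZMod 3} {n : ℕ}

/-- the vector `v` represents the point `p` -/
def Rep (Y : Set T.Pt) (ψ : T.Pt → Fin n → ZMod 3) (p : T.Pt) (v : Fin n → ZMod 3) : Prop :=
  p ∈ Y ∧ (ψ p = v ∨ ψ p = -v)

section rep

variable {Y : Set T.Pt} {ψ : T.Pt → Fin n → ZMod 3} {p q : T.Pt} {v w : Fin n → ZMod 3}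

theorem rep_self (h : p ∈ Y) : Rep Y ψ p (ψ p) := ⟨h, Or.inl rfl⟩

theorem Rep.neg (h : Rep Y ψ p v) : Rep Y ψ p (-v) := ⟨h.1, by rw [neg_neg]; exact h.2.symm⟩

theorem Rep.smul (h : Rep Y ψ p v) {c : ZMod 3} (hc : c ≠ 0) : Rep Y ψ p (c • v) := by
  rcases z3_cases c with rfl | rfl | rfl
  · exact absurd rfl hc
  · rwa [one_smul]
  · rw [neg_one_smul]; exact h.neg

theorem Rep.of_eq (h : Rep Y ψ p v) (e : v = w) : Rep Y ψ p w := e ▸ h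

theorem Rep.zero_iff (h : Rep Y ψ p v) (h' : Rep Y ψ p w) (t : Fin n → ZMod 3) :
    b3 η t v = 0 ↔ b3 η t w = 0 := by
  obtain ⟨-, rfl | e⟩ := h
  · obtain ⟨-, rfl | e⟩ := h'
    · rfl
    · simp [e]
  · obtain ⟨-, rfl | e'⟩ := h'
    · simp [e]
    · rw [neg_injective (e.symm.trans e')]

theorem OE.rep_norm (E : OE η n Y ψ) (h : Rep Y ψ p v) : b3 η v v = 1 := by
  have := E.norm p h.1
  rcases h.2 with e | e <;> simpa [e] using this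

theorem OE.rep_ex (E : OE η n Y ψ) (h : b3 η v v = 1) : ∃ p, Rep Y ψ p v := E.surj v h

theorem OE.rep_uniq (E : OE η n Y ψ) (h : Rep Y ψ p v) (h' : Rep Y ψ q v) : p = q := by
  refine E.inj p h.1 q h'.1 ?_
  rcases h.2 with e | e <;> rcases h'.2 with e' | e' <;> simp [e, e']

theorem OE.rep_ob (E : OE η n Y ψ) (h : Rep Y ψ p v) (h' : Rep Y ψ q w) :
    (q ≠ p ∧ cm p q) ↔ b3 η v w = 0 := by
  have e : b3 η v w = 0 ↔ b3 η (ψ p) (ψ q) = 0 := by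
    rw [h'.zero_iff (rep_self h'.1), b3_comm, h.zero_iff (rep_self h.1), b3_comm]
  rw [e]
  by_cases hpq : q = p
  · simp [hpq, E.norm p h.1]
  · simp [hpq, E.cm_iff p h.1 q h'.1 (Ne.symm hpq)]

theorem OE.rep_rs (E : OE η n Y ψ) (h : Rep Y ψ p v) (h' : Rep Y ψ q w) (e : b3 η v w = 0) :
    q ∈ Rs Y p := ⟨h'.1, (E.rep_ob h h').2 e⟩

theorem OE.rep_ncm (E : OE η n Y ψ) (h : Rep Y ψ p v) (h' : Rep Y ψ q w) (e : ¬ cm p q) :
    b3 η v w ≠ 0 := fun e' => e ((E.rep_ob h h').2 e').2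

theorem OE.rep_rf (E : OE η n Y ψ) (h : Rep Y ψ p v) (h' : Rep Y ψ q w) :
    Rep Y ψ (p ◃ q) (w + b3 η w v • v) := by
  refine ⟨E.cl p h.1 q h'.1, ?_⟩
  have := E.rf p h.1 q h'.1
  rcases h.2 with e | e <;> rcases h'.2 with e' | e' <;> rw [e, e'] at this
  · exact this
  · refine this.symm.imp (fun k => ?_) (fun k => ?_) <;> rw [k] <;> simp [add_comm]
  · simpa using this
  · refine this.symm.imp (fun k => ?_) (fun k => ?_) <;> rw [k] <;> simp [add_comm]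

/-- the hyperplane defined by a line -/
def HL (p p' y : T.Pt) : Prop :=
  ((y ≠ p ∧ cm p y) ↔ (y ≠ p' ∧ cm p' y)) ∧ ((y ≠ p ∧ cm p y) ↔ (y ≠ p ◃ p' ∧ cm (p ◃ p') y))

theorem OE.hl (E : OE η n Y ψ) {p' y : T.Pt} {t : Fin n → ZMod 3} (h : Rep Y ψ p v)
    (h' : Rep Y ψ p' (v + t)) (ht : b3 η t v = 0) (hy : Rep Y ψ y w) :
    HL p p' y ↔ b3 η t w = 0 := by
  rw [HL, E.rep_ob h hy, E.rep_ob h' hy, E.rep_ob (E.rep_rf h h') hy]
  simp only [b3_add_left, b3_smul_left, E.rep_norm h, ht]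
  generalize b3 η v w = x
  generalize b3 η t w = z
  revert x z; decide

theorem OE.dir (E : OE η n Y ψ) (h : Rep Y ψ p v) (hq : q ∈ Y) (hn : ¬ cm p q) :
    ∃ t, t ≠ 0 ∧ b3 η t t = 0 ∧ b3 η t v = 0 ∧ Rep Y ψ q (v + t) := by
  have h1 := E.rep_ncm h (rep_self hq) hn
  have h2 := (rep_self (ψ := ψ) hq).smul h1
  refine ⟨b3 η v (ψ q) • ψ q - v, fun e => ?_, ?_, ?_, h2.of_eq (by simp)⟩
  · rw [sub_eq_zero] at e
    exact hn (E.rep_uniq h (e ▸ h2) ▸ cm_refl p)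
  · simp only [b3_sub_left, b3_sub_right, b3_smul_left, b3_smul_right, E.rep_norm h, E.norm q hq,
      b3_comm (ψ q) v]
    revert h1; generalize b3 η v (ψ q) = x; revert x; decide
  · simp [E.rep_norm h, b3_comm (ψ q) v, z3_sq h1]

end rep

/-- the singular vector describing the residue of `e` in `Mu X d a` -/
structure Tt (η : ZMod 3) (Y : Set T.Pt) (ψ : T.Pt → Fin n → ZMod 3) (a : T.Pt)
    (u t : Fin n → ZMod 3) : Prop where
  ne : t ≠ 0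
  sing : b3 η t t = 0
  perp : b3 η t u = 0
  iff : ∀ y v, Rep Y ψ y v → b3 η u v = 0 → (cm a y ↔ b3 η t v = 0)

variable [Finite G] {X : Set T.Pt} {ψ : T.Pt → Fin n → ZMod 3} {d a : T.Pt}

/-- the standing hypotheses -/
structure OCtx (η : ZMod 3) (n : ℕ) (X : Set T.Pt) (d : T.Pt) (ψ : T.Pt → Fin n → ZMod 3) :
    Prop where
  hη : η = 1 ∨ η = -1
  hn : 5 ≤ n ∨ (n = 4 ∧ η = -1 ∧ ∀ d ∈ X, ∀ a ∈ Nc X d, NoP4 (Mu X d a))
  loc : Loc (O3 η n) X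
  hd : d ∈ X
  E : OE η n (Rs X d) ψ

namespace OCtx

omit [Finite G] in
theorem hn' (C : OCtx η n X d ψ) : 5 ≤ n ∨ (n = 4 ∧ η = -1) := C.hn.imp_right fun h => ⟨h.1, h.2.1⟩

omit [Finite G] in
theorem exists_tt (C : OCtx η n X d ψ) (ha : a ∈ Nc X d) {e : T.Pt} {u : Fin n → ZMod 3}
    (he : Rep (Rs X d) ψ e u) (hae : cm a e) :
    ∃ t, Tt η (Rs X d) ψ a u t ∧ ∃ p v, Rep (Rs X d) ψ p v ∧ b3 η u v = 0 ∧ b3 η t v = 0 := by
  obtain ⟨φ, F⟩ := C.loc.2 e he.1.1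
  have hd : d ∈ Rs X e := ⟨C.hd, he.1.2.1.symm, he.1.2.2.symm⟩
  have ha' : a ∈ Rs X e := ⟨ha.1, fun k => ha.2 (k ▸ he.1.2.2), hae.symm⟩
  obtain ⟨σ, s0, s1, s2, s3⟩ := F.dir (rep_self hd) ha' ha.2
  have key : ∀ y w, Rep (Rs X e) φ y w → b3 η (φ d) w = 0 → (cm a y ↔ b3 η σ w = 0) := by
    intro y w hy k
    have := F.rep_ob s3 hy
    rw [b3_add_left, k, zero_add] at this
    rw [← this]
    exact ⟨fun k' => ⟨fun k'' => ha.2 (k'' ▸ ((F.rep_ob (rep_self hd) hy).2 k).2), k'⟩,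
      fun k' => k'.2⟩
  obtain ⟨z, z1, z2, z3⟩ := o3_norm1 C.hη C.hn' (F.norm d hd) s0 s1 s2
  obtain ⟨p, hp⟩ := F.rep_ex z1
  obtain ⟨p', hp'⟩ := F.rep_ex (v := z + σ) (by simp [z1, z2, s1, b3_comm σ z])
  have m : ∀ y w, Rep (Rs X e) φ y w → b3 η (φ d) w = 0 → y ∈ Rs (Rs X d) e := fun y w hy k =>
    rs_rs_comm X e d ▸ F.rep_rs (rep_self hd) hy k
  have hpp : ¬ cm p p' := fun k => by
    have hne : p' ≠ p := fun k' => by
      have := (k' ▸ hp').zero_iff (η := η) hp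
      obtain ⟨y, k1, -, k2⟩ := o3_dual' C.hη (w := ![z]) (s := 0) (z := σ) (by simp [z1]) (by simp)
        (by simp) (by simp [b3_comm σ z, z2]) (by simpa using s0)
      have k3 : b3 η y z = 0 := k2 0
      simpa [k1, k3] using this y
    simpa [z1, z2] using (F.rep_ob hp hp').1 ⟨hne, k⟩
  have mp := m p z hp (b3_comm z _ ▸ z3)
  have mp' := m p' _ hp' (by simp [b3_comm (φ d), z3, s2])
  obtain ⟨t, t0, t1, t2, t3⟩ := C.E.dir (rep_self mp.1) mp'.1 hpp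
  have b1 : b3 η u (ψ p) = 0 := (C.E.rep_ob he (rep_self mp.1)).1 mp.2
  have b2 := (C.E.rep_ob he t3).1 mp'.2
  rw [b3_add_right, b1, zero_add, b3_comm] at b2
  refine ⟨t, ⟨t0, t1, b2, fun y v hy k => ?_⟩, p, _, rep_self mp.1, b1, t2⟩
  have hy' : y ∈ Rs (Rs X e) d := rs_rs_comm X d e ▸ C.E.rep_rs he hy k
  rw [key y _ (rep_self hy'.1) ((F.rep_ob (rep_self hd) (rep_self hy'.1)).1 hy'.2),
    ← F.hl hp hp' (b3_comm z σ ▸ z2) (rep_self hy'.1), C.E.hl (rep_self mp.1) t3 t2 hy]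

end OCtx

omit [Finite G] in
theorem Tt.neg {Y : Set T.Pt} {u t : Fin n → ZMod 3} (h : Tt η Y ψ a u t) : Tt η Y ψ a u (-t) :=
  ⟨neg_ne_zero.2 h.ne, by simp [h.sing], by simp [h.perp], fun y v k1 k2 => by
    simpa using h.iff y v k1 k2⟩

/-- coordinates with respect to `e, e', t, t', z` -/
def a5 (e e' t t' z : Fin n → ZMod 3) (c : Fin 5 → ZMod 3) : Fin n → ZMod 3 :=
  c 0 • e + c 1 • e' + c 2 • t + c 3 • t' + c 4 • z

/-- the Gram form of the coordinates -/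
def g5 (c c' : Fin 5 → ZMod 3) : ZMod 3 :=
  c 0 * c' 0 + c 1 * c' 1 - c 2 * c' 3 - c 3 * c' 2 - c 4 * c' 4

/-- the easy points -/
def e5 : Fin 6 → Fin 5 → ZMod 3 :=
  ![![1, 0, 0, 0, 0], ![0, 1, 0, 0, 0], ![0, 1, 1, 0, 0], ![0, 1, 2, 0, 0], ![1, 0, 0, 1, 0],
    ![1, 0, 0, 2, 0]]

/-- the base -/
def f5 : Fin 5 → Fin 5 → ZMod 3 :=
  ![![0, 0, 1, 2, 1], ![1, 1, 0, 1, 2], ![1, 1, 0, 2, 1], ![1, 2, 1, 0, 1], ![1, 2, 2, 0, 2]]

/-- the witnesses -/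
def w5 : Fin 5 → Fin 6 × Fin 6 × Fin 6 × Fin 6 :=
  ![(0, 1, 0, 1), (2, 0, 3, 4), (3, 0, 2, 4), (4, 1, 2, 5), (5, 1, 2, 4)]

theorem f5_g : ∀ i j, g5 (f5 i) (f5 j) = if i = j then 1 else 0 := by decide +kernel

theorem f5_max : ∀ i j, i ≠ j → ∀ a b c d e : ZMod 3, g5 ![a, b, c, d, e] ![a, b, c, d, e] = 1 →
    g5 (f5 i) ![a, b, c, d, e] = 0 → g5 (f5 j) ![a, b, c, d, e] = 0 →
    ∃ k, ![a, b, c, d, e] = f5 k ∨ ![a, b, c, d, e] = -f5 k := by decide +kernel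

set_option synthInstance.maxSize 2000 in
theorem f5_ex : ∀ i, g5 (e5 (w5 i).1) (f5 i) = 0 ∧ g5 (e5 (w5 i).1) (e5 (w5 i).2.1) = 0 ∧
    g5 (e5 (w5 i).1) (e5 (w5 i).2.2.2 + g5 (e5 (w5 i).2.2.2) (e5 (w5 i).2.2.1) • e5 (w5 i).2.2.1) =
      0 ∧
    ∀ a b c d e : ZMod 3, g5 ![a, b, c, d, e] ![a, b, c, d, e] = 0 →
    g5 ![a, b, c, d, e] (e5 (w5 i).1) = 0 → g5 ![a, b, c, d, e] (e5 (w5 i).2.1) = 0 →
    g5 ![a, b, c, d, e]
      (e5 (w5 i).2.2.2 + g5 (e5 (w5 i).2.2.2) (e5 (w5 i).2.2.1) • e5 (w5 i).2.2.1) = 0 →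
    g5 ![a, b, c, d, e] (f5 i) = 0 → ![a, b, c, d, e] = 0 := by decide +kernel

theorem g5_nondeg : ∀ a b c d e : ZMod 3, (∀ i, g5 ![a, b, c, d, e] (f5 i) = 0) →
    ![a, b, c, d, e] = 0 := by decide +kernel

theorem vec5 (c : Fin 5 → ZMod 3) : ∃ a b x y z, c = ![a, b, x, y, z] :=
  ⟨c 0, c 1, c 2, c 3, c 4, by ext i; fin_cases i <;> rfl⟩

namespace OCtx

omit [Finite G] in
theorem not_a5 {ψ : T.Pt → Fin 5 → ZMod 3} (C : OCtx 1 5 X d ψ) (ha : a ∈ Nc X d) {e e' : T.Pt}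
    {u u' t t' : Fin 5 → ZMod 3} (he : Rep (Rs X d) ψ e u) (he' : Rep (Rs X d) ψ e' u')
    (hae : cm a e) (hae' : cm a e') (huu : b3 1 u u' = 0) (ht : Tt 1 (Rs X d) ψ a u t)
    (ht' : Tt 1 (Rs X d) ψ a u' t') (htt : b3 1 t t' = -1) : False := by
  have u1 := C.E.rep_norm he
  have u2 := C.E.rep_norm he'
  have h1 : b3 1 t u' = 0 := (ht.iff _ _ he' huu).1 hae'
  have h2 : b3 1 t' u = 0 := (ht'.iff _ _ he (b3_comm u u' ▸ huu)).1 hae
  have h3 := ht.perp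
  have h4 := ht'.perp
  have h5 := ht.sing
  have h6 := ht'.sing
  have o1 : ∀ i, b3 1 (![u, u', t + t', t - t'] i) (![u, u', t + t', t - t'] i) ≠ 0 := by
    simp [Fin.forall_fin_succ, b3_comm t' t, *]; decide
  have o2 : ∀ i k, i ≠ k → b3 1 (![u, u', t + t', t - t'] i) (![u, u', t + t', t - t'] k) = 0 := by
    simp [Fin.forall_fin_succ, b3_comm t' t, b3_comm u' u, b3_comm u t, b3_comm u t', b3_comm u' t,
      b3_comm u' t', *]
  obtain ⟨z, z0, -, z1⟩ := o3_exns C.hη o1 o2 (s := 0) (by simp) (Or.inr ⟨rfl, le_rfl⟩)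
  simp only [Fin.forall_fin_succ, cons_val_zero, cons_val_succ, b3_add_right, b3_sub_right] at z1
  obtain ⟨z1, z2, z3, z4, -⟩ := z1
  obtain ⟨z5, z6⟩ : b3 1 z t = 0 ∧ b3 1 z t' = 0 := by
    revert z3 z4
    generalize b3 1 z t = x
    generalize b3 1 z t' = y
    revert x y; decide
  have z7 : b3 1 z z = -1 := by
    have := o3_disc (by norm_num) (η := 1) (w := ![u, u', t + t', t - t', z])
      (by simp [Fin.forall_fin_succ, b3_comm t' t, *]; decide)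
      (by simp [Fin.forall_fin_succ, b3_comm t' t, b3_comm u' u, b3_comm u t, b3_comm u t',
        b3_comm u' t, b3_comm u' t', b3_comm u z, b3_comm u' z, b3_comm t z, b3_comm t' z, *])
    simp only [Fin.prod_univ_succ, Fin.prod_univ_zero, cons_val_zero, cons_val_succ, b3_add_left,
      b3_add_right, b3_sub_left, b3_sub_right, b3_comm t' t, *] at this
    revert this
    generalize b3 1 z z = x
    revert x; decide
  have hg : ∀ c c', b3 1 (a5 u u' t t' z c) (a5 u u' t t' z c') = g5 c c' := fun c c' => by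
    simp only [a5, g5, b3_add_left, b3_add_right, b3_smul_left, b3_smul_right, b3_comm t' t,
      b3_comm u' u, b3_comm u t, b3_comm u t', b3_comm u' t, b3_comm u' t', b3_comm u z,
      b3_comm u' z, b3_comm t z, b3_comm t' z, *]
    ring
  have hadd : ∀ c c' (x : ZMod 3), a5 u u' t t' z c + x • a5 u u' t t' z c' =
      a5 u u' t t' z (c + x • c') := fun c c' x => by
    simp only [a5, Pi.add_apply, Pi.smul_apply, smul_eq_mul]; module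
  have hs : Function.Surjective (a5 u u' t t' z) := by
    refine Finite.surjective_of_injective fun c c' k => ?_
    obtain ⟨a, b, x, y, w, k'⟩ := vec5 (c + (-1 : ZMod 3) • c')
    have := g5_nondeg a b x y w fun i => by rw [← k', ← hg, ← hadd, k]; simp
    rw [← k', neg_one_smul, add_neg_eq_zero] at this
    exact this
  have hneg : ∀ c, a5 u u' t t' z (-c) = -a5 u u' t t' z c := fun c => by
    simp only [a5, Pi.neg_apply]; module
  have hM : ∀ i, ∃ p, Rep (Rs X d) ψ p (a5 u u' t t' z (e5 i)) ∧ cm a p := by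
    have k : ∀ i, g5 (e5 i) (e5 i) = 1 ∧ ((g5 (e5 0) (e5 i) = 0 ∧ g5 ![0, 0, 1, 0, 0] (e5 i) = 0) ∨
      (g5 (e5 1) (e5 i) = 0 ∧ g5 ![0, 0, 0, 1, 0] (e5 i) = 0)) := by decide +kernel
    intro i
    obtain ⟨k1, k2⟩ := k i
    rw [← hg] at k1
    obtain ⟨p, hp⟩ := C.E.rep_ex k1
    simp only [← hg] at k2
    refine ⟨p, hp, k2.elim (fun k2 => (ht.iff p _ hp ?_).2 ?_) fun k2 => (ht'.iff p _ hp ?_).2 ?_⟩
    · simpa [a5, e5] using k2.1
    · simpa [a5, e5] using k2.2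
    · simpa [a5, e5] using k2.1
    · simpa [a5, e5] using k2.2
  choose P hP hPa using hM
  choose B hB using fun i => C.E.rep_ex (v := a5 u u' t t' z (f5 i)) (by rw [hg, f5_g, if_pos rfl])
  have hob : ∀ i j, i ≠ j → B j ≠ B i ∧ cm (B i) (B j) := fun i j hij =>
    (C.E.rep_ob (hB i) (hB j)).2 (by rw [hg, f5_g, if_neg hij])
  obtain ⟨i, hi⟩ := cl6 C.loc.1.cl C.hd ha.1 B (fun i => (hB i).1)
    (fun i j k => by_contra fun hij => (hob i j hij).1 k.symm)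
    (fun i j => by
      by_cases hij : i = j
      · rw [hij]; exact cm_refl _
      · exact (hob i j hij).2)
    (fun i j hij c hc k1 k2 => by
      by_cases e1 : c = B i
      · exact ⟨i, e1⟩
      by_cases e2 : c = B j
      · exact ⟨j, e2⟩
      obtain ⟨v, hv⟩ := hs (ψ c)
      have hc' : Rep (Rs X d) ψ c (a5 u u' t t' z v) := hv ▸ rep_self hc
      obtain ⟨a, b, x, y, w, rfl⟩ := vec5 v
      obtain ⟨k, k3⟩ := f5_max i j hij a b x y w (hg _ _ ▸ C.E.rep_norm hc')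
        (hg _ _ ▸ (C.E.rep_ob (hB i) hc').1 ⟨e1, k1⟩) (hg _ _ ▸ (C.E.rep_ob (hB j) hc').1 ⟨e2, k2⟩)
      refine ⟨k, k3.elim (fun k3 => C.E.rep_uniq (k3 ▸ hc') (hB k)) fun k3 =>
        C.E.rep_uniq (k3 ▸ hc') (hneg _ ▸ (hB k).neg)⟩) (ncm_symm ha.2)
  obtain ⟨k1, k2, k3, k4⟩ := f5_ex i
  obtain ⟨τ, hτ, -⟩ := C.exists_tt ha (hP (w5 i).1) (hPa _)
  obtain ⟨v, rfl⟩ := hs τ
  obtain ⟨a', b, x, y, w, rfl⟩ := vec5 v
  have hr := C.E.rep_rf (hP (w5 i).2.2.1) (hP (w5 i).2.2.2)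
  rw [hg, hadd] at hr
  have := k4 a' b x y w (hg _ _ ▸ hτ.sing) (hg _ _ ▸ hτ.perp)
    (hg _ _ ▸ (hτ.iff _ _ (hP _) (hg _ _ ▸ k2)).1 (hPa _))
    (hg _ _ ▸ (hτ.iff _ _ hr ((hg _ _).trans k3)).1 ((hPa _).rf_right (hPa _)))
    (hg _ _ ▸ (hτ.iff _ _ (hB i) (hg _ _ ▸ k1)).1 hi)
  exact hτ.ne (by rw [this]; simp [a5])

end OCtx

end Cfsg.Agent.H3.TTC
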