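import Cfsg.Agent.Fs.PO3b

/-! The common neighbours of two noncommuting points form a tangent hyperplane. -/

set_option autoImplicit false

namespace Cfsg.Agent.H3.TTC

open Matrix

variable {G : Type*} [Group G] {T : TTC G} {η : ZMod 3} {n : ℕ}
  {X : Set T.Pt} {ψ : T.Pt → Fin n → ZMod 3} {d a : T.Pt}

theorem z3_norm (x y : ZMod 3) (hy : y ≠ 0) : ∃ c : ZMod 3, x + c * y + (c * y + c * (c * 0)) = 1 := by
  revert x y; decide

theorem pm_of_smul {t t' : Fin n → ZMod 3} (h : t' ≠ 0) {c : ZMod 3} (e : t' = c • t) :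
    t' = t ∨ t' = -t := by
  rcases z3_cases c with rfl | rfl | rfl
  · exact absurd (by simpa using e) h
  · exact Or.inl (by simpa using e)
  · exact Or.inr (by simpa using e)

/-- the singular vector of a point noncommuting with `d` -/
structure Sv (η : ZMod 3) (Y : Set T.Pt) (ψ : T.Pt → Fin n → ZMod 3) (a : T.Pt)
    (s : Fin n → ZMod 3) : Prop where
  ne : s ≠ 0
  sing : b3 η s s = 0
  iff : ∀ y v, Rep Y ψ y v → (cm a y ↔ b3 η s v = 0)

namespace OCtx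

theorem tt_claim (C : OCtx η n X d ψ) (ha : a ∈ Nc X d) {e e' : T.Pt}
    {u u' t t' : Fin n → ZMod 3} (he : Rep (Rs X d) ψ e u) (he' : Rep (Rs X d) ψ e' u')
    (hae : cm a e) (hae' : cm a e') (huu : b3 η u u' = 0) (ht : Tt η (Rs X d) ψ a u t)
    (ht' : Tt η (Rs X d) ψ a u' t') : Tt η (Rs X d) ψ a u' t := by
  have u1 := C.E.rep_norm he
  have u2 := C.E.rep_norm he'
  have h1 : b3 η t u' = 0 := (ht.iff _ _ he' huu).1 hae'
  have h2 : b3 η t' u = 0 := (ht'.iff _ _ he (b3_comm u u' ▸ huu)).1 hae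
  have key : ∀ z, b3 η z z = 1 → b3 η u z = 0 → b3 η u' z = 0 → b3 η t z = 0 → b3 η t' z = 0 :=
    fun z k1 k2 k3 k4 => by
      obtain ⟨p, hp⟩ := C.E.rep_ex k1
      exact (ht'.iff p z hp k3).1 ((ht.iff p z hp k2).2 k4)
  by_cases htt : b3 η t t' = 0
  · by_cases hc : ∀ c : ZMod 3, t' ≠ c • t
    · exfalso
      obtain ⟨y, k1, k2, k3⟩ := o3_dual' C.hη (w := ![u, u']) (s := t) (z := t')
        (by simp [Fin.forall_fin_two, *]) (by simp [Fin.forall_fin_two, b3_comm u' u, *])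
        (by simp [Fin.forall_fin_two, ht.perp, h1]) (by simp [Fin.forall_fin_two, ht'.perp, h2]) hc
      have k4 : b3 η y u = 0 := k3 0
      have k5 : b3 η y u' = 0 := k3 1
      obtain ⟨c, hc⟩ := z3_norm (b3 η y y) 1 one_ne_zero
      have := key (y + c • t') (by simpa [k1, b3_comm t' y, ht'.sing] using hc)
        (by simp [b3_comm u, k4, h2]) (by simp [b3_comm u', k5, ht'.perp])
        (by simp [b3_comm t y, k2, htt])
      simp [b3_comm t' y, k1, ht'.sing] at this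
    · push Not at hc
      obtain ⟨c, hc⟩ := hc
      rcases pm_of_smul ht'.ne hc with e | e
      · exact e ▸ ht'
      · simpa [e] using ht'.neg
  exfalso
  by_cases hn : 6 ≤ n ∨ (n = 5 ∧ η = -1)
  · obtain ⟨z, z1, z2, z3, z4⟩ := o3_norm2 C.hη hn u1 (q := u') (by simp [u2]) huu ht.ne ht.sing
      ht.perp h1
    have a1 := key z (z1.trans u2) (b3_comm z u ▸ z3) (b3_comm z u' ▸ z4) (b3_comm z t ▸ z2)
    have a2 := key (z + t) (by simp [z1, u2, z2, b3_comm t z, ht.sing])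
      (by simp [b3_comm u, z3, ht.perp]) (by simp [b3_comm u', z4, h1])
      (by simp [b3_comm t z, z2, ht.sing])
    rw [b3_add_right, a1, zero_add, b3_comm] at a2
    exact htt a2
  rcases C.hn with h5 | ⟨-, -, h4⟩
  · obtain rfl : n = 5 := by omega
    obtain rfl : η = 1 := C.hη.resolve_right fun e => hn (Or.inr ⟨rfl, e⟩)
    rcases z3_cases (b3 1 t t') with e | e | e
    · exact htt e
    · exact C.not_a5 ha he he' hae hae' huu ht ht'.neg (by simp [e])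
    · exact C.not_a5 ha he he' hae hae' huu ht ht' e
  · obtain ⟨f, hf⟩ := C.E.rep_ex (v := u' + t) (by simp [u2, h1, b3_comm u' t, ht.sing])
    obtain ⟨g, hg⟩ := C.E.rep_ex (v := u + t') (by simp [u1, h2, b3_comm u t', ht'.sing])
    have f1 : b3 η u (u' + t) = 0 := by simp [huu, b3_comm u t, ht.perp]
    have g1 : b3 η u' (u + t') = 0 := by simp [huu, b3_comm u' u, b3_comm u' t', ht'.perp]
    have f2 := (C.E.rep_ob he hf).2 f1
    have g2 := (C.E.rep_ob he' hg).2 g1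
    have e2 := (C.E.rep_ob he he').2 huu
    have f3 : cm a f := (ht.iff _ _ hf f1).2 (by simp [h1, ht.sing])
    have g3 : cm a g := (ht'.iff _ _ hg g1).2 (by simp [h2, ht'.sing])
    have ne : ∀ {x x' : T.Pt} {v s s' : Fin n → ZMod 3}, Rep (Rs X d) ψ x v →
        Rep (Rs X d) ψ x' (v + s) → b3 η s' v = 0 → b3 η s' s ≠ 0 → b3 η s v = 0 → ¬ cm x x' := by
      intro x x' v s s' k1 k2 k3 k4 k5 k6
      have k7 : x' ≠ x := fun k => k4 (by
        have := ((k ▸ k2).zero_iff k1 s').2 k3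
        rwa [b3_add_right, k3, zero_add] at this)
      have := (C.E.rep_ob k1 k2).1 ⟨k7, k6⟩
      simp [C.E.rep_norm k1, b3_comm v s, k5] at this
    have n1 := ne he' hf ht'.perp (b3_comm t t' ▸ htt) h1
    have n2 := ne he hg ht.perp htt h2
    have := h4 d C.hd a ha f ⟨hf.1.1, hf.1.2.2, f3⟩ e ⟨he.1.1, he.1.2.2, hae⟩ e'
      ⟨he'.1.1, he'.1.2.2, hae'⟩ g ⟨hg.1.1, hg.1.2.2, g3⟩ f2.1 e2.1.symm g2.1.symm f2.2.symm e2.2
      g2.2 (ncm_symm n1) n2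
    refine htt ?_
    simpa [b3_comm u' u, huu, b3_comm u' t', ht'.perp, ht.perp] using
      (C.E.rep_ob hf hg).1 ⟨fun k => n2 (k ▸ f2.2), this⟩

theorem exists_sv [Finite G] (C : OCtx η n X d ψ) (ha : a ∈ Nc X d) :
    ∃ s, Sv η (Rs X d) ψ a s := by
  obtain ⟨e₀, k1, k2, hae₀⟩ := C.loc.1.exists_cm_cm C.hd ha.1
  have he₀ := rep_self (ψ := ψ) (mu_subset_rs ha.2 ⟨k1, k2, hae₀⟩)
  generalize ψ e₀ = u₀ at he₀
  clear k1 k2
  obtain ⟨t, ht, p, v, hp, p1, p2⟩ := C.exists_tt ha he₀ hae₀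
  have step : ∀ {e u y w}, Rep (Rs X d) ψ e u → cm a e → Tt η (Rs X d) ψ a u t →
      Rep (Rs X d) ψ y w → b3 η u w = 0 → b3 η t w = 0 → cm a y ∧ Tt η (Rs X d) ψ a w t := by
    intro e u y w he hae hu hy k1 k2
    have k3 := (hu.iff _ _ hy k1).2 k2
    obtain ⟨t', ht', -⟩ := C.exists_tt ha hy k3
    exact ⟨k3, C.tt_claim ha he hy hae k3 k1 hu ht'⟩
  obtain ⟨hap, htp⟩ := step he₀ hae₀ ht hp p1 p2
  have line : ∀ c : ZMod 3, ∃ f, Rep (Rs X d) ψ f (u₀ + c • t) ∧ cm a f ∧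
      Tt η (Rs X d) ψ a (u₀ + c • t) t := fun c => by
    obtain ⟨f, hf⟩ := C.E.rep_ex (v := u₀ + c • t)
      (by simp [C.E.rep_norm he₀, ht.sing, ht.perp, b3_comm u₀ t])
    exact ⟨f, hf, step hp hap htp hf (by simp [b3_comm v, p1, p2]) (by simp [ht.sing, ht.perp])⟩
  have sub : ∀ y w, Rep (Rs X d) ψ y w → cm a y → b3 η t w = 0 := fun y w hy hay => by
    by_contra hn
    obtain ⟨f, -, -, hf⟩ := line (-(b3 η u₀ w * b3 η t w))
    exact hn ((hf.iff y w hy (by simp [mul_assoc, z3_sq hn])).1 hay)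
  have all : ∀ e u, Rep (Rs X d) ψ e u → cm a e → Tt η (Rs X d) ψ a u t := fun e u he hae => by
    obtain ⟨t', ht', q, w, hq, q1, q2⟩ := C.exists_tt ha he hae
    have haq := (ht'.iff _ _ hq q1).2 q2
    obtain ⟨q', hq'⟩ := C.E.rep_ex (v := w + t')
      (by simp [C.E.rep_norm hq, ht'.sing, q2, b3_comm w t'])
    have h1 := sub _ _ hq' ((ht'.iff _ _ hq' (by simp [q1, b3_comm u t', ht'.perp])).2
      (by simp [q2, ht'.sing]))
    rw [b3_add_right, sub _ _ hq haq, zero_add] at h1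
    have h2 := sub _ _ he hae
    by_cases hc : ∀ c : ZMod 3, t ≠ c • t'
    · exfalso
      obtain ⟨y, k1, k2, k3⟩ := o3_dual' C.hη (w := ![u]) (s := t') (z := t)
        (by simp [C.E.rep_norm he]) (by simp) (by simp [ht'.perp]) (by simp [h2]) hc
      have k4 : b3 η y u = 0 := k3 0
      obtain ⟨c, hc⟩ := z3_norm (b3 η y y) 1 one_ne_zero
      obtain ⟨z, hz⟩ := C.E.rep_ex (v := y + c • t) (by simpa [k1, b3_comm t y, ht.sing] using hc)
      have := sub _ _ hz ((ht'.iff _ _ hz (by simp [b3_comm u, k4, h2])).2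
        (by simp [b3_comm t', k2, h1]))
      simp [b3_comm t y, k1, ht.sing] at this
    · push Not at hc
      obtain ⟨c, hc⟩ := hc
      rcases pm_of_smul ht.ne hc with e | e
      · exact e ▸ ht'
      · exact e ▸ ht'.neg
  refine ⟨t, ht.ne, ht.sing, fun z w hz => ⟨sub z w hz, fun hzt => ?_⟩⟩
  by_contra haz
  have N1 : ∀ {z w e u}, Rep (Rs X d) ψ z w → b3 η t w = 0 → ¬ cm a z → Rep (Rs X d) ψ e u →
      cm a e → b3 η u w ≠ 0 := fun hz k1 k2 he hae k3 =>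
    k2 (((all _ _ he hae).iff _ _ hz k3).2 k1)
  have N2 : ∀ {z w e u}, Rep (Rs X d) ψ z w → b3 η t w = 0 → ¬ cm a z → Rep (Rs X d) ψ e u →
      cm a e → ¬ cm a (z ◃ e) := by
    intro z w e u hz k1 k2 he hae
    refine ncm_rf_of_cm' k2 hae fun k => N1 hz k1 k2 he hae ((C.E.rep_ob he hz).1 ⟨?_, k.symm⟩)
    rintro rfl
    exact k2 hae
  have hy := C.E.rep_rf hz he₀
  have hy' := C.E.rep_rf hz hp
  have y1 := N2 hz hzt haz he₀ hae₀
  have y2 := N2 hz hzt haz hp hap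
  have y3 : b3 η t (u₀ + b3 η u₀ w • w) = 0 := by simp [ht.perp, hzt]
  have y4 : b3 η t (v + b3 η v w • w) = 0 := by simp [p2, hzt]
  have y5 : z ◃ p ≠ z ◃ e₀ ∧ cm (z ◃ e₀) (z ◃ p) := by
    have := (C.E.rep_ob he₀ hp).2 p1
    exact ⟨fun k => this.1 (rf_left_cancel k), (cm_rf _ _ _).2 this.2⟩
  generalize z ◃ e₀ = y, u₀ + b3 η u₀ w • w = y₀, z ◃ p = y', v + b3 η v w • w = y₁ at *
  obtain ⟨c, c0, c1, c2, c3, c4, c5, c6, c7, c8⟩ := d4 hy.1.2.2 hy'.1.2.2 y5.2 hy.1.2.1.symm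
    hy'.1.2.1.symm y5.1.symm (ncm_symm ha.2) y1 y2
  have hc : Rep (Rs X d) ψ c (ψ c) := rep_self ⟨c0 ▸ C.loc.1.cl _ ha.1 _ (C.loc.1.cl _ C.hd _
    (C.loc.1.cl _ hy.1.1 _ (C.loc.1.cl _ hy'.1.1 _ ha.1))), c4, c1⟩
  generalize ψ c = c₀ at hc
  have o1 := (C.E.rep_ob hy hy').1 y5
  have o2 := (C.E.rep_ob hy hc).1 ⟨c5, c2⟩
  have o3 := (C.E.rep_ob hy' hc).1 ⟨c6, c3⟩
  have n1 := C.E.rep_norm hy
  have n2 := C.E.rep_norm hy'
  have n3 := C.E.rep_norm hc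
  have hM : ∀ m x, Rep (Rs X d) ψ m x → cm a m → cm a (y ◃ y' ◃ c ◃ m) ∧
      Rep (Rs X d) ψ (y ◃ y' ◃ c ◃ m) (x + b3 η x c₀ • c₀ + b3 η x y₁ • y₁ + b3 η x y₀ • y₀) := by
    intro m x hm ham
    refine ⟨?_, (C.E.rep_rf hy (C.E.rep_rf hy' (C.E.rep_rf hc hm))).of_eq
      (by simp [b3_comm c₀ y₁, b3_comm c₀ y₀, b3_comm y₁ y₀, o1, o2, o3])⟩
    have : d ◃ a = y ◃ y' ◃ c ◃ a := by rw [← c8, rf_rf, c8]
    rw [← cm_rf d, this, hy.1.2.2.rf_rf_comm, hy'.1.2.2.rf_rf_comm, c1.rf_rf_comm, hm.1.2.2.rf_eq,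
      cm_rf, cm_rf, cm_rf]
    exact ham
  have ct : b3 η t c₀ = 0 := by
    obtain ⟨f, hf, haf, -⟩ := line 1
    have a1 := sub _ _ (hM _ _ he₀ hae₀).2 (hM _ _ he₀ hae₀).1
    have a2 := sub _ _ (hM _ _ hf haf).2 (hM _ _ hf haf).1
    simp only [b3_add_left, b3_add_right, b3_smul_left, b3_smul_right, ht.perp, ht.sing, y3,
      y4, mul_zero] at a1 a2
    revert a1 a2
    generalize b3 η u₀ c₀ = x
    generalize b3 η t c₀ = x'
    revert x x'; decide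
  have b1 := z3_sq (N1 hy y3 y1 he₀ hae₀)
  have b2 := z3_sq (N1 hy' y4 y2 he₀ hae₀)
  have b4 := z3_sq (N1 hc ct c7 he₀ hae₀)
  have n0 := C.E.rep_norm he₀
  obtain ⟨r, hr⟩ := C.E.rep_ex (v := u₀ - b3 η u₀ c₀ • c₀ - b3 η u₀ y₁ • y₁ - b3 η u₀ y₀ • y₀) (by
    simp [b3_comm c₀ y₁, b3_comm c₀ y₀, b3_comm y₁ y₀, b3_comm c₀ u₀, b3_comm y₁ u₀, b3_comm y₀ u₀,
      o1, o2, o3, n0, n1, n2, n3, b1, b2, b4]
    decide)
  have r1 : ¬ cm a r := fun k => N1 hy y3 y1 hr k (by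
    simp [b3_comm c₀ y₀, b3_comm y₁ y₀, o1, o2, n1])
  refine N2 hr (by simp [ht.perp, ct, y3, y4]) r1 he₀ hae₀ ?_
  rw [C.E.rep_uniq (C.E.rep_rf hr he₀) ((hM _ _ he₀ hae₀).2.neg.of_eq ?_)]
  · exact (hM _ _ he₀ hae₀).1
  · simp only [b3_sub_right, b3_smul_right, n0, b1, b2, b4]
    ext i
    simp only [Pi.add_apply, Pi.sub_apply, Pi.neg_apply, Pi.smul_apply, smul_eq_mul]
    generalize u₀ i = x1
    generalize b3 η u₀ c₀ * c₀ i = x2
    generalize b3 η u₀ y₁ * y₁ i = x3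
    generalize b3 η u₀ y₀ * y₀ i = x4
    revert x1 x2 x3 x4; decide

end OCtx

end Cfsg.Agent.H3.TTC
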