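import Cfsg.Agent.Fs.PUe

/-! Symplectic type. -/

set_option autoImplicit false
set_option linter.unusedSectionVars false

namespace Cfsg.Agent.H3.TTC

open Matrix Cfsg.Agent.H6

variable {G : Type*} [Group G] [Finite G] {T : TTC G} {X : Set T.Pt}

theorem sp_zmod {c : ZMod 2} (h : c ≠ 0) : c = 1 := by revert c; decide

theorem sp_two (x : ZMod 2) : x + x = 0 := by revert x; decide

theorem sp_alt {n : ℕ} (v : Fin n ⊕ Fin n → ZMod 2) :
    sf ((RingEquiv.refl (ZMod 2) : ZMod 2 ≃+* ZMod 2) : ZMod 2 →+* ZMod 2) (J (Fin n) (ZMod 2)) v v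
      = 0 := isAlt_J v

theorem sp_fm (n : ℕ) : UeFm (RingEquiv.refl (ZMod 2)) (J (Fin n) (ZMod 2)) where
  det := det_J_ne_zero
  herm u v := by
    have := (isAlt_J (κ := Fin n) (F := ZMod 2)).swap u v
    rw [CharTwo.neg_eq] at this
    exact this
  two := sp_two
  nrm c hc := by rw [sp_zmod hc]; rfl
  iso_add a v _ _ := ⟨0, sp_alt _⟩

theorem sp_par {ι : Type*} {u v : ι → ZMod 2} (h : Par u v) : u = v := by
  obtain ⟨c, hc, rfl⟩ := h
  rw [sp_zmod hc, one_smul]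

theorem SpE.card {n : ℕ} (h : SpE n X) : X.ncard + 1 = 4 ^ n := by
  obtain ⟨ψ, h⟩ := h
  have := h.count' (fun _ => True) (fun _ _ _ _ => trivial) trivial (Y := X) (by simp)
  rw [ZMod.card, Nat.card_congr (Equiv.subtypeUnivEquiv fun v => ⟨sp_alt v, trivial⟩),
    Nat.card_eq_fintype_card] at this
  simp only [Fintype.card_pi, ZMod.card, Finset.prod_const, Finset.card_univ, Fintype.card_sum,
    Fintype.card_fin] at this
  rw [show (4 : ℕ) = 2 ^ 2 from rfl, ← pow_mul, two_mul]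
  omega

/-- extension by zero -/
def spExt (n : ℕ) : (Fin n ⊕ Fin n → ZMod 2) →ₗ[ZMod 2] (Fin (n + 1) ⊕ Fin (n + 1) → ZMod 2) where
  toFun u := Sum.elim (Fin.cons 0 fun i => u (Sum.inl i)) (Fin.cons 0 fun i => u (Sum.inr i))
  map_add' u v := by
    funext i
    rcases i with i | i <;> refine Fin.cases ?_ (fun i => ?_) i <;> simp
  map_smul' c u := by
    funext i
    rcases i with i | i <;> refine Fin.cases ?_ (fun i => ?_) i <;> simp

theorem sp_form {n : ℕ} (u v : Fin n ⊕ Fin n → ZMod 2) :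
    sf ((RingEquiv.refl (ZMod 2) : ZMod 2 ≃+* ZMod 2) : ZMod 2 →+* ZMod 2) (J (Fin n) (ZMod 2)) u v
      = ∑ i, (u (Sum.inl i) * v (Sum.inr i) + u (Sum.inr i) * v (Sum.inl i)) := by
  simp [sf, J, dotProduct, mulVec, Fintype.sum_sum_type, one_apply, Finset.sum_add_distrib,
    CharTwo.neg_eq]

theorem SpE.mu {n : ℕ} (h : SpE (n + 1) X) {d a : T.Pt} (hd : d ∈ X) (ha : a ∈ Nc X d) :
    SpE n (Mu X d a) := by
  obtain ⟨ψ, h⟩ := h
  have h1 : bf (J (Fin (n + 1)) (ZMod 2)) (ψ d) (ψ a) = 1 :=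
    sp_zmod fun h0 => ha.2 ((h.cm_iff d hd a ha.1).2 h0)
  have h2 : bf (J (Fin (n + 1)) (ZMod 2)) (ψ a) (ψ d) = 1 :=
    sp_zmod fun h0 => ha.2 ((h.cm_iff a ha.1 d hd).2 h0).symm
  obtain ⟨e, he0, he⟩ := exists_hyp_ext (isAlt_J (κ := Fin (n + 1)) (F := ZMod 2)) det_J_ne_zero
    (κ := Fin (n + 1)) (by simp [two_mul]) {0} (Sum.elim (fun _ => ψ d) (fun _ => ψ a)) (by
      rintro (i | i) (j | j) hi hj <;> simp only [Sum.elim_inl, Sum.elim_inr, id,
        Finset.mem_singleton] at hi hj ⊢ <;> subst hi hj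
      · exact (isAlt_J _).trans (by simp [J])
      · rw [h1]; simp [J, CharTwo.neg_eq]
      · rw [h2]; simp [J]
      · exact (isAlt_J _).trans (by simp [J]))
  obtain ⟨g, hg1, hg2⟩ := exists_gl_of_gram det_J_ne_zero he
  obtain ⟨φ, h', e'⟩ := h.restrict (B := J (Fin (n + 1)) (ZMod 2)) (g.1.mulVecLin)
    (fun u v huv => by
      have := congrArg ((g⁻¹).1 *ᵥ ·) huv
      simpa using this)
    (fun u v => by
      change sf (RingHom.id _) _ (g.1 *ᵥ u) (g.1 *ᵥ v) = _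
      rw [sf_mulVec, hg2]; rfl) (Y := X)
    (fun p => ⟨fun hp => ⟨hp, (g⁻¹).1 *ᵥ ψ p, by simp⟩, fun hp => hp.1⟩)
  have k : ∀ p ∈ X, ∀ i, ψ p = e i → φ p = Pi.single i 1 := fun p hp i hi => by
    have h3 := e' p hp
    rw [hi, ← hg1] at h3
    have := congrArg ((g⁻¹).1 *ᵥ ·) h3
    simp only [mulVecLin_apply, mulVec_mulVec, Units.inv_mul, one_mulVec] at this
    rw [this]
    have h4 : (fun k => g.1 k i) = g.1 *ᵥ Pi.single i 1 := by ext k; simp
    rw [h4, mulVec_mulVec, Units.inv_mul, one_mulVec]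
  have kd := k d hd (Sum.inl 0) (he0 (Sum.inl 0) (by simp)).symm
  have ka := k a ha.1 (Sum.inr 0) (he0 (Sum.inr 0) (by simp)).symm
  obtain ⟨χ, h'', -⟩ := h'.restrict (B := J (Fin n) (ZMod 2)) (spExt n)
    (fun u v huv => by
      funext i
      rcases i with i | i
      · exact congrFun huv (Sum.inl i.succ)
      · exact congrFun huv (Sum.inr i.succ))
    (fun u v => by rw [sp_form, sp_form]; simp [spExt, Fin.sum_univ_succ]) (Y := Mu X d a)
    (fun p => and_congr_right fun hp => by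
      rw [h'.cm_iff d hd p hp, h'.cm_iff a ha.1 p hp, kd, ka, sp_form, sp_form]
      simp only [Pi.single_apply, Sum.inl.injEq, Sum.inr.injEq, reduceCtorEq, if_false, zero_mul,
        add_zero, zero_add, ite_mul, one_mul, Finset.sum_ite_eq', Finset.mem_univ, if_true]
      constructor
      · rintro ⟨h3, h4⟩
        refine ⟨Sum.elim (fun i => φ p (Sum.inl i.succ)) (fun i => φ p (Sum.inr i.succ)), ?_⟩
        funext i
        rcases i with i | i <;> refine Fin.cases ?_ (fun i => ?_) i <;> simp [spExt, h3, h4]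
      · rintro ⟨u, hu⟩
        rw [← hu]
        simp [spExt])
  exact ⟨χ, h''⟩

theorem SpE.st {n : ℕ} (h : SpE n X) (hn : 2 ≤ n) : St X := by
  obtain ⟨n, rfl⟩ := Nat.exists_eq_add_of_le' hn
  have h0 := h.card
  obtain ⟨ψ, h'⟩ := id h
  refine h'.st (sp_fm _) (Set.nonempty_of_ncard_ne_zero fun e => ?_) fun a ha b hb hab => ?_
  · rw [e, pow_succ] at h0; omega
  · have h1 := (h.mu ha ⟨hb, hab⟩).card
    obtain ⟨c, h2, h3, h4⟩ := Set.nonempty_of_ncard_ne_zero (s := Mu X a b) fun e => by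
      rw [e, pow_succ] at h1; omega
    exact ⟨c, h2, h3.symm, h4.symm⟩

theorem SpE.two_le {n : ℕ} (h : SpE n X) (hs : St X) : 2 ≤ n := by
  obtain ⟨a, ha, b, hb, hab⟩ := hs.ex_ncm
  by_contra hn
  obtain rfl | rfl : n = 0 ∨ n = 1 := by omega
  · have := h.card
    rw [pow_zero, Nat.add_eq_right, Set.ncard_eq_zero] at this
    exact this.subset ha
  · have := (h.mu ha ⟨hb, hab⟩).card
    rw [pow_zero, Nat.add_eq_right, Set.ncard_eq_zero] at this
    obtain ⟨u, h1, h2, h3⟩ := hs.exists_cm_cm ha hb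
    exact this.subset ⟨h1, h2, h3⟩

theorem SpE.card_rs {n : ℕ} (h : SpE (n + 1) X) {d : T.Pt} (hd : d ∈ X) :
    (Rs X d).ncard + 2 = 2 * 4 ^ n := by
  obtain ⟨ψ, h'⟩ := id h
  obtain ⟨a, ha⟩ := h'.exists_ncm (sp_fm _) hd
  have h1 := h'.card_rs (sp_fm _) hd ha
  rw [ZMod.card] at h1
  have h2 := (h.mu hd ha).card
  omega

/-- the images of the unit vectors -/
def spU : Fin 6 → Fin 2 ⊕ Fin 2 → ZMod 2 :=
  ![Sum.elim ![0, 0] ![0, 0], Sum.elim ![1, 0] ![0, 0], Sum.elim ![1, 0] ![1, 0],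
    Sum.elim ![0, 0] ![1, 1], Sum.elim ![0, 1] ![1, 1], Sum.elim ![0, 1] ![1, 0]]

/-- the form in dimension four -/
def spB (u v : Fin 2 ⊕ Fin 2 → ZMod 2) : ZMod 2 :=
  ∑ i, (u (Sum.inl i) * v (Sum.inr i) + u (Sum.inr i) * v (Sum.inl i))

theorem sp_t1 : ∀ i j, i ≠ j → spU i + spU j ≠ 0 := by decide +kernel

theorem sp_t2 : ∀ v : Fin 2 ⊕ Fin 2 → ZMod 2, v ≠ 0 → ∃ i j, i ≠ j ∧ spU i + spU j = v := by
  decide +kernel

theorem sp_t3 : ∀ i j k l, i ≠ j → k ≠ l → spU i + spU j = spU k + spU l →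
    (i = k ∧ j = l) ∨ (i = l ∧ j = k) := by decide +kernel

set_option synthInstance.maxSize 1000 in
theorem sp_t4 : ∀ i j k l, i ≠ j → k ≠ l → i ≠ k → i ≠ l → j ≠ k → j ≠ l →
    spB (spU i + spU j) (spU k + spU l) = 0 := by decide +kernel

theorem sp_t5 : ∀ i j k, i ≠ j → j ≠ k → i ≠ k →
    spU j + spU k + spB (spU j + spU k) (spU i + spU j) • (spU i + spU j) = spU i + spU k := by
  decide +kernel

theorem SpE.sye (h : SpE 2 X) : SyE 6 X := by
  classical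
  obtain ⟨ψ, h⟩ := h
  obtain ⟨x0, -, -⟩ := h.surj _ (sp_t1 0 1 (by decide)) (sp_alt _)
  let pt : (Fin 2 ⊕ Fin 2 → ZMod 2) → T.Pt := fun v =>
    if hv : v ≠ 0 then (h.surj v hv (sp_alt _)).choose else x0
  have hpt : ∀ v, v ≠ 0 → pt v ∈ X ∧ ψ (pt v) = v := fun v hv => by
    simp only [pt, dif_pos hv]
    exact ⟨(h.surj v hv (sp_alt _)).choose_spec.1, sp_par (h.surj v hv (sp_alt _)).choose_spec.2⟩
  have k := fun i j hij => hpt _ (sp_t1 i j hij)
  refine ⟨fun i j => pt (spU i + spU j), fun i j hij => (k i j hij).1, fun i j => by rw [add_comm],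
    fun x hx => ?_, fun i j k' l h1 h2 e => sp_t3 i j k' l h1 h2 ?_,
    fun i j k' l h1 h2 h3 h4 h5 h6 => ?_, fun i j k' h1 h2 h3 => ?_⟩
  · obtain ⟨i, j, hij, e⟩ := sp_t2 _ (h.ne x hx)
    exact ⟨i, j, hij, h.inj _ (k i j hij).1 x hx (by rw [(k i j hij).2, e]; exact Par.refl _)⟩
  · rw [← (k i j h1).2, ← (k k' l h2).2, e]
  · rw [h.cm_iff _ (k i j h1).1 _ (k k' l h2).1, (k i j h1).2, (k k' l h2).2, sp_form]
    exact sp_t4 i j k' l h1 h2 h3 h4 h5 h6
  · refine h.inj _ (h.cl _ (k i j h1).1 _ (k j k' h2).1) _ (k i k' h3).1 ?_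
    have := h.rf _ (k i j h1).1 _ (k j k' h2).1
    rw [(k i j h1).2, (k j k' h2).2, sp_form] at this
    rw [(k i k' h3).2, ← sp_t5 i j k' h1 h2 h3]
    exact this.symm

theorem SpE.top {n : ℕ} (h : SpE n (Set.univ : Set T.Pt)) (hs : St (Set.univ : Set T.Pt))
    (hZ : Subgroup.center G = ⊥) : Nonempty (G ≃* Matrix.symplecticGroup (Fin n) (ZMod 2)) := by
  obtain ⟨ψ, h⟩ := h
  exact h.uemb.equiv_sp (st_univ_iff.1 hs) hZ

end Cfsg.Agent.H3.TTC
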