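import Cfsg.Agent.Fs.IBase
import Mathlib.LinearAlgebra.Matrix.Permutation
import Mathlib.LinearAlgebra.Trace
import Mathlib.LinearAlgebra.Determinant
import Mathlib.Analysis.SpecialFunctions.Sqrt

/-! Spectral lemmas for the commuting graph. -/

set_option autoImplicit false

namespace Cfsg.Agent.H3.TTC

open Matrix

theorem spec_idem_lin {V : Type*} [AddCommGroup V] [Module ℝ V] [FiniteDimensional ℝ V]
    (F : V →ₗ[ℝ] V) (hF : F ∘ₗ F = F) :
    ∃ n : ℕ, LinearMap.trace ℝ V F = n ∧ LinearMap.det (1 - (2 : ℝ) • F) = (-1) ^ n := by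
  have h : LinearMap.IsProj (LinearMap.range F) F :=
    ⟨fun x => ⟨x, rfl⟩, by rintro _ ⟨x, rfl⟩; exact congrArg (fun f => f x) hF⟩
  refine ⟨_, h.trace, ?_⟩
  let e := (LinearMap.range F).prodEquivOfIsCompl (LinearMap.ker F) h.isCompl
  have h1 : 1 - (2 : ℝ) • F = e.toLinearMap ∘ₗ
      (LinearMap.prodMap ((-1 : ℝ) • LinearMap.id) LinearMap.id) ∘ₗ e.symm.toLinearMap := by
    ext x
    obtain ⟨⟨a, b⟩, rfl⟩ := e.surjective x
    have ha : F a = a := h.map_id a a.2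
    have hb : F b = 0 := b.2
    simp only [LinearMap.comp_apply, LinearEquiv.coe_coe, LinearEquiv.symm_apply_apply]
    simp only [LinearMap.sub_apply, Module.End.one_apply, LinearMap.smul_apply,
      LinearMap.prodMap_apply, LinearMap.id_apply, e, Submodule.coe_prodEquivOfIsCompl', map_add,
      ha, hb, neg_smul, one_smul, Submodule.coe_neg]
    module
  rw [h1, LinearMap.det_conj, LinearMap.det_prodMap, LinearMap.det_smul, LinearMap.det_id,
    LinearMap.det_id, mul_one, mul_one]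

theorem spec_idem {ι : Type*} [Fintype ι] [DecidableEq ι] (F : Matrix ι ι ℝ) (hF : F * F = F) :
    ∃ n : ℕ, F.trace = n ∧ (1 - (2 : ℝ) • F).det = (-1) ^ n := by
  obtain ⟨n, h1, h2⟩ := spec_idem_lin (toLin' F) (by rw [← toLin'_mul, hF])
  refine ⟨n, by rw [← h1, trace_toLin'_eq], ?_⟩
  rw [← h2, ← LinearMap.det_toLin', map_sub, map_smul, toLin'_one]
  rfl

theorem spec_core {ι : Type*} [Fintype ι] [DecidableEq ι] [Nonempty ι] (A : Matrix ι ι ℝ)
    {k mu r s : ℝ} (hrs : r ≠ s)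
    (hA : A * A = (r + s) • A - (r * s) • (1 : Matrix ι ι ℝ) + mu • of fun _ _ => (1 : ℝ))
    (hJ : A * (of fun _ _ => (1 : ℝ) : Matrix ι ι ℝ) = k • of fun _ _ => (1 : ℝ))
    (hJ' : (of fun _ _ => (1 : ℝ) : Matrix ι ι ℝ) * A = k • of fun _ _ => (1 : ℝ))
    (hk : (k - r) * (k - s) = mu * Fintype.card ι) (htr : A.trace = 0) :
    ∃ χ : Equiv.Perm ι → ℝ, χ 1 = 1 ∧
      (∀ σ τ : Equiv.Perm ι, (∀ x y, A (σ x) (σ y) = A x y) → χ (σ * τ) = χ σ * χ τ) ∧
      ∀ σ : Equiv.Perm ι, (∀ x y, A (σ x) (σ y) = A x y) → σ * σ = 1 → (∀ x, A x (σ x) = 0) →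
        ∃ n : ℕ, 2 * n * (s - r) = (Finset.univ.filter fun x => σ x ≠ x).card * s ∧
          χ σ = (-1) ^ n := by
  set J : Matrix ι ι ℝ := of fun _ _ => (1 : ℝ) with hJdef
  have hv : (Fintype.card ι : ℝ) ≠ 0 := Nat.cast_ne_zero.mpr Fintype.card_ne_zero
  have hJJ : J * J = (Fintype.card ι : ℝ) • J := by
    ext x y; simp [J, mul_apply]
  have hrs' : r - s ≠ 0 := sub_ne_zero.mpr hrs
  let E : Matrix ι ι ℝ := (r - s)⁻¹ • (A - s • 1 - ((k - s) / Fintype.card ι) • J)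
  have hE : E * E = E := by
    simp only [E, Matrix.smul_mul, Matrix.mul_smul, Matrix.sub_mul, Matrix.mul_sub, Matrix.one_mul,
      Matrix.mul_one, hA, hJ, hJ', hJJ]
    have : mu = (k - r) * (k - s) / Fintype.card ι := by rw [hk]; field_simp
    rw [this]
    match_scalars <;> field_simp <;> ring
  have hPJ : ∀ σ : Equiv.Perm ι, σ.permMatrix ℝ * J = J := fun σ => by
    rw [Equiv.Perm.permMatrix, PEquiv.toMatrix_toPEquiv_mul]; rfl
  have hJP : ∀ σ : Equiv.Perm ι, J * σ.permMatrix ℝ = J := fun σ => by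
    rw [Equiv.Perm.permMatrix, PEquiv.mul_toMatrix_toPEquiv]; rfl
  have hc : ∀ σ : Equiv.Perm ι, (∀ x y, A (σ x) (σ y) = A x y) →
      σ.permMatrix ℝ * E = E * σ.permMatrix ℝ := fun σ hσ => by
    have h1 : σ.permMatrix ℝ * A = A * σ.permMatrix ℝ := by
      rw [Equiv.Perm.permMatrix, PEquiv.toMatrix_toPEquiv_mul, PEquiv.mul_toMatrix_toPEquiv]
      ext x y
      simp only [submatrix_apply, id]
      rw [← hσ x, Equiv.apply_symm_apply]
    simp only [E, Matrix.smul_mul, Matrix.mul_smul, Matrix.sub_mul, Matrix.mul_sub, Matrix.one_mul,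
      Matrix.mul_one, h1, hPJ, hJP]
  refine ⟨fun σ => (σ.permMatrix ℝ * E + 1 - E).det, by simp, fun σ τ hσ => ?_,
    fun σ hσ h2 h0 => ?_⟩
  · simp only
    rw [mul_comm, ← det_mul, permMatrix_mul]
    congr 1
    have h1 : E * (σ.permMatrix ℝ * E) = σ.permMatrix ℝ * E := by
      rw [← Matrix.mul_assoc, ← hc σ hσ, Matrix.mul_assoc, hE]
    simp only [Matrix.sub_mul, Matrix.mul_sub, Matrix.add_mul, Matrix.mul_add, Matrix.one_mul,
      Matrix.mul_one, Matrix.mul_assoc, h1, hE]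
    abel
  · have hP : σ.permMatrix ℝ * σ.permMatrix ℝ = 1 := by rw [← permMatrix_mul, h2, permMatrix_one]
    obtain ⟨n, h3, h4⟩ := spec_idem ((2 : ℝ)⁻¹ • (E * (1 - σ.permMatrix ℝ))) (by
      have h5 : (1 - σ.permMatrix ℝ) * E = E * (1 - σ.permMatrix ℝ) := by
        rw [Matrix.sub_mul, Matrix.mul_sub, hc σ hσ, Matrix.one_mul, Matrix.mul_one]
      rw [Matrix.smul_mul, Matrix.mul_smul, Matrix.mul_assoc, ← Matrix.mul_assoc _ E, h5,
        ← Matrix.mul_assoc, ← Matrix.mul_assoc, hE, Matrix.mul_assoc, Matrix.sub_mul,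
        Matrix.mul_sub (σ.permMatrix ℝ), hP, Matrix.one_mul, Matrix.mul_one]
      simp only [Matrix.mul_sub, Matrix.mul_one]
      module)
    refine ⟨n, ?_, ?_⟩
    · have h5 : (A * σ.permMatrix ℝ).trace = 0 := by
        rw [Equiv.Perm.permMatrix, PEquiv.mul_toMatrix_toPEquiv, trace]
        refine Finset.sum_eq_zero fun x _ => ?_
        have : σ.symm x = σ x := by
          rw [Equiv.symm_apply_eq, ← Equiv.Perm.mul_apply, h2, Equiv.Perm.one_apply]
        simp [this, h0]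
      have h6 : (1 - σ.permMatrix ℝ).trace = (Finset.univ.filter fun x => σ x ≠ x).card := by
        rw [trace, Finset.card_filter, Nat.cast_sum]
        refine Finset.sum_congr rfl fun x _ => ?_
        by_cases hx : σ x = x <;> simp [hx, PEquiv.toMatrix_apply]
      rw [← h3, ← h6]
      simp only [E, Matrix.smul_mul, Matrix.sub_mul, Matrix.mul_sub, Matrix.one_mul,
        Matrix.mul_one, hJP, trace_smul, trace_sub, htr, h5, smul_eq_mul]
      field_simp
      ring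
    · simp only
      rw [← h4]
      congr 1
      rw [Matrix.mul_sub, Matrix.mul_one, hc σ hσ]
      module

variable {G : Type*} [Group G] [Finite G] {T : TTC G} {X : Set T.Pt}

theorem Srg.spec_real {v k lam mu l : ℕ} (h : Srg X v k lam mu) (hl : v = 1 + k + l) {r s : ℝ}
    (hrs : r ≠ s) (h1 : r + s = lam - mu) (h2 : r * s = mu - k) :
    ∃ n : ℕ, 2 * n * (s - r) = l * s ∧ (Odd n → Sg X) := by
  classical
  have := Fintype.ofFinite X
  obtain ⟨d₀, hd₀⟩ := h.st.cn.ne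
  have : Nonempty X := ⟨⟨d₀, hd₀⟩⟩
  let A : Matrix X X ℝ := of fun x y => if (y : T.Pt) ≠ x ∧ cm (x : T.Pt) y then 1 else 0
  have hcard : ∀ (p : T.Pt → Prop) {_ : DecidablePred fun z : X => p z} (S : Set T.Pt),
      (∀ x, x ∈ S ↔ x ∈ X ∧ p x) →
      ((Finset.univ.filter fun z : X => p z).card : ℝ) = S.ncard := fun p _ S hS => by
    rw [← Set.ncard_coe_finset, ← Set.ncard_image_of_injective _ Subtype.val_injective]
    congr 2
    ext x
    simp [hS, and_comm]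
  have hsum : ∀ x : X, ∑ y, A x y = k := fun x => by
    simp only [A, of_apply, Finset.sum_boole]
    rw [hcard (fun y => y ≠ x ∧ cm (x : T.Pt) y) (Rs X x) fun _ => Iff.rfl, h.rs x x.2]
  have hsymm : ∀ x y, A x y = A y x := fun x y => by
    simp only [A, of_apply, ne_comm (a := (y : T.Pt)), cm_comm (a := (x : T.Pt))]
  have hv : (Fintype.card X : ℝ) = v := by
    rw [← h.card, ← Nat.card_eq_fintype_card]; rfl
  obtain ⟨l', j, e1, e2, e3, -⟩ := h.count
  obtain rfl : l = l' := by omega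
  obtain ⟨χ, c1, c2, c3⟩ := spec_core A (k := k) (mu := mu) hrs (by
      ext x y
      have e : (A * A) x y = (Finset.univ.filter fun z : X => ((z : T.Pt) ≠ x ∧ cm (x : T.Pt) z) ∧
          ((z : T.Pt) ≠ y ∧ cm (y : T.Pt) z)).card := by
        rw [mul_apply, Finset.card_filter, Nat.cast_sum]
        refine Finset.sum_congr rfl fun z _ => ?_
        rw [hsymm z y]
        simp only [A, of_apply, ite_and, Nat.cast_ite, Nat.cast_one, Nat.cast_zero]
        split_ifs <;> simp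
      rw [e, h1, h2]
      by_cases hxy : x = y
      · subst hxy
        rw [hcard (fun z => (z ≠ x ∧ cm (x : T.Pt) z) ∧ (z ≠ x ∧ cm (x : T.Pt) z)) (Rs X x)
          fun _ => by rw [and_self]; rfl, h.rs x x.2]
        simp [A]
      · have hxy' : (y : T.Pt) ≠ x := fun e => hxy (Subtype.ext e.symm)
        by_cases hc : cm (x : T.Pt) y
        · rw [hcard (fun z => (z ≠ x ∧ cm (x : T.Pt) z) ∧ (z ≠ y ∧ cm (y : T.Pt) z))
            (Rs (Rs X x) y) fun _ => and_assoc, h.lam x x.2 y ⟨y.2, hxy', hc⟩]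
          simp [A, hxy, hxy', hc]
        · rw [hcard (fun z => (z ≠ x ∧ cm (x : T.Pt) z) ∧ (z ≠ y ∧ cm (y : T.Pt) z))
            (Mu X x y) fun z => ⟨fun hz => ⟨hz.1, ⟨fun e => hc (e ▸ hz.2.2).symm, hz.2.1⟩,
              fun e => hc (e ▸ hz.2.1), hz.2.2⟩, fun hz => ⟨hz.1, hz.2.1.2, hz.2.2.2⟩⟩,
            h.mu x x.2 y ⟨y.2, hc⟩]
          simp [A, hxy, hc])
    (by ext x y; simp [mul_apply, hsum])
    (by ext x y; simp [mul_apply, hsymm _ y, hsum])
    (by
      have f1 : (v : ℝ) = 1 + k + l := by exact_mod_cast e1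
      have f2 : (k : ℝ) = 1 + lam + j := by exact_mod_cast e2
      have f3 : (k : ℝ) * j = mu * l := by exact_mod_cast e3
      rw [hv, f1]
      linear_combination (-(k : ℝ)) * h1 + h2 + f3 + k * f2)
    (by simp [trace, A])
  let σ : X → Equiv.Perm X := fun d => Function.Involutive.toPerm
    (fun x => ⟨(d : T.Pt) ◃ x, h.st.cl d d.2 x x.2⟩) fun x => Subtype.ext (rf_rf _ _)
  have hσ : ∀ d x : X, (σ d x : T.Pt) = (d : T.Pt) ◃ x := fun _ _ => rfl
  have a1 : ∀ d x y, A (σ d x) (σ d y) = A x y := fun d x y => by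
    have : (d : T.Pt) ◃ y ≠ (d : T.Pt) ◃ x ↔ (y : T.Pt) ≠ x :=
      ⟨fun h e => h (e ▸ rfl), fun h e => h (rf_left_cancel e)⟩
    simp only [A, of_apply, hσ, cm_rf, this]
  have c4 : ∀ d : X, ∃ n : ℕ, 2 * n * (s - r) = l * s ∧ χ (σ d) = (-1) ^ n := fun d => by
    obtain ⟨n, f1, f2⟩ := c3 (σ d) (a1 d) (Equiv.ext fun x => Subtype.ext (rf_rf _ _)) fun x => by
      simp only [A, of_apply, hσ, ite_eq_right_iff, one_ne_zero, imp_false, not_and]
      intro f1 f2
      by_cases hc : cm (d : T.Pt) x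
      · exact f1 hc.rf_eq
      · exact cm_rf_self_right hc f2
    refine ⟨n, ?_, f2⟩
    have f3 := h.nc d.2
    rw [f1, Finset.filter_congr (q := fun x : X => ¬ cm (d : T.Pt) x) fun x _ => by
      rw [cm_iff_rf_eq, Ne, Subtype.ext_iff, hσ],
      hcard (fun x => ¬ cm (d : T.Pt) x) (Nc X d) fun _ => Iff.rfl,
      show (Nc X d).ncard = l by omega]
  obtain ⟨n, hn, -⟩ := c4 ⟨d₀, hd₀⟩
  refine ⟨n, hn, fun hodd L hL hprod => ?_⟩
  have c5 : ∀ d : X, χ (σ d) = -1 := fun d => by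
    obtain ⟨m, f1, f2⟩ := c4 d
    have f3 : (m : ℝ) = n := by
      have := mul_right_cancel₀ (sub_ne_zero.mpr hrs.symm) (f1.trans hn.symm)
      linarith
    rw [f2, Nat.cast_injective f3, hodd.neg_one_pow]
  have key : ∀ L : List T.Pt, (∀ x ∈ L, x ∈ X) → ∃ τ : Equiv.Perm X,
      (∀ x, (τ x : T.Pt) = (L.map Pt.val).prod • (x : T.Pt)) ∧ χ τ = (-1) ^ L.length := by
    intro L
    induction L with
    | nil => exact fun _ => ⟨1, fun x => by simp, by simp [c1]⟩
    | cons d L ih =>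
      intro hL
      obtain ⟨τ, f1, f2⟩ := ih fun x hx => hL x (List.mem_cons_of_mem _ hx)
      refine ⟨σ ⟨d, hL d List.mem_cons_self⟩ * τ, fun x => ?_, ?_⟩
      · rw [Equiv.Perm.mul_apply, hσ, f1, List.map_cons, List.prod_cons, mul_smul, rf_def]
      · rw [c2 _ _ (a1 _), c5, f2, List.length_cons, pow_succ']
  obtain ⟨τ, f1, f2⟩ := key L hL
  rw [show τ = 1 from Equiv.ext fun x => Subtype.ext (by rw [f1, hprod, one_smul]; rfl), c1] at f2
  exact (neg_one_pow_eq_one_iff_even (by norm_num)).mp f2.symm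

theorem Srg.spec {v k lam mu l : ℕ} (h : Srg X v k lam mu) (hl : v = 1 + k + l) {r s : ℤ}
    (hrs : r ≠ s) (h1 : r + s = lam - mu) (h2 : r * s = mu - k) :
    ∃ n : ℕ, 2 * n * (s - r) = l * s ∧ (Odd n → Sg X) := by
  obtain ⟨n, h3, h4⟩ := h.spec_real hl (r := r) (s := s) (by exact_mod_cast hrs)
    (by exact_mod_cast h1) (by exact_mod_cast h2)
  exact ⟨n, by exact_mod_cast h3, h4⟩

theorem Srg.int1 {v k lam mu : ℕ} (h : Srg X v k lam mu)
    (hsq : ¬ IsSquare (((lam : ℤ) - mu) ^ 2 + 4 * (k - mu))) : lam = mu := by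
  obtain ⟨l, j, e1, -, -, -, e4, e5, -⟩ := h.count
  by_contra hne
  set D : ℤ := ((lam : ℤ) - mu) ^ 2 + 4 * (k - mu) with hD
  have hD0 : 0 ≤ D := by
    have : (mu : ℤ) ≤ k := by exact_mod_cast e4
    positivity
  have hD1 : D ≠ 0 := fun e => hsq (e ▸ IsSquare.zero)
  have hq : √(D : ℝ) ^ 2 = D := Real.sq_sqrt (by exact_mod_cast hD0)
  have hq0 : √(D : ℝ) ≠ 0 := fun e => hD1 (by rw [e] at hq; exact_mod_cast (by linarith : (D : ℝ) = 0))
  have hDr : (D : ℝ) = ((lam : ℝ) - mu) ^ 2 + 4 * (k - mu) := by rw [hD]; push_cast; ring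
  obtain ⟨n, h1, -⟩ := h.spec_real e1 (r := (lam - mu + √(D : ℝ)) / 2)
    (s := (lam - mu - √(D : ℝ)) / 2) (fun e => hq0 (by linarith)) (by ring)
    (by linear_combination (-1 / 4 : ℝ) * hq - (1 / 4 : ℝ) * hDr)
  obtain ⟨m, h2, -⟩ := h.spec_real e1 (r := (lam - mu - √(D : ℝ)) / 2)
    (s := (lam - mu + √(D : ℝ)) / 2) (fun e => hq0 (by linarith)) (by ring)
    (by linear_combination (-1 / 4 : ℝ) * hq - (1 / 4 : ℝ) * hDr)
  have h3 : 2 * ((m : ℝ) - n) * √(D : ℝ) = l * (lam - mu) := by linear_combination h1 + h2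
  have h4 : (2 * ((m : ℝ) - n)) ≠ 0 := fun e => by
    rw [e, zero_mul, eq_comm, mul_eq_zero, sub_eq_zero] at h3
    rcases h3 with h3 | h3
    · exact e5.ne' (by exact_mod_cast h3)
    · exact hne (by exact_mod_cast h3)
  refine hsq (Rat.isSquare_intCast_iff.mp ⟨l * (lam - mu) / (2 * ((m : ℚ) - n)), ?_⟩)
  have h5 : (D : ℝ) = l * (lam - mu) / (2 * ((m : ℝ) - n)) * (l * (lam - mu) / (2 * ((m : ℝ) - n))) := by
    rw [← h3, mul_div_cancel_left₀ _ h4, ← sq, hq]
  exact_mod_cast h5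

end Cfsg.Agent.H3.TTC
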