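import Cfsg.Agent.Fs.PSymA

/-! The symmetric type. -/

set_option autoImplicit false

namespace Cfsg.Agent.H3.TTC

variable {G : Type*} [Group G] {T : TTC G} {X : Set T.Pt}

theorem sy_tri {x y z : T.Pt} (h : ¬ cm x y ∧ x ◃ y = z) : ¬ cm y x ∧ y ◃ x = z :=
  ⟨ncm_symm h.1, (rf_comm h.1).symm.trans h.2⟩

theorem sy_tri' {x y z : T.Pt} (h : ¬ cm x y ∧ x ◃ y = z) : ¬ cm x z ∧ x ◃ z = y := by
  obtain ⟨h, rfl⟩ := h
  exact ⟨by rwa [cm_rf_self_left], rf_rf _ _⟩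

theorem Std.sy_five [Finite G] (h : T.Std) (hT : T.NoTri) : SyE 5 (Set.univ : Set T.Pt) := by
  obtain ⟨x, y, hxy, hc⟩ := h.ex_cm
  have hyx := hc.symm
  obtain ⟨a, hxa, hya⟩ := h.exists_cm_ncm hxy.symm
  have hax := hxa.symm
  obtain ⟨c, hc1, hyc, hac⟩ := h.exists_cm_ncm' hya
  have hcx : ¬ cm c x := hT y c x hc1.symm hxy.symm (fun e => hac (e ▸ hax)) hyc hyx
  let τ : Fin 5 → Fin 5 → T.Pt :=
    ![![y, y, y ◃ a, y ◃ a ◃ c, y ◃ a ◃ c ◃ x], ![y, y, a, a ◃ c, a ◃ c ◃ x],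
      ![y ◃ a, a, y, c, c ◃ x], ![y ◃ a ◃ c, a ◃ c, c, y, x],
      ![y ◃ a ◃ c ◃ x, a ◃ c ◃ x, c ◃ x, x, y]]
  let gen : Fin 4 → T.Pt := ![y, a, c, x]
  have r1 : ∀ w, c ◃ y ◃ w = y ◃ c ◃ w := hyc.symm.rf_rf_comm
  have r2 : ∀ w, x ◃ y ◃ w = y ◃ x ◃ w := hc.rf_rf_comm
  have r3 : ∀ w, x ◃ a ◃ w = a ◃ x ◃ w := hxa.rf_rf_comm
  have br : ∀ {p q : T.Pt}, ¬ cm p q → ∀ w, q ◃ p ◃ q ◃ w = p ◃ q ◃ p ◃ w := fun hpq w => by
    rw [← rf_rf_left, ← rf_rf_left, rf_comm hpq]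
  have r4 : y ◃ c ◃ x = c ◃ x := (hyc.rf_right hyx).rf_eq
  have hgen : ∀ k : Fin 4, ∀ i j : Fin 5, i ≠ j → gen k ◃ τ i j =
      τ (Equiv.swap k.castSucc k.succ i) (Equiv.swap k.castSucc k.succ j) := by
    intro k i j hij
    fin_cases k <;> fin_cases i <;> fin_cases j <;>
      first
      | exact absurd rfl hij
      | simp [τ, gen, Equiv.swap_apply_def, r1, r2, r3, r4, br hya, br hac, br hcx, hyc.rf_eq,
          hyc.rf_eq', hyx.rf_eq, hyx.rf_eq', hax.rf_eq, hax.rf_eq', ← rf_comm hya, ← rf_comm hac,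
          ← rf_comm hcx, rf_rf_swap hya, rf_rf_swap hac, rf_rf_swap hcx]
  have hσ : ∀ σ : Equiv.Perm (Fin 5), ∃ g : G, ∀ i j, i ≠ j → g • τ i j = τ (σ i) (σ j) := by
    intro σ
    have hσ : σ ∈ Submonoid.closure (Set.range fun i : Fin 4 => Equiv.swap i.castSucc i.succ) :=
      Equiv.Perm.mclosure_swap_castSucc_succ 4 ▸ Submonoid.mem_top σ
    induction hσ using Submonoid.closure_induction with
    | mem s hs =>
      obtain ⟨k, rfl⟩ := hs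
      exact ⟨_, hgen k⟩
    | one => exact ⟨1, by simp⟩
    | mul s t _ _ hs ht =>
      obtain ⟨g, hs⟩ := hs
      obtain ⟨k, ht⟩ := ht
      exact ⟨g * k, fun i j hij => by rw [mul_smul, ht i j hij, hs _ _ (t.injective.ne hij)]; rfl⟩
  have hsymm : ∀ i j, τ i j = τ j i := fun i j => by fin_cases i <;> fin_cases j <;> rfl
  refine ⟨τ, SE.sy_mk (fun _ _ _ => trivial) hsymm (fun w _ => ?_)
    (fun i j k l h1 h2 h3 h4 h5 h6 => ?_) (fun i j k h1 h2 h3 => ?_) (by decide)⟩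
  · have := h.commuting_induction (S := {w | ∃ i j, i ≠ j ∧ τ i j = w}) ⟨y, 0, 1, by decide, rfl⟩
      (by
        rintro _ ⟨i, j, hij, rfl⟩ b hb
        obtain ⟨σ, h1⟩ := Equiv.Perm.exists_extending_pair (f := ![(0 : Fin 5), 1]) (g := ![i, j])
          (by decide) (by intro u v; fin_cases u <;> fin_cases v <;> simp [hij, hij.symm])
        obtain ⟨g, hg⟩ := hσ σ
        have e : g • y = τ i j := by
          have := hg 0 1 (by decide)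
          rwa [show σ 0 = i from h1 0, show σ 1 = j from h1 1] at this
        rw [← e, cm_smul_left] at hb
        have : ∃ u v, u ≠ v ∧ τ u v = g⁻¹ • b := by
          by_cases e : g⁻¹ • b = y
          · exact ⟨0, 1, by decide, e.symm⟩
          rcases h.perp_three hT hya hc1 hyc hac hyx hax e hb with e | e | e
          · exact ⟨3, 4, by decide, e.symm⟩
          · exact ⟨2, 3, by decide, e.symm⟩
          · exact ⟨2, 4, by decide, e.symm⟩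
        obtain ⟨u, v, h2, h3⟩ := this
        exact ⟨σ u, σ v, σ.injective.ne h2, by rw [← hg u v h2, h3, smul_inv_smul]⟩)
    exact (this ▸ Set.mem_univ w : w ∈ {w | ∃ i j, i ≠ j ∧ τ i j = w})
  · obtain ⟨σ, e⟩ := Equiv.Perm.exists_extending_pair (f := ![(0 : Fin 5), 1, 2, 3])
      (g := ![i, j, k, l]) (by decide) (by
        intro u v; fin_cases u <;> fin_cases v <;> simp [*, Ne.symm])
    obtain ⟨g, hg⟩ := hσ σ
    rw [← show σ 0 = i from e 0, ← show σ 1 = j from e 1, ← show σ 2 = k from e 2,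
      ← show σ 3 = l from e 3, ← hg 0 1 (by decide), ← hg 2 3 (by decide), cm_smul]
    exact hyc
  · obtain ⟨σ, e⟩ := Equiv.Perm.exists_extending_pair (f := ![(0 : Fin 5), 1, 2])
      (g := ![i, j, k]) (by decide) (by
        intro u v; fin_cases u <;> fin_cases v <;> simp [*, Ne.symm])
    obtain ⟨g, hg⟩ := hσ σ
    rw [← show σ 0 = i from e 0, ← show σ 1 = j from e 1, ← show σ 2 = k from e 2,
      ← hg 0 1 (by decide), ← hg 1 2 (by decide), ← hg 0 2 (by decide), cm_smul, ← smul_rf]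
    exact ⟨hya, rfl⟩

theorem St.sye_five [Finite G] (h : St X) (hT : NoTr X) : SyE 5 X := by
  obtain ⟨U⟩ := h.cn.nonempty_sub
  obtain ⟨p, hp⟩ := (U.std h).sy_five fun a b c h1 h2 h3 h4 h5 h6 =>
    hT _ (U.mem a) _ (U.mem b) _ (U.mem c) (U.inj.ne h1) (U.inj.ne h2) (U.inj.ne h3)
      ((U.cm _ _).2 h4) ((U.cm _ _).2 h5) ((U.cm _ _).2 h6)
  refine ⟨fun i j => U.φ (p i j), fun i j _ => U.mem _, fun i j => by rw [hp.symm],
    fun x hx => ?_, fun i j k l h1 h2 e => hp.inj i j k l h1 h2 (U.inj e),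
    fun i j k l h1 h2 h3 h4 h5 h6 => (U.cm _ _).2 (hp.cm_of i j k l h1 h2 h3 h4 h5 h6),
    fun i j k h1 h2 h3 => by rw [← U.rf, hp.rf i j k h1 h2 h3]⟩
  obtain ⟨x, rfl⟩ := U.surj x hx
  obtain ⟨i, j, h1, rfl⟩ := hp.surj x trivial
  exact ⟨i, j, h1, rfl⟩

/-- coordinates after adding two letters -/
def sy_q {ι : Type*} (p : ι → ι → T.Pt) (d : T.Pt) (A : ι → T.Pt) :
    Option (Option ι) → Option (Option ι) → T.Pt
  | some (some i), some (some j) => p i j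
  | none, some (some i) => A i
  | some (some i), none => A i
  | some none, some (some i) => d ◃ A i
  | some (some i), some none => d ◃ A i
  | _, _ => d

theorem sy_ext {ι : Type*} {Y : Set T.Pt} {p : ι → ι → T.Pt} (h : SE Y p) {d : T.Pt}
    {A : ι → T.Pt} (hX : Cl X) (hd : d ∈ X) (hA : ∀ i, A i ∈ X) (hY : Y ⊆ X)
    (hs : ∀ x ∈ X, x = d ∨ x ∈ Y ∨ ∃ i, x = A i ∨ x = d ◃ A i) (h1 : ∀ y ∈ Y, cm d y)
    (h2 : ∀ i, ¬ cm d (A i)) (h3 : ∀ i j, i ≠ j → p i j ◃ A j = A i)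
    (h4 : ∀ i k l, k ≠ l → (cm (A i) (p k l) ↔ k ≠ i ∧ l ≠ i))
    (five : ∀ i j k l : ι, ∃ m, m ≠ i ∧ m ≠ j ∧ m ≠ k ∧ m ≠ l) (i₀ : ι) : SE X (sy_q p d A) := by
  have c1 : ∀ i j, i ≠ j → cm d (p i j) := fun i j e => h1 _ (h.mem i j e)
  have c2 : ∀ i k l, k ≠ l → i ≠ k → i ≠ l → cm (A i) (p k l) := fun i k l e1 e2 e3 =>
    (h4 i k l e1).2 ⟨e2.symm, e3.symm⟩
  have c3 : ∀ i k l, k ≠ l → i ≠ k → i ≠ l → cm (d ◃ A i) (p k l) := fun i k l e1 e2 e3 => by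
    rw [cm_rf_left, (c1 k l e1).rf_eq]; exact c2 i k l e1 e2 e3
  have t1 : ∀ i, ¬ cm d (A i) ∧ d ◃ A i = d ◃ A i := fun i => ⟨h2 i, rfl⟩
  have t2 : ∀ i j, i ≠ j → ¬ cm (p i j) (A j) ∧ p i j ◃ A j = A i := fun i j e =>
    ⟨fun hc => ((h4 j i j e).1 hc.symm).2 rfl, h3 i j e⟩
  have t3 : ∀ i j, i ≠ j → ¬ cm (p i j) (d ◃ A j) ∧ p i j ◃ d ◃ A j = d ◃ A i := fun i j e =>
    ⟨by rw [cm_rf_right, (c1 i j e).rf_eq]; exact (t2 i j e).1,
      by rw [← (c1 i j e).rf_rf_comm, h3 i j e]⟩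
  have c4 : ∀ i j, i ≠ j → cm (A i) (d ◃ A j) := fun i j e => by
    rw [← h3 i j e]
    exact (((cm_rf_rf' (a := A j) (c1 i j e)).resolve_right
      (not_or.2 ⟨h2 j, (t2 i j e).1⟩))).symm
  have t2' : ∀ i j, i ≠ j → ¬ cm (p j i) (A j) ∧ p j i ◃ A j = A i := fun i j e =>
    h.symm i j ▸ t2 i j e
  have t3' : ∀ i j, i ≠ j → ¬ cm (p j i) (d ◃ A j) ∧ p j i ◃ d ◃ A j = d ◃ A i := fun i j e =>
    h.symm i j ▸ t3 i j e
  refine SE.sy_mk (fun i j e => ?_) (fun i j => ?_) (fun x hx => ?_)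
    (fun i j k l e1 e2 e3 e4 e5 e6 => ?_) (fun i j k e1 e2 e3 => ?_) (fun i j k l => ?_)
  · rcases i with _ | _ | i <;> rcases j with _ | _ | j <;>
      first
      | exact hd
      | exact hA _
      | exact hX _ hd _ (hA _)
      | exact hY (h.mem _ _ (by simpa using e))
  · rcases i with _ | _ | i <;> rcases j with _ | _ | j <;>
      first
      | rfl
      | exact h.symm _ _
  · rcases hs x hx with rfl | hx | ⟨i, rfl | rfl⟩
    · exact ⟨none, some none, by simp, rfl⟩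
    · obtain ⟨i, j, e, rfl⟩ := h.surj x hx
      exact ⟨some (some i), some (some j), by simpa using e, rfl⟩
    · exact ⟨none, some (some i), by simp, rfl⟩
    · exact ⟨some none, some (some i), by simp, rfl⟩
  · rcases i with _ | _ | i <;> rcases j with _ | _ | j <;> rcases k with _ | _ | k <;>
      rcases l with _ | _ | l <;>
      simp only [ne_eq, Option.some.injEq, not_true_eq_false] at e1 e2 e3 e4 e5 e6 <;>
      first
      | exact h.cm_of _ _ _ _ e1 e2 e3 e4 e5 e6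
      | exact c1 _ _ ‹_›
      | exact (c1 _ _ ‹_›).symm
      | exact c2 _ _ _ ‹_› ‹_› ‹_›
      | exact c3 _ _ _ ‹_› ‹_› ‹_›
      | exact (c2 _ _ _ ‹_› (Ne.symm ‹_›) (Ne.symm ‹_›)).symm
      | exact (c3 _ _ _ ‹_› (Ne.symm ‹_›) (Ne.symm ‹_›)).symm
      | exact c4 _ _ ‹_›
      | exact (c4 _ _ (Ne.symm ‹_›)).symm
  · rcases i with _ | _ | i <;> rcases j with _ | _ | j <;> rcases k with _ | _ | k <;>
      simp only [ne_eq, Option.some.injEq, not_true_eq_false] at e1 e2 e3 <;>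
      first
      | exact ⟨h.sy_ncm e1 e2 e3, h.rf _ _ _ e1 e2 e3⟩
      | exact t1 _
      | exact sy_tri (t1 _)
      | exact sy_tri' (t1 _)
      | exact sy_tri (sy_tri' (t1 _))
      | exact sy_tri' (sy_tri (t1 _))
      | exact sy_tri (sy_tri' (sy_tri (t1 _)))
      | exact t2 _ _ ‹_›
      | exact t3 _ _ ‹_›
      | exact sy_tri (t2' _ _ (Ne.symm ‹_›))
      | exact sy_tri (t3' _ _ (Ne.symm ‹_›))
      | exact sy_tri' (sy_tri (t2' _ _ (Ne.symm ‹_›)))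
      | exact sy_tri' (sy_tri (t3' _ _ (Ne.symm ‹_›)))
  · obtain ⟨m, a1, a2, a3, a4⟩ := five (i.join.getD i₀) (j.join.getD i₀) (k.join.getD i₀)
      (l.join.getD i₀)
    refine ⟨some (some m), ?_, ?_, ?_, ?_⟩ <;> rintro rfl <;> contradiction

theorem sy_five {n : ℕ} (hn : 5 ≤ n) (i j k l : Fin n) : ∃ m, m ≠ i ∧ m ≠ j ∧ m ≠ k ∧ m ≠ l := by
  simpa using sy_extra [i, j, k, l] (by simp; omega)

/-- the local structure of `Mu` in symmetric type -/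
theorem sy_mu {n : ℕ} (hn : 5 ≤ n) {Z : Set T.Pt} (h : SyE n Z) {d a : T.Pt} (hd : d ∈ Z)
    (ha : a ∈ Nc Z d) : (∃ x ∈ Rs Z d, ¬ cm a x) ∧ (∃ x ∈ Rs Z d, cm a x) ∧
      ∀ x ∈ Rs Z d, ∀ y ∈ Rs Z d, ¬ cm a x → ¬ cm a y → cm x y → x = y := by
  obtain ⟨q, h⟩ := h
  obtain ⟨u, v, w, h1, h2, h3, rfl, rfl⟩ : ∃ u v w, u ≠ v ∧ v ≠ w ∧ u ≠ w ∧ q u v = d ∧
      q v w = a := by
    obtain ⟨u, v, h1, rfl⟩ := h.surj d hd
    obtain ⟨v', w, h2, rfl⟩ := h.surj a ha.1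
    have a1 : ¬ (u ≠ v' ∧ u ≠ w ∧ v ≠ v' ∧ v ≠ w) := fun ⟨b1, b2, b3, b4⟩ =>
      ha.2 (h.cm_of _ _ _ _ h1 h2 b1 b2 b3 b4)
    have a2 : q u v ≠ q v' w := fun e => ha.2 (e ▸ cm_refl _)
    by_cases e1 : u = v'
    · subst e1
      exact ⟨v, u, w, h1.symm, h2, fun e => a2 (e ▸ rfl), h.symm _ _, rfl⟩
    by_cases e2 : u = w
    · subst e2
      exact ⟨v, u, v', h1.symm, e1, fun e => a2 (e ▸ h.symm _ _), h.symm _ _, h.symm _ _⟩
    by_cases e3 : v = v'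
    · subst e3
      exact ⟨u, v, w, h1, h2, e2, rfl, rfl⟩
    obtain rfl : v = w := by tauto
    exact ⟨u, v, v', h1, e3, e1, rfl, h.symm _ _⟩
  have key : ∀ i j, i ≠ j → i ≠ u → i ≠ v → j ≠ u → j ≠ v → q i j ∈ Rs Z (q u v) :=
    fun i j a1 a2 a3 a4 a5 => ⟨h.mem i j a1, fun e => by
      have := h.inj _ _ _ _ a1 h1 e
      tauto, h.cm_of _ _ _ _ h1 a1 a2.symm a4.symm a3.symm a5.symm⟩
  obtain ⟨i, i1, i2, i3, -⟩ := sy_five hn u v w w
  obtain ⟨j, j1, j2, j3, j4⟩ := sy_five hn u v w i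
  refine ⟨⟨q w i, key w i i3.symm h3.symm h2.symm i1 i2, h.sy_ncm h2 i3.symm i2.symm⟩,
    ⟨q i j, key i j j4.symm i1 i2 j1 j2,
      h.cm_of _ _ _ _ h2 j4.symm i2.symm j2.symm i3.symm j3.symm⟩, fun x hx y hy a1 a2 a3 => ?_⟩
  obtain ⟨x1, x2, b1, rfl⟩ := h.surj x hx.1
  obtain ⟨y1, y2, b2, rfl⟩ := h.surj y hy.1
  by_contra e
  have c1 := h.sy_cm h1 b1 hx.2.1.symm hx.2.2
  have c2 := h.sy_cm h1 b2 hy.2.1.symm hy.2.2
  have c3 := h.sy_cm b1 b2 e a3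
  have c4 := mt (fun hh : _ ∧ _ => h.cm_of _ _ _ _ h2 b1 c1.2.2.1 c1.2.2.2 hh.1 hh.2) a1
  have c5 := mt (fun hh : _ ∧ _ => h.cm_of _ _ _ _ h2 b2 c2.2.2.1 c2.2.2.2 hh.1 hh.2) a2
  grind

section loc

variable {n : ℕ} {d a : T.Pt} {p : Fin n → Fin n → T.Pt}

/-- the equivalence relation defined by a point not commuting with `d` -/
def sy_r (p : Fin n → Fin n → T.Pt) (a : T.Pt) (i j : Fin n) : Prop := i = j ∨ cm a (p i j)

theorem sy_r_eqv {Y : Set T.Pt} (hp : SE Y p) (a : T.Pt) : Equivalence (sy_r p a) := by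
  refine ⟨fun _ => .inl rfl, fun {i j} h => h.imp Eq.symm fun h => hp.symm i j ▸ h,
    fun {i j k} h1 h2 => ?_⟩
  by_cases e1 : i = j
  · exact e1 ▸ h2
  by_cases e2 : j = k
  · exact e2 ▸ h1
  by_cases e3 : i = k
  · exact .inl e3
  exact .inr (hp.rf i j k e1 e2 e3 ▸ (h1.resolve_left e1).rf_right (h2.resolve_left e2))

theorem sy_loc (hn : 5 ≤ n) (h : Loc (SyE n) X) (hd : d ∈ X) (hp : SE (Rs X d) p)
    (ha : a ∈ Nc X d) {i j : Fin n} (hij : i ≠ j) (hc : cm a (p i j)) :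
    ∃ s, s ≠ i ∧ s ≠ j ∧ (∀ k, k ≠ i → k ≠ j → k ≠ s → ¬ sy_r p a k s) ∧
      ∀ k l, k ≠ i → k ≠ j → k ≠ s → l ≠ i → l ≠ j → l ≠ s → sy_r p a k l := by
  have he := hp.mem i j hij
  have hr := sy_r_eqv hp a
  obtain ⟨⟨x, hx, hx'⟩, ⟨y, hy, hy'⟩, h3⟩ := sy_mu hn (h.2 _ he.1) (d := d) (a := a)
    ⟨hd, he.2.1.symm, he.2.2.symm⟩
    ⟨⟨ha.1, fun e => ha.2 (e ▸ he.2.2), hc.symm⟩, ha.2⟩
  rw [rs_rs_comm] at hx hy h3
  obtain ⟨u, v, a1, rfl⟩ := hp.surj x hx.1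
  obtain ⟨k, l, a2, rfl⟩ := hp.surj y hy.1
  have b1 := hp.sy_cm hij a1 hx.2.1.symm hx.2.2
  have b2 := hp.sy_cm hij a2 hy.2.1.symm hy.2.2
  have b3 : ¬ sy_r p a u v := fun e => hx' (e.resolve_left a1)
  have b4 : sy_r p a k l := .inr hy'
  have key : ∀ u v u' v', u ≠ i → u ≠ j → v ≠ i → v ≠ j → u' ≠ i → u' ≠ j → v' ≠ i → v' ≠ j →
      u ≠ u' → u ≠ v' → v ≠ u' → v ≠ v' → sy_r p a u v ∨ sy_r p a u' v' := by
    intro u v u' v' c1 c2 c3 c4 c5 c6 c7 c8 c9 c10 c11 c12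
    by_contra! c
    have m : ∀ u v, u ≠ i → u ≠ j → v ≠ i → v ≠ j → u ≠ v → p u v ∈ Rs (Rs X d) (p i j) :=
      fun u v c1 c2 c3 c4 c5 => ⟨hp.mem u v c5, fun e => by
        have := hp.inj _ _ _ _ c5 hij e
        tauto, hp.cm_of _ _ _ _ hij c5 c1.symm c3.symm c2.symm c4.symm⟩
    have d1 : u ≠ v := fun e => c.1 (.inl e)
    have d2 : u' ≠ v' := fun e => c.2 (.inl e)
    have := hp.inj _ _ _ _ d1 d2 (h3 _ (m u v c1 c2 c3 c4 d1) _ (m u' v' c5 c6 c7 c8 d2)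
      (fun e => c.1 (.inr e)) (fun e => c.2 (.inr e)) (hp.cm_of _ _ _ _ d1 d2 c9 c10 c11 c12))
    tauto
  obtain ⟨s, s1, s2, s3⟩ : ∃ s, s ≠ i ∧ s ≠ j ∧ ¬ sy_r p a s k := by
    by_cases e : sy_r p a u k
    · exact ⟨v, b1.2.1.symm, b1.2.2.2.symm, fun e' => b3 (hr.trans e (hr.symm e'))⟩
    · exact ⟨u, b1.1.symm, b1.2.2.1.symm, e⟩
  have s4 : ¬ sy_r p a s l := fun e => s3 (hr.trans e (hr.symm b4))
  have all : ∀ m, m ≠ i → m ≠ j → m ≠ s → sy_r p a m k := fun m c1 c2 c3 => by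
    by_contra c4
    exact (key m k s l c1 c2 b2.1.symm b2.2.2.1.symm s1 s2 b2.2.1.symm b2.2.2.2.symm c3
      (fun e => c4 (e ▸ hr.symm b4)) (fun e => s3 (.inl e.symm)) a2).elim c4 s4
  exact ⟨s, s1, s2, fun m c1 c2 c3 e => s3 (hr.trans (hr.symm e) (all m c1 c2 c3)),
    fun m m' c1 c2 c3 c4 c5 c6 => hr.trans (all m c1 c2 c3) (hr.symm (all m' c4 c5 c6))⟩

/-- the type of a point with a singleton class -/
def sy_T (p : Fin n → Fin n → T.Pt) (a : T.Pt) (s : Fin n) : Prop :=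
  ∀ k l, k ≠ l → (cm a (p k l) ↔ k ≠ s ∧ l ≠ s)

theorem sy_kinds [Finite G] (hn : 5 ≤ n) (h : Loc (SyE n) X) (hd : d ∈ X) (hp : SE (Rs X d) p)
    (ha : a ∈ Nc X d) : (∃ s, sy_T p a s) ∨ (n = 6 ∧ NoP4 (Mu X d a)) := by
  have hr := sy_r_eqv hp a
  obtain ⟨e, he, e1, e2⟩ := h.1.exists_cm_cm hd ha.1
  obtain ⟨i, j, hij, rfl⟩ := hp.surj e (mu_subset_rs ha.2 ⟨he, e1, e2⟩)
  obtain ⟨s, s1, s2, s3, s4⟩ := sy_loc hn h hd hp ha hij e2
  obtain ⟨k, k1, k2, k3, -⟩ := sy_five hn i j s s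
  obtain ⟨l, l1, l2, l3, l4⟩ := sy_five hn i j s k
  have rij : sy_r p a i j := .inr e2
  have rkl : sy_r p a k l := s4 k l k1 k2 k3 l1 l2 l3
  by_cases c : sy_r p a i k
  · have all : ∀ m, m ≠ s → sy_r p a m k := fun m hm => by
      by_cases m1 : m = i
      · exact m1 ▸ c
      by_cases m2 : m = j
      · exact m2 ▸ hr.trans (hr.symm rij) c
      exact s4 m k m1 m2 hm k1 k2 k3
    refine .inl ⟨s, fun u v huv => ⟨fun hc => ⟨?_, ?_⟩, fun hc =>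
      (hr.trans (all u hc.1) (hr.symm (all v hc.2))).resolve_left huv⟩⟩
    · rintro rfl
      exact s3 k k1 k2 k3 (hr.symm (hr.trans (.inr hc) (all v huv.symm)))
    · rintro rfl
      exact s3 k k1 k2 k3 (hr.symm (hr.trans (hr.symm (.inr hc)) (all u huv)))
  right
  obtain ⟨t, t1, t2, t3, t4⟩ := sy_loc hn h hd hp ha l4.symm (rkl.resolve_left l4.symm)
  have t5 : i ≠ t := fun e => t3 j k2.symm l2.symm (e ▸ hij.symm) (e ▸ hr.symm rij)
  have all : ∀ m, m ≠ i → m ≠ j → m ≠ s → m ≠ k → m ≠ l → m = t := fun m c1 c2 c3 c4 c5 => by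
    by_contra c6
    exact c (hr.trans (t4 i m k1.symm l1.symm t5 c4 c5 c6) (s4 m k c1 c2 c3 k1 k2 k3))
  by_cases hts : t = s
  · exfalso
    subst hts
    have b1 := hp.mem i k k1.symm
    have b2 := hp.mem j l l2.symm
    have b3 : p i k ≠ p j l := fun e => by
      have := hp.inj _ _ _ _ k1.symm l2.symm e
      grind
    obtain ⟨z, z0, z1, z2, z3, z4, z5, z6, -⟩ := d4 (a := a) b1.2.2 b2.2.2
      (hp.cm_of _ _ _ _ k1.symm l2.symm hij l1.symm k2 l4.symm) b1.2.1.symm b2.2.1.symm b3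
      (ncm_symm ha.2) (fun e => c (.inr e))
      (fun e => c (hr.trans rij (hr.trans (.inr e) (hr.symm rkl))))
    have hc := h.1.cl
    obtain ⟨u, v, huv, rfl⟩ := hp.surj z
      ⟨z0 ▸ hc _ ha.1 _ (hc _ hd _ (hc _ b1.1 _ (hc _ b2.1 _ ha.1))), z4, z1⟩
    have a1 := hp.sy_cm k1.symm huv z5.symm z2
    have a2 := hp.sy_cm l2.symm huv z6.symm z3
    have a3 := all u
    have a4 := all v
    grind
  have t6 : j ≠ t := fun e => t3 i k1.symm l1.symm t5 (e ▸ rij)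
  have ris : sy_r p a i s := t4 i s k1.symm l1.symm t5 k3.symm l3.symm (Ne.symm hts)
  have rtk : sy_r p a t k := s4 t k t5.symm t6.symm hts k1 k2 k3
  have all' : ∀ m, m = i ∨ m = j ∨ m = s ∨ m = k ∨ m = l ∨ m = t := fun m => by
    have := all m
    tauto
  refine ⟨le_antisymm ?_ ?_, ?_⟩
  · by_contra! c1
    obtain ⟨m, hm⟩ := sy_extra [i, j, s, k, l, t] c1
    exact hm (by simpa using all' m)
  · have : [i, j, s, k, l, t].Nodup := by
      simp only [List.nodup_cons, List.mem_cons, List.not_mem_nil, List.nodup_nil]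
      grind
    simpa using this.length_le_card
  have A : ∀ m, sy_r p a m i → m = i ∨ m = j ∨ m = s := fun m hm => by
    have a1 : m ≠ k := fun e => c (hr.symm (e ▸ hm))
    have a2 : m ≠ l := fun e => c (hr.symm (hr.trans rkl (e ▸ hm)))
    have a3 : m ≠ t := fun e => c (hr.trans (hr.symm (e ▸ hm)) rtk)
    have := all' m
    tauto
  have B : ∀ m, ¬ sy_r p a m i → m = k ∨ m = l ∨ m = t := fun m hm => by
    have a1 : m ≠ i := fun e => hm (.inl e)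
    have a2 : m ≠ j := fun e => hm (e ▸ hr.symm rij)
    have a3 : m ≠ s := fun e => hm (e ▸ hr.symm ris)
    have := all' m
    tauto
  have key : ∀ x ∈ Mu X d a, ∃ u v, u ≠ v ∧ p u v = x ∧ (sy_r p a u i ↔ sy_r p a v i) :=
    fun x hx => by
      obtain ⟨u, v, huv, rfl⟩ := hp.surj x (mu_subset_rs ha.2 hx)
      exact ⟨u, v, huv, rfl, hr.trans (hr.symm (.inr hx.2.2)), hr.trans (.inr hx.2.2)⟩
  have k1 : ∀ u v u' v', u ≠ v → u' ≠ v' → (sy_r p a u i ↔ sy_r p a v i) →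
      (sy_r p a u' i ↔ sy_r p a v' i) → p u v ≠ p u' v' → cm (p u v) (p u' v') →
      ¬ (sy_r p a u i ↔ sy_r p a u' i) := fun u v u' v' a1 a2 a3 a4 a5 a6 a7 => by
    have := hp.sy_cm a1 a2 a5 a6
    by_cases a8 : sy_r p a u i
    · have := A u a8
      have := A v (a3.1 a8)
      have := A u' (a7.1 a8)
      have := A v' (a4.1 (a7.1 a8))
      clear all all' A B
      grind
    · have := B u a8
      have := B v (a3.not.1 a8)
      have := B u' (a7.not.1 a8)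
      have := B v' (a4.not.1 (a7.not.1 a8))
      clear all all' A B
      grind
  intro f hf e he e' he' g hg n1 n2 n3 c1 c2 c3 _ _
  obtain ⟨f1, f2, f3, rfl, f4⟩ := key f hf
  obtain ⟨x1, x2, x3, rfl, x4⟩ := key e he
  obtain ⟨y1, y2, y3, rfl, y4⟩ := key e' he'
  obtain ⟨g1, g2, g3, rfl, g4⟩ := key g hg
  have a1 := k1 _ _ _ _ f3 x3 f4 x4 n1 c1
  have a2 := k1 _ _ _ _ x3 y3 x4 y4 n2 c2
  have a3 := k1 _ _ _ _ y3 g3 y4 g4 n3 c3
  have a4 : ¬ (sy_r p a f1 i ↔ sy_r p a g1 i) := fun a4 => by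
    rw [not_iff] at a1 a2 a3
    rw [← a4, ← a2, ← a1] at a3
    simp at a3
  refine hp.cm_of _ _ _ _ f3 g3 ?_ ?_ ?_ ?_ <;> rintro rfl
  · exact a4 Iff.rfl
  · exact a4 g4.symm
  · exact a4 f4
  · exact a4 (f4.trans g4.symm)

theorem sy_T_swap (hp : SE (Rs X d) p) {s u v : Fin n} (h : sy_T p a s) (huv : u ≠ v) :
    sy_T p (p u v ◃ a) (Equiv.swap u v s) := fun k l hkl => by
  rw [cm_rf_left, hp.sy_swap huv hkl, h _ _ ((Equiv.injective _).ne hkl)]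
  simp only [ne_eq, Equiv.swap_apply_eq_iff]

theorem sy_T_d (hp : SE (Rs X d) p) {s : Fin n} (h : sy_T p a s) : sy_T p (d ◃ a) s :=
  fun k l hkl => by rw [cm_rf_left, (hp.mem k l hkl).2.2.rf_eq, h k l hkl]

theorem sy_up [Finite G] (hn : 5 ≤ n) (h : St X) (hd : d ∈ X) (hp : SE (Rs X d) p)
    (ha : a ∈ Nc X d) {s : Fin n} (hs : sy_T p a s) : SyE (n + 2) X := by
  classical
  let A : Fin n → T.Pt := fun i => if i = s then a else p s i ◃ a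
  have A1 : ∀ i, A i ∈ Nc X d ∧ sy_T p (A i) i := fun i => by
    by_cases e : i = s
    · simp only [A, if_pos e]; exact ⟨ha, e ▸ hs⟩
    · simp only [A, if_neg e]
      have := hp.mem s i (Ne.symm e)
      exact ⟨⟨h.cl _ this.1 _ ha.1, by rw [cm_rf_of_cm this.2.2]; exact ha.2⟩,
        by simpa using sy_T_swap hp hs (Ne.symm e)⟩
  have A2 : ∀ i j, i ≠ j → p i j ◃ A j = A i := fun i j hij => by
    by_cases e1 : j = s
    · subst e1; simp only [A, if_neg hij, if_true]; rw [hp.symm]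
    by_cases e2 : i = s
    · subst e2; simp only [A, if_neg e1, if_true, rf_rf]
    simp only [A, if_neg e1, if_neg e2]
    rw [rf_distrib, ((hs i j hij).2 ⟨e2, e1⟩).rf_eq', hp.symm s j, hp.rf i j s hij e1 e2,
      hp.symm i s]
  have := sy_ext hp h.cl hd (fun i => (A1 i).1.1) (fun _ hx => hx.1) (fun x hx => ?_)
    (fun _ hx => hx.2.2) (fun i => (A1 i).1.2) A2 (fun i => (A1 i).2) (sy_five hn) s
  · exact ⟨_, this.sy_reindex ((finSuccEquiv _).trans (finSuccEquiv n).optionCongr)⟩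
  by_cases e1 : x = d
  · exact .inl e1
  by_cases e2 : cm d x
  · exact .inr (.inl ⟨hx, e1, e2⟩)
  obtain ⟨g, hg, rfl⟩ := h.nc_trans hd ha ⟨hx, e2⟩
  obtain ⟨t, ht⟩ : g • a ∈ {b | ∃ t, sy_T p b t} := smul_mem_of_mem_gp (fun y hy b hb => by
    obtain ⟨t, ht⟩ := hb
    by_cases e : y = d
    · exact ⟨t, e ▸ sy_T_d hp ht⟩
    · obtain ⟨u, v, huv, rfl⟩ := hp.surj y ⟨hy.1, e, hy.2⟩
      exact ⟨_, sy_T_swap hp ht huv⟩) hg ⟨s, hs⟩
  refine .inr (.inr ⟨t, h.inj hd (A1 t).1 ⟨hx, e2⟩ ?_⟩)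
  ext y
  refine and_congr_right fun y1 => and_congr_right fun y2 => ?_
  by_cases e : y = d
  · exact ⟨fun k => absurd (e ▸ k.symm) (A1 t).1.2, fun k => absurd (e ▸ k.symm) e2⟩
  obtain ⟨u, v, huv, rfl⟩ := hp.surj y ⟨y1, e, y2⟩
  rw [(A1 t).2 u v huv, ht u v huv]

end loc

theorem loc_sye [Finite G] {n : ℕ} (hn : 5 ≤ n) (h : Loc (SyE n) X) :
    SyE (n + 2) X ∨ (n = 6 ∧ ∀ d ∈ X, ∀ a ∈ Nc X d, NoP4 (Mu X d a)) := by
  by_contra! c
  have key : ∀ d ∈ X, ∀ a ∈ Nc X d, n = 6 ∧ NoP4 (Mu X d a) := fun d hd a ha => by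
    obtain ⟨p, hp⟩ := h.2 d hd
    exact (sy_kinds hn h hd hp ha).resolve_left fun ⟨s, hs⟩ => c.1 (sy_up hn h.1 hd hp ha hs)
  obtain ⟨d, hd⟩ := h.1.cn.ne
  obtain ⟨a, ha⟩ := h.1.exists_ncm hd
  obtain ⟨d', hd', a', ha', h1⟩ := c.2 (key d hd a ha).1
  exact h1 (key d' hd' a' ha').2

end Cfsg.Agent.H3.TTC
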