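import Cfsg.Agent.Fs.IBase

/-! The symmetric type: basic properties. -/

set_option autoImplicit false

namespace Cfsg.Agent.H3.TTC

variable {G : Type*} [Group G] {T : TTC G} {X : Set T.Pt}

section se

variable {ι : Type*} {p : ι → ι → T.Pt}

theorem SE.sy_ncm (h : SE X p) {i j k : ι} (h1 : i ≠ j) (h2 : j ≠ k) (h3 : i ≠ k) :
    ¬ cm (p i j) (p j k) := fun hc => by
  have := h.inj _ _ _ _ h3 h2 ((h.rf i j k h1 h2 h3).symm.trans hc.rf_eq)
  grind

theorem SE.sy_cm (h : SE X p) {i j k l : ι} (h1 : i ≠ j) (h2 : k ≠ l) (hne : p i j ≠ p k l)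
    (hc : cm (p i j) (p k l)) : i ≠ k ∧ i ≠ l ∧ j ≠ k ∧ j ≠ l := by
  have a1 : i = k → j ≠ l := by rintro rfl rfl; exact hne rfl
  have a2 : i = l → j ≠ k := by rintro rfl rfl; exact hne (h.symm _ _)
  refine ⟨?_, ?_, ?_, ?_⟩
  · rintro rfl
    exact h.sy_ncm h1.symm h2 (a1 rfl) (h.symm i j ▸ hc)
  · rintro rfl
    exact h.sy_ncm h1.symm h2.symm (a2 rfl) (h.symm i j ▸ h.symm k i ▸ hc)
  · rintro rfl
    exact h.sy_ncm h1 h2 (fun e => a2 e rfl) hc
  · rintro rfl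
    exact h.sy_ncm h1 h2.symm (fun e => a1 e rfl) (h.symm k j ▸ hc)

theorem SE.sy_swap [DecidableEq ι] (h : SE X p) {i j k l : ι} (h1 : i ≠ j) (h2 : k ≠ l) :
    p i j ◃ p k l = p (Equiv.swap i j k) (Equiv.swap i j l) := by
  have key : ∀ i j l : ι, i ≠ j → j ≠ l →
      p i j ◃ p j l = p (Equiv.swap i j j) (Equiv.swap i j l) := fun i j l h1 h2 => by
    by_cases e : l = i
    · subst e; rw [h.symm j l, rf_self]; simp
    · rw [h.rf i j l h1 h2 (Ne.symm e), Equiv.swap_apply_right,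
        Equiv.swap_apply_of_ne_of_ne e h2.symm]
  by_cases e1 : k = j
  · subst e1; exact key _ _ _ h1 h2
  by_cases e2 : k = i
  · subst e2; rw [h.symm k j, Equiv.swap_comm]; exact key _ _ _ h1.symm h2
  by_cases e3 : l = j
  · subst e3; rw [h.symm k l, h.symm (Equiv.swap i l k)]; exact key _ _ _ h1 h2.symm
  by_cases e4 : l = i
  · subst e4
    rw [h.symm k l, h.symm (Equiv.swap l j k), h.symm l j, Equiv.swap_comm]
    exact key _ _ _ h1.symm h2.symm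
  rw [Equiv.swap_apply_of_ne_of_ne e2 e1, Equiv.swap_apply_of_ne_of_ne e4 e3,
    (h.cm_of i j k l h1 h2 (Ne.symm e2) (Ne.symm e4) (Ne.symm e1) (Ne.symm e3)).rf_eq]

theorem SE.sy_mk (mem : ∀ i j, i ≠ j → p i j ∈ X) (symm : ∀ i j, p i j = p j i)
    (surj : ∀ x ∈ X, ∃ i j, i ≠ j ∧ p i j = x)
    (cm_of : ∀ i j k l, i ≠ j → k ≠ l → i ≠ k → i ≠ l → j ≠ k → j ≠ l → cm (p i j) (p k l))
    (rf : ∀ i j k, i ≠ j → j ≠ k → i ≠ k → ¬ cm (p i j) (p j k) ∧ p i j ◃ p j k = p i k)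
    (five : ∀ i j k l : ι, ∃ m, m ≠ i ∧ m ≠ j ∧ m ≠ k ∧ m ≠ l) : SE X p := by
  refine ⟨mem, symm, surj, fun i j k l h1 h2 e => ?_, cm_of,
    fun i j k h1 h2 h3 => (rf i j k h1 h2 h3).2⟩
  have key : ∀ i j k l, i ≠ j → k ≠ l → p i j = p k l → j = k ∨ j = l := by
    intro i j k l h1 h2 e
    by_contra! h3
    by_cases e1 : i = k
    · subst e1
      exact (rf j i l h1.symm h2 h3.2).1 (by rw [symm j i, e]; exact cm_refl _)
    by_cases e2 : i = l
    · subst e2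
      exact (rf j i k h1.symm h2.symm h3.1).1 (by rw [symm j i, e, symm k i]; exact cm_refl _)
    obtain ⟨m, m1, m2, m3, m4⟩ := five i j k l
    exact (rf i j m h1 m2.symm m1.symm).1
      (e ▸ cm_of k l j m h2 m2.symm h3.1.symm m3.symm h3.2.symm m4.symm)
  have a1 := key i j k l h1 h2 e
  have a2 := key j i k l h1.symm h2 (symm i j ▸ e)
  grind

theorem SE.sy_reindex {κ : Type*} (h : SE X p) (e : κ ≃ ι) : SE X fun i j => p (e i) (e j) := by
  refine ⟨fun i j hij => h.mem _ _ (e.injective.ne hij), fun i j => h.symm _ _, fun x hx => ?_,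
    fun i j k l h1 h2 h3 => ?_, fun i j k l h1 h2 h3 h4 h5 h6 => h.cm_of _ _ _ _
      (e.injective.ne h1) (e.injective.ne h2) (e.injective.ne h3) (e.injective.ne h4)
      (e.injective.ne h5) (e.injective.ne h6),
    fun i j k h1 h2 h3 => h.rf _ _ _ (e.injective.ne h1) (e.injective.ne h2) (e.injective.ne h3)⟩
  · obtain ⟨i, j, h1, h2⟩ := h.surj x hx
    exact ⟨e.symm i, e.symm j, e.symm.injective.ne h1, by simpa using h2⟩
  · simpa using h.inj _ _ _ _ (e.injective.ne h1) (e.injective.ne h2) h3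

end se

theorem sy_extra {n : ℕ} (L : List (Fin n)) (h : L.length < n) : ∃ m, m ∉ L := by
  by_contra! h1
  have := (List.toFinset_card_le L).trans_lt h
  rw [show L.toFinset = Finset.univ from Finset.eq_univ_of_forall fun m => by simpa using h1 m]
    at this
  simp at this

theorem SyE.card {n : ℕ} (h : SyE n X) : X.ncard = n.choose 2 := by
  obtain ⟨p, h⟩ := h
  have h1 : X = Sym2.lift ⟨p, h.symm⟩ '' {a | ¬ a.IsDiag} := by
    ext x
    constructor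
    · intro hx
      obtain ⟨i, j, h1, rfl⟩ := h.surj x hx
      exact ⟨s(i, j), by simpa using h1, rfl⟩
    · rintro ⟨a, ha, rfl⟩
      induction a using Sym2.ind with
      | h i j => exact h.mem i j (by simpa using ha)
  rw [h1, Set.InjOn.ncard_image, ← Nat.card_coe_set_eq, Nat.card_eq_fintype_card]
  · exact (Sym2.card_subtype_not_diag (α := Fin n)).trans (by simp)
  · intro a ha b hb e
    induction a using Sym2.ind with
    | h i j =>
    induction b using Sym2.ind with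
    | h k l => exact Sym2.eq_iff.2 (h.inj i j k l (by simpa using ha) (by simpa using hb) e)

theorem SyE.sg {n : ℕ} (h : SyE n X) (hn : 5 ≤ n) : Sg X := by
  obtain ⟨p, h⟩ := h
  have key : ∀ L : List T.Pt, (∀ x ∈ L, x ∈ X) → ∃ σ : Equiv.Perm (Fin n),
      Equiv.Perm.sign σ = (-1) ^ L.length ∧
        ∀ i j, i ≠ j → (L.map Pt.val).prod • p i j = p (σ i) (σ j) := by
    intro L
    induction L with
    | nil => exact fun _ => ⟨1, by simp, by simp⟩
    | cons x L ih =>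
      intro hL
      obtain ⟨σ, h1, h2⟩ := ih fun y hy => hL y (by simp [hy])
      obtain ⟨u, v, h3, rfl⟩ := h.surj x (hL x (by simp))
      refine ⟨Equiv.swap u v * σ, by simp [h1, h3, pow_succ], fun i j hij => ?_⟩
      rw [List.map_cons, List.prod_cons, mul_smul, h2 i j hij, ← rf_def,
        h.sy_swap h3 (σ.injective.ne hij)]
      rfl
  intro L hL e
  obtain ⟨σ, h1, h2⟩ := key L hL
  obtain rfl : σ = 1 := by
    ext1 i
    obtain ⟨j, hj⟩ := sy_extra [i] (by simp; omega)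
    obtain ⟨k, hk⟩ := sy_extra [i, j] (by simp; omega)
    simp only [List.mem_cons, List.not_mem_nil, or_false, not_or] at hj hk
    have a1 := h.inj _ _ _ _ (Ne.symm hj) (σ.injective.ne (Ne.symm hj))
      (by simpa [e] using h2 i j (Ne.symm hj))
    have a2 := h.inj _ _ _ _ (Ne.symm hk.1) (σ.injective.ne (Ne.symm hk.1))
      (by simpa [e] using h2 i k (Ne.symm hk.1))
    change σ i = i
    grind
  by_contra h3
  rw [(Nat.not_even_iff_odd.1 h3).neg_one_pow] at h1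
  simp at h1

/-- coordinates for the transpositions of six letters -/
def sy_f : Fin 6 → Fin 4 → ZMod 3 :=
  ![![0, 0, 0, 0], ![0, 0, 1, 0], ![0, 1, 2, 1], ![0, 2, 2, 1], ![1, 0, 2, 2], ![2, 0, 2, 2]]

/-- coordinates for the transpositions of six letters -/
def sy_g (i j : Fin 6) : Fin 4 → ZMod 3 := if i < j then sy_f i - sy_f j else sy_f j - sy_f i

theorem sy_g1 : ∀ i j, sy_g i j = sy_g j i := by decide +kernel

theorem sy_g2 : ∀ i j, i ≠ j → b3 (-1) (sy_g i j) (sy_g i j) = 1 := by decide +kernel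

theorem sy_g3 : ∀ i j k l, i ≠ j → k ≠ l → sy_g i j = sy_g k l ∨ sy_g i j = -sy_g k l →
    (i = k ∧ j = l) ∨ (i = l ∧ j = k) := by decide +kernel

theorem sy_g4 : ∀ a b c d : ZMod 3, b3 (-1) ![a, b, c, d] ![a, b, c, d] = 1 →
    ∃ i j, i ≠ j ∧ (sy_g i j = ![a, b, c, d] ∨ sy_g i j = -![a, b, c, d]) := by decide +kernel

theorem sy_g5 : ∀ i j k l, i ≠ j → k ≠ l →
    (b3 (-1) (sy_g i j) (sy_g k l) = 0 ↔ i ≠ k ∧ i ≠ l ∧ j ≠ k ∧ j ≠ l) := by decide +kernel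

theorem sy_g6 : ∀ i j k l, i ≠ j → k ≠ l →
    sy_g (Equiv.swap i j k) (Equiv.swap i j l) =
      sy_g k l + b3 (-1) (sy_g k l) (sy_g i j) • sy_g i j ∨
    sy_g (Equiv.swap i j k) (Equiv.swap i j l) =
      -(sy_g k l + b3 (-1) (sy_g k l) (sy_g i j) • sy_g i j) := by decide +kernel

/-- the exceptional isomorphism `S₆ ≅ O₄⁻(3)` -/
theorem SyE.o3 (h : SyE 6 X) : O3 (-1) 4 X := by
  classical
  obtain ⟨p, h⟩ := h
  obtain ⟨ψ, hψ⟩ : ∃ ψ : T.Pt → Fin 4 → ZMod 3, ∀ i j, i ≠ j → ψ (p i j) = sy_g i j := by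
    refine ⟨fun x => if h : ∃ ij : Fin 6 × Fin 6, ij.1 ≠ ij.2 ∧ p ij.1 ij.2 = x then
      sy_g h.choose.1 h.choose.2 else 0, fun i j hij => ?_⟩
    have h1 : ∃ ij : Fin 6 × Fin 6, ij.1 ≠ ij.2 ∧ p ij.1 ij.2 = p i j := ⟨(i, j), hij, rfl⟩
    beta_reduce
    rw [dif_pos h1]
    rcases h.inj _ _ _ _ h1.choose_spec.1 hij h1.choose_spec.2 with ⟨e1, e2⟩ | ⟨e1, e2⟩
    · rw [e1, e2]
    · rw [e1, e2, sy_g1]
  refine ⟨ψ, fun a ha b hb => ?_, fun a ha => ?_, fun a ha b hb e => ?_, fun v hv => ?_,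
    fun a ha b hb e => ?_, fun a ha b hb => ?_⟩
  · obtain ⟨i, j, h1, rfl⟩ := h.surj a ha
    obtain ⟨k, l, h2, rfl⟩ := h.surj b hb
    rw [h.sy_swap h1 h2]
    exact h.mem _ _ ((Equiv.injective _).ne h2)
  · obtain ⟨i, j, h1, rfl⟩ := h.surj a ha
    rw [hψ i j h1]; exact sy_g2 i j h1
  · obtain ⟨i, j, h1, rfl⟩ := h.surj a ha
    obtain ⟨k, l, h2, rfl⟩ := h.surj b hb
    rw [hψ i j h1, hψ k l h2] at e
    rcases sy_g3 i j k l h1 h2 e with ⟨rfl, rfl⟩ | ⟨rfl, rfl⟩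
    · rfl
    · exact h.symm _ _
  · have e : v = ![v 0, v 1, v 2, v 3] := by ext i; fin_cases i <;> rfl
    rw [e] at hv ⊢
    obtain ⟨i, j, h1, h2⟩ := sy_g4 _ _ _ _ hv
    exact ⟨_, h.mem i j h1, by rwa [hψ i j h1]⟩
  · obtain ⟨i, j, h1, rfl⟩ := h.surj a ha
    obtain ⟨k, l, h2, rfl⟩ := h.surj b hb
    rw [hψ i j h1, hψ k l h2, sy_g5 i j k l h1 h2]
    exact ⟨h.sy_cm h1 h2 e, fun ⟨a1, a2, a3, a4⟩ => h.cm_of i j k l h1 h2 a1 a2 a3 a4⟩
  · obtain ⟨i, j, h1, rfl⟩ := h.surj a ha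
    obtain ⟨k, l, h2, rfl⟩ := h.surj b hb
    rw [h.sy_swap h1 h2, hψ i j h1, hψ k l h2, hψ _ _ ((Equiv.injective _).ne h2)]
    exact sy_g6 i j k l h1 h2

end Cfsg.Agent.H3.TTC
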