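import Cfsg.Agent.Fs.IBase

/-! General facts on the isotropic points of a form in characteristic two. -/

set_option autoImplicit false
set_option linter.unusedSectionVars false

namespace Cfsg.Agent.H3.TTC

open Matrix Cfsg.Agent.H6

variable {G : Type*} [Group G] {T : TTC G} {X : Set T.Pt}

section gen

variable {ι : Type*} [Fintype ι] [DecidableEq ι] {F : Type*} [Field F] {τ : F ≃+* F}
  {A : Matrix ι ι F} {ψ : T.Pt → ι → F}

/-- the properties of the forms used -/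
structure UeFm (τ : F ≃+* F) (A : Matrix ι ι F) : Prop where
  det : A.det ≠ 0
  herm : ∀ u v, τ (sf (τ : F →+* F) A u v) = sf (τ : F →+* F) A v u
  two : ∀ x : F, x + x = 0
  nrm : ∀ c : F, c ≠ 0 → τ c * c = 1
  iso_add : ∀ a v, sf (τ : F →+* F) A a a = 0 → sf (τ : F →+* F) A v a ≠ 0 →
    ∃ l : F, sf (τ : F →+* F) A (v + l • a) (v + l • a) = 0

theorem UeFm.comm (f : UeFm τ A) {u v : ι → F} (h : sf (τ : F →+* F) A u v = 0) :
    sf (τ : F →+* F) A v u = 0 := by rw [← f.herm, h, map_zero]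

theorem ue_par_left {u u' v : ι → F} (h : Par u u') :
    sf (τ : F →+* F) A u' v = 0 ↔ sf (τ : F →+* F) A u v = 0 := by
  obtain ⟨c, hc, rfl⟩ := h
  rw [sf_smul_left, mul_eq_zero, or_iff_right hc]

theorem ue_par_right {u v v' : ι → F} (h : Par v v') :
    sf (τ : F →+* F) A u v' = 0 ↔ sf (τ : F →+* F) A u v = 0 := by
  obtain ⟨c, hc, rfl⟩ := h
  rw [sf_smul_right, mul_eq_zero, or_iff_right (by simpa using hc)]

theorem ue_par_iff {u u' v v' : ι → F} (h : Par u u') (h' : Par v v') :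
    sf (τ : F →+* F) A u' v' = 0 ↔ sf (τ : F →+* F) A u v = 0 := by
  rw [ue_par_left h, ue_par_right h']

/-- the transvection -/
def utv (τ : F ≃+* F) (A : Matrix ι ι F) (a v : ι → F) : ι → F :=
  v + sf (τ : F →+* F) A v a • a

theorem utv_def (a v : ι → F) : utv τ A a v = v + sf (τ : F →+* F) A v a • a := rfl

theorem utv_par_left (hN : ∀ c : F, c ≠ 0 → τ c * c = 1) {a a' : ι → F} (h : Par a a') (v : ι → F) :
    utv τ A a' v = utv τ A a v := by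
  obtain ⟨c, hc, rfl⟩ := h
  rw [utv_def, utv_def, sf_smul_right, smul_smul, mul_right_comm]
  erw [hN c hc, one_mul]

theorem utv_par_right (a : ι → F) {v v' : ι → F} (h : Par v v') :
    Par (utv τ A a v) (utv τ A a v') := by
  obtain ⟨c, hc, rfl⟩ := h
  exact ⟨c, hc, by rw [utv_def, utv_def, sf_smul_left, smul_add, smul_smul]⟩

namespace UE

theorem iso (h : UE τ A X ψ) {p : T.Pt} (hp : p ∈ X) : sf (τ : F →+* F) A (ψ p) (ψ p) = 0 :=
  (h.cm_iff p hp p hp).1 (cm_refl p)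

theorem cm_par (h : UE τ A X ψ) {p q : T.Pt} (hp : p ∈ X) (hq : q ∈ X) {u v : ι → F}
    (hu : Par (ψ p) u) (hv : Par (ψ q) v) : cm p q ↔ sf (τ : F →+* F) A u v = 0 := by
  rw [h.cm_iff p hp q hq, ue_par_iff hu hv]

theorem eq_par (h : UE τ A X ψ) {p q : T.Pt} (hp : p ∈ X) (hq : q ∈ X) {u : ι → F}
    (hu : Par (ψ p) u) (hv : Par (ψ q) u) : p = q := h.inj p hp q hq (hu.trans hv.symm)

theorem rf_par (h : UE τ A X ψ) (hN : ∀ c : F, c ≠ 0 → τ c * c = 1) {d p : T.Pt} (hd : d ∈ X)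
    (hp : p ∈ X) {a v : ι → F} (ha : Par (ψ d) a) (hv : Par (ψ p) v) :
    Par (ψ (d ◃ p)) (utv τ A a v) := by
  rw [utv_par_left hN ha]
  exact (h.rf d hd p hp).symm.trans (utv_par_right _ hv)

/-- rescaling of the coordinates -/
theorem rescale (h : UE τ A X ψ) (hN : ∀ c : F, c ≠ 0 → τ c * c = 1) {ψ' : T.Pt → ι → F}
    (hp : ∀ p ∈ X, Par (ψ p) (ψ' p)) : UE τ A X ψ' where
  cl := h.cl
  ne p h1 := (hp p h1).ne_zero (h.ne p h1)
  inj p h1 q h2 e := h.eq_par h1 h2 ((hp p h1).trans e) (hp q h2)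
  cm_iff p h1 q h2 := h.cm_par h1 h2 (hp p h1) (hp q h2)
  rf d h1 p h2 := (h.rf_par hN h1 h2 (hp d h1) (hp p h2)).symm.trans (hp _ (h.cl d h1 p h2))
  surj v h1 h2 := by
    obtain ⟨p, h3, h4⟩ := h.surj v h1 h2
    exact ⟨p, h3, (hp p h3).symm.trans h4⟩

/-- restriction to a subspace -/
theorem restrict (h : UE τ A X ψ) {κ : Type*} [Fintype κ] [DecidableEq κ] {B : Matrix κ κ F}
    (E : (κ → F) →ₗ[F] (ι → F)) (hE : Function.Injective E)
    (hiso : ∀ u v, sf (τ : F →+* F) A (E u) (E v) = sf (τ : F →+* F) B u v) {Y : Set T.Pt}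
    (hY : ∀ p, p ∈ Y ↔ p ∈ X ∧ ∃ u, E u = ψ p) :
    ∃ ψ' : T.Pt → κ → F, UE τ B Y ψ' ∧ ∀ p ∈ Y, E (ψ' p) = ψ p := by
  classical
  let ψ' : T.Pt → κ → F := fun p => if hp : ∃ u, E u = ψ p then hp.choose else 0
  have e : ∀ p ∈ Y, E (ψ' p) = ψ p := fun p hp => by
    have := ((hY p).1 hp).2
    simp only [ψ', dif_pos this]
    exact this.choose_spec
  have hs : ∀ p ∈ Y, p ∈ X := fun p hp => ((hY p).1 hp).1
  have par : ∀ u v, Par (E u) (E v) ↔ Par u v := fun u v =>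
    ⟨fun ⟨c, hc, e⟩ => ⟨c, hc, hE (by rw [e, map_smul])⟩,
      fun ⟨c, hc, e⟩ => ⟨c, hc, by rw [e, map_smul]⟩⟩
  have k : ∀ d ∈ Y, ∀ p ∈ Y,
      Par (E (ψ' p + sf (τ : F →+* F) B (ψ' p) (ψ' d) • ψ' d)) (ψ (d ◃ p)) := fun d hd p hp => by
    rw [map_add, map_smul, ← hiso, e d hd, e p hp]
    exact h.rf d (hs d hd) p (hs p hp)
  have cl : Cl Y := fun d hd p hp => by
    obtain ⟨c, -, e1⟩ := k d hd p hp
    exact (hY _).2 ⟨h.cl d (hs d hd) p (hs p hp), c • _, by rw [e1, map_smul]⟩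
  refine ⟨ψ', ⟨cl, fun p hp h0 => h.ne p (hs p hp) (by rw [← e p hp, h0, map_zero]),
    fun p hp q hq h1 => h.inj p (hs p hp) q (hs q hq) (by rwa [← e p hp, ← e q hq, par]),
    fun p hp q hq => by rw [h.cm_iff p (hs p hp) q (hs q hq), ← hiso, e p hp, e q hq],
    fun d hd p hp => by rw [← par, e _ (cl d hd p hp)]; exact k d hd p hp,
    fun v h1 h2 => ?_⟩, e⟩
  obtain ⟨p, h3, h4⟩ := h.surj (E v) (fun h0 => h1 (hE (by rw [h0, map_zero]))) (by rw [hiso, h2])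
  have h5 : p ∈ Y := by
    obtain ⟨c, -, e1⟩ := h4.symm
    exact (hY p).2 ⟨h3, c • v, by rw [e1, map_smul]⟩
  exact ⟨p, h5, by rwa [← par, e p h5]⟩

/-- counting points -/
theorem count [Fintype F] [DecidableEq F] (h : UE τ A X ψ) (P : (ι → F) → Prop)
    (hP : ∀ u v, Par u v → P u → P v) {Y : Set T.Pt} (hY : ∀ p, p ∈ Y ↔ p ∈ X ∧ P (ψ p)) :
    (Fintype.card F - 1) * Y.ncard =
      Nat.card {v : ι → F // v ≠ 0 ∧ sf (τ : F →+* F) A v v = 0 ∧ P v} := by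
  rw [← Fintype.card_units, ← Nat.card_eq_fintype_card, ← Nat.card_coe_set_eq, ← Nat.card_prod]
  refine Nat.card_congr (Equiv.ofBijective (fun x => ⟨(x.1 : F) • ψ x.2,
    smul_ne_zero x.1.ne_zero (h.ne _ ((hY _).1 x.2.2).1), by
      rw [sf_smul_left, sf_smul_right, h.iso ((hY _).1 x.2.2).1]; simp,
    hP _ _ ⟨_, x.1.ne_zero, rfl⟩ ((hY _).1 x.2.2).2⟩) ⟨?_, ?_⟩)
  · rintro ⟨c, p, hp⟩ ⟨c', q, hq⟩ e
    have e1 : (c : F) • ψ p = (c' : F) • ψ q := congrArg Subtype.val e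
    obtain rfl : p = q := h.eq_par ((hY _).1 hp).1 ((hY _).1 hq).1 ⟨_, c.ne_zero, rfl⟩
      ⟨_, c'.ne_zero, e1⟩
    obtain rfl : c = c' := Units.ext (smul_left_injective F (h.ne _ ((hY _).1 hp).1) e1)
    rfl
  · rintro ⟨v, h1, h2, h3⟩
    obtain ⟨p, h4, h5⟩ := h.surj v h1 h2
    have h6 := hP _ _ h5.symm h3
    obtain ⟨c, hc, rfl⟩ := h5
    exact ⟨⟨Units.mk0 c hc, p, (hY p).2 ⟨h4, h6⟩⟩, rfl⟩

theorem count' [Fintype F] [DecidableEq F] (h : UE τ A X ψ) (P : (ι → F) → Prop)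
    (hP : ∀ u v, Par u v → P u → P v) (h0 : P 0) {Y : Set T.Pt}
    (hY : ∀ p, p ∈ Y ↔ p ∈ X ∧ P (ψ p)) :
    (Fintype.card F - 1) * Y.ncard + 1 =
      Nat.card {v : ι → F // sf (τ : F →+* F) A v v = 0 ∧ P v} := by
  rw [h.count P hP hY]
  have e : {v : ι → F | sf (τ : F →+* F) A v v = 0 ∧ P v} =
      insert 0 {v : ι → F | v ≠ 0 ∧ sf (τ : F →+* F) A v v = 0 ∧ P v} := by
    ext v
    by_cases hv : v = 0
    · simp [hv, h0, sf_zero_left]
    · simp [hv]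
  change {v : ι → F | v ≠ 0 ∧ sf (τ : F →+* F) A v v = 0 ∧ P v}.ncard + 1 =
    {v : ι → F | sf (τ : F →+* F) A v v = 0 ∧ P v}.ncard
  rw [e, Set.ncard_insert_of_notMem (by simp)]

theorem card_rs [Fintype F] [DecidableEq F] [Finite G] (h : UE τ A X ψ) (f : UeFm τ A) {d a : T.Pt}
    (hd : d ∈ X) (ha : a ∈ Nc X d) : (Fintype.card F - 1) * ((Rs X d).ncard + 1) + 1 =
      Fintype.card F * ((Fintype.card F - 1) * (Mu X d a).ncard + 1) := by
  have e : Pp X d = insert d (Rs X d) := by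
    ext x
    by_cases hx : x = d
    · simp [hx, Pp, hd]
    · simp [hx, Pp, Rs]
  have h1 : sf (τ : F →+* F) A (ψ d) (ψ a) ≠ 0 := fun h0 => ha.2 ((h.cm_iff d hd a ha.1).2 h0)
  rw [← Set.ncard_insert_of_notMem (a := d) (fun h => h.2.1 rfl), ← e,
    h.count' (fun v => sf (τ : F →+* F) A v (ψ d) = 0) (fun u v e h => (ue_par_left e).2 h)
      (sf_zero_left _ _ _) (Y := Pp X d)
      (fun p => and_congr_right fun hp => by rw [cm_comm, h.cm_iff p hp d hd]),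
    h.count' (fun v => sf (τ : F →+* F) A v (ψ d) = 0 ∧ sf (τ : F →+* F) A v (ψ a) = 0)
      (fun u v e h => ⟨(ue_par_left e).2 h.1, (ue_par_left e).2 h.2⟩)
      ⟨sf_zero_left _ _ _, sf_zero_left _ _ _⟩ (Y := Mu X d a) (fun p => and_congr_right fun hp => by
        rw [cm_comm, h.cm_iff p hp d hd, cm_comm, h.cm_iff p hp a ha.1]),
    ← Nat.card_eq_fintype_card, ← Nat.card_prod]
  refine (Nat.card_congr (Equiv.ofBijective (fun x => ⟨x.2.1 + x.1 • ψ d, by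
    simp only [sf_add_left, sf_add_right, sf_smul_left, sf_smul_right, h.iso hd, x.2.2.1, x.2.2.2.1,
      f.comm x.2.2.2.1]; simp, by
    simp only [sf_add_left, sf_smul_left, h.iso hd, x.2.2.2.1]; simp⟩) ⟨?_, ?_⟩)).symm
  · rintro ⟨c, u, hu⟩ ⟨c', u', hu'⟩ e
    have e1 : u + c • ψ d = u' + c' • ψ d := congrArg Subtype.val e
    have e2 := congrArg (sf (τ : F →+* F) A · (ψ a)) e1
    simp only [sf_add_left, sf_smul_left, hu.2.2, hu'.2.2, zero_add] at e2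
    obtain rfl := mul_right_cancel₀ h1 e2
    obtain rfl := add_right_cancel e1
    rfl
  · rintro ⟨v, h2, h3⟩
    refine ⟨⟨sf (τ : F →+* F) A v (ψ a) / sf (τ : F →+* F) A (ψ d) (ψ a),
      v - (sf (τ : F →+* F) A v (ψ a) / sf (τ : F →+* F) A (ψ d) (ψ a)) • ψ d, ?_, ?_, ?_⟩, by simp⟩
    · simp only [sf_sub_left, sf_sub_right, sf_smul_left, sf_smul_right, h.iso hd, h2, h3,
        f.comm h3]; simp
    · simp only [sf_sub_left, sf_smul_left, h.iso hd, h3]; simp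
    · rw [sf_sub_left, sf_smul_left, div_mul_cancel₀ _ h1, sub_self]

theorem exists_ncm (h : UE τ A X ψ) (f : UeFm τ A) {d : T.Pt} (hd : d ∈ X) :
    ∃ a, a ∈ Nc X d := by
  obtain ⟨v, hv⟩ := exists_sf_one (τ := τ) f.det (h.ne d hd)
  obtain ⟨l, hl⟩ := f.iso_add _ v (h.iso hd) (by rw [hv]; exact one_ne_zero)
  have h1 : sf (τ : F →+* F) A (v + l • ψ d) (ψ d) = 1 := by
    rw [sf_add_left, sf_smul_left, hv, h.iso hd]; simp
  obtain ⟨p, hp, e⟩ := h.surj _ (fun h0 => by rw [h0, sf_zero_left] at h1; exact zero_ne_one h1) hl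
  refine ⟨p, hp, fun hc => ?_⟩
  rw [cm_comm, h.cm_par hp hd e (Par.refl _), h1] at hc
  exact one_ne_zero hc

theorem exists_cm_ncm (h : UE τ A X ψ) (f : UeFm τ A) {a b : T.Pt} (ha : a ∈ X) (hb : b ∈ X)
    (hab : a ≠ b) : ∃ p ∈ X, cm p a ∧ ¬ cm p b := by
  by_cases hc : cm a b
  swap
  · exact ⟨a, ha, cm_refl a, hc⟩
  obtain ⟨y, h1, h2⟩ : ∃ y, sf (τ : F →+* F) A y (ψ a) = 0 ∧ sf (τ : F →+* F) A y (ψ b) ≠ 0 := by
    by_contra hn
    push Not at hn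
    obtain ⟨c, e⟩ := smul_of_perp f.det hn
    exact hab (h.inj a ha b hb (par_of_smul (h.ne b hb) e))
  obtain ⟨l, hl⟩ := f.iso_add _ y (h.iso hb) h2
  have h3 : sf (τ : F →+* F) A (y + l • ψ b) (ψ b) ≠ 0 := by
    rw [sf_add_left, sf_smul_left, h.iso hb]; simpa using h2
  obtain ⟨p, hp, e⟩ := h.surj _ (fun h0 => by rw [h0, sf_zero_left] at h3; exact h3 rfl) hl
  refine ⟨p, hp, ?_, by rwa [h.cm_par hp hb e (Par.refl _)]⟩
  rw [h.cm_par hp ha e (Par.refl _), sf_add_left, sf_smul_left, h1,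
    (h.cm_iff b hb a ha).1 hc.symm]
  simp

theorem st (h : UE τ A X ψ) (f : UeFm τ A) (hne : X.Nonempty)
    (h3 : ∀ a ∈ X, ∀ b ∈ X, ¬ cm a b → ∃ c ∈ X, cm c a ∧ cm c b) : St X := by
  obtain ⟨a0, ha0⟩ := hne
  obtain ⟨b0, hb0, hab0⟩ := h.exists_ncm f ha0
  refine ⟨h.cl, fun r hr hinv => ?_, ?_, ⟨a0, ha0, b0, hb0, hab0⟩⟩
  swap
  · obtain ⟨c, hc, h1, h2⟩ := h3 a0 ha0 b0 hb0 hab0
    exact ⟨c, hc, a0, ha0, fun e => hab0 (e ▸ h2), h1⟩
  by_contra hn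
  push Not at hn
  obtain ⟨⟨a, ha, a', ha', haa, hne⟩, c, hc, c', hc', hcc⟩ := hn
  have kA : ∀ b ∈ X, ∀ b' ∈ X, ∀ p ∈ X, r b b' → cm p b → ¬ cm p b' → r b p :=
    fun b hb b' hb' p hp h1 h2 h4 => by
      have k1 := hinv p hp b hb b' hb' h1
      rw [h2.rf_eq] at k1
      have k2 := hinv b' hb' b' hb' _ (h.cl p hp b' hb') (hr.trans (hr.symm h1) k1)
      rw [rf_self, rf_rf_swap h4] at k2
      exact hr.trans h1 k2
  have kB : ∀ w ∈ X, ¬ r a w → ∀ b ∈ X, r a b → cm w b → ∀ b' ∈ X, r a b' → cm w b' :=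
    fun w hw h1 b hb h2 h4 b' hb' h5 => by
      by_contra h6
      exact h1 (hr.trans h2 (kA b hb b' hb' w hw (hr.trans (hr.symm h2) h5) h4 h6))
  obtain ⟨w', hw', hw1⟩ : ∃ w ∈ X, ¬ r a w := by
    by_contra hn
    push Not at hn
    exact hcc (hr.trans (hr.symm (hn c hc)) (hn c' hc'))
  obtain ⟨w, hw, hw2, hw3⟩ : ∃ w ∈ X, ¬ r a w ∧ ∃ b ∈ X, r a b ∧ cm w b := by
    by_cases h1 : cm a w'
    · exact ⟨w', hw', hw1, a, ha, hr.refl a, h1.symm⟩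
    obtain ⟨e, he, h2, h4⟩ := h3 a ha w' hw' h1
    by_cases h5 : r a e
    · exact ⟨w', hw', hw1, e, he, h5, h4.symm⟩
    · exact ⟨e, he, h5, a, ha, hr.refl a, h2⟩
  obtain ⟨b, hb, hb1, hb2⟩ := hw3
  have hwB := kB w hw hw2 b hb hb1 hb2
  obtain ⟨p, hp, hp1, hp2⟩ := h.exists_cm_ncm f ha ha' hne
  have hpB := kA a ha a' ha' p hp haa hp1 hp2
  obtain ⟨q, hq, hq1, hq2⟩ := h.exists_cm_ncm f ha hw (fun e => hw2 (e ▸ hr.refl a))
  have hqB := kB q hq (fun h1 => hq2 (hwB q hq h1).symm) a ha (hr.refl a) hq1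
  have e1 := (h.cm_iff q hq p hp).1 (hqB p hp hpB)
  have e2 := (h.cm_iff q hq a' ha').1 (hqB a' ha' haa)
  have e3 : sf (τ : F →+* F) A (ψ p + ψ q) (ψ a') ≠ 0 := by
    rw [sf_add_left, e2, add_zero]; exact fun h0 => hp2 ((h.cm_iff p hp a' ha').2 h0)
  obtain ⟨z, hz, e⟩ := h.surj (ψ p + ψ q) (fun h0 => by rw [h0, sf_zero_left] at e3; exact e3 rfl)
    (by rw [sf_add_left, sf_add_right, sf_add_right, h.iso hp, h.iso hq, e1, f.comm e1]; simp)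
  have hzB := kA a ha a' ha' z hz haa (by
    rw [h.cm_par hz ha e (Par.refl _), sf_add_left, (h.cm_iff p hp a ha).1 hp1,
      (h.cm_iff q hq a ha).1 hq1, add_zero]) (by rwa [h.cm_par hz ha' e (Par.refl _)])
  have e4 := (hwB z hz hzB).symm
  rw [h.cm_par hz hw e (Par.refl _), sf_add_left, (h.cm_iff p hp w hw).1 (hwB p hp hpB).symm,
    zero_add] at e4
  exact hq2 ((h.cm_iff q hq w hw).2 e4)

theorem proj (h : UE τ A X ψ) (f : UeFm τ A) {d a x : T.Pt} (hd : d ∈ X) (ha : a ∈ Nc X d)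
    (hx : x ∈ Rs X d) : ∃ y ∈ Mu X d a, ∀ u ∈ Pp X d, cm u x ↔ cm u y := by
  have h1 : sf (τ : F →+* F) A (ψ d) (ψ a) ≠ 0 := fun h0 => ha.2 ((h.cm_iff d hd a ha.1).2 h0)
  have h2 := (h.cm_iff d hd x hx.1).1 hx.2.2
  set c := sf (τ : F →+* F) A (ψ x) (ψ a) / sf (τ : F →+* F) A (ψ d) (ψ a) with hc
  obtain ⟨y, hy, e⟩ := h.surj (ψ x + c • ψ d) (fun h0 => hx.2.1 (h.inj d hd x hx.1
    (par_of_smul (c := -c) (h.ne x hx.1) (by rw [neg_smul, eq_neg_iff_add_eq_zero, h0]))).symm)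
    (by simp only [sf_add_left, sf_add_right, sf_smul_left, sf_smul_right, h.iso hd, h.iso hx.1, h2,
      f.comm h2]; simp)
  refine ⟨y, ⟨hy, ?_, ?_⟩, fun u hu => ?_⟩
  · rw [h.cm_par hd hy (Par.refl _) e, sf_add_right, sf_smul_right, h2, h.iso hd]; simp
  · rw [cm_comm, h.cm_par hy ha.1 e (Par.refl _), sf_add_left, sf_smul_left, hc,
      div_mul_cancel₀ _ h1, f.two]
  · rw [h.cm_par hu.1 hy (Par.refl _) e, sf_add_right, sf_smul_right,
      (h.cm_iff u hu.1 d hd).1 hu.2.symm, mul_zero, add_zero, h.cm_iff u hu.1 x hx.1]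

theorem uemb (h : UE τ A (Set.univ : Set T.Pt) ψ) : T.UEmb τ A ψ :=
  ⟨fun p => h.ne p trivial, fun p q => h.cm_iff p trivial q trivial,
    fun d p => h.rf d trivial p trivial, fun v h1 h2 => by
      obtain ⟨p, -, hp⟩ := h.surj v h1 h2
      exact ⟨p, hp⟩⟩

end UE

end gen

end Cfsg.Agent.H3.TTC
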