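import Cfsg.Agent.Fs.PUe

/-! Unitary type of dimension six: triangles, lines and planes. -/

set_option autoImplicit false
set_option linter.unusedSectionVars false

namespace Cfsg.Agent.H3.TTC

open Matrix Cfsg.Agent.H6

variable {G : Type*} [Group G] [Finite G] {T : TTC G} {X : Set T.Pt}

local notation "⟪" u ", " v "⟫" => sf (F4.τ : F4 →+* F4) (1 : Matrix (Fin 6) (Fin 6) F4) u v

theorem unt_nrm (c : F4) (hc : c ≠ 0) : F4.τ c * c = 1 := F4.τ_mul_self hc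

theorem unt_sf (u v : Fin 6 → F4) : ⟪u, v⟫ = u 0 * F4.τ (v 0) + u 1 * F4.τ (v 1) +
    u 2 * F4.τ (v 2) + u 3 * F4.τ (v 3) + u 4 * F4.τ (v 4) + u 5 * F4.τ (v 5) := by
  simp [sf, dotProduct, Fin.sum_univ_six]

theorem unt_herm (u v : Fin 6 → F4) : F4.τ ⟪u, v⟫ = ⟪v, u⟫ := by
  simp only [unt_sf, map_add, map_mul, F4.τ_τ]; ring

theorem unt_utv (a v : Fin 6 → F4) (i : Fin 6) :
    utv F4.τ 1 a v i = v i + (v 0 * F4.τ (a 0) + v 1 * F4.τ (a 1) + v 2 * F4.τ (a 2) +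
      v 3 * F4.τ (a 3) + v 4 * F4.τ (a 4) + v 5 * F4.τ (a 5)) * a i := by
  rw [← unt_sf]; rfl

theorem unt_recoord {ψ : T.Pt → Fin 6 → F4} (h : UE F4.τ 1 X ψ) (s : Finset (Fin 6))
    (e : Fin 6 → Fin 6 → F4)
    (he : ∀ i ∈ s, ∀ j ∈ s, ⟪e i, e j⟫ = (1 : Matrix (Fin 6) (Fin 6) F4) i j) :
    ∃ (φ : T.Pt → Fin 6 → F4) (E : (Fin 6 → F4) →ₗ[F4] (Fin 6 → F4)), UE F4.τ 1 X φ ∧
      Function.Injective E ∧ (∀ p ∈ X, E (φ p) = ψ p) ∧ ∀ i ∈ s, E (Pi.single i 1) = e i := by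
  obtain ⟨e', h1, h2⟩ := exists_orthonormal_ext F4.orderOf_τ (A := (1 : Matrix (Fin 6) (Fin 6) F4))
    (by simp) (by simp) s e he
  obtain ⟨g, hg1, hg2⟩ := exists_gl_of_gram (by simp) h2
  have hi : Function.Injective g.1.mulVecLin := fun u v huv => by
    have := congrArg ((g⁻¹).1 *ᵥ ·) huv
    simpa using this
  obtain ⟨φ, h', e1⟩ := h.restrict (B := (1 : Matrix (Fin 6) (Fin 6) F4)) g.1.mulVecLin hi
    (fun u v => by
      change sf _ _ (g.1 *ᵥ u) (g.1 *ᵥ v) = _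
      rw [sf_mulVec]
      exact congrArg (fun B => sf _ B u v) hg2) (Y := X)
    (fun p => ⟨fun hp => ⟨hp, (g⁻¹).1 *ᵥ ψ p, by simp⟩, fun hp => hp.1⟩)
  refine ⟨φ, _, h', hi, e1, fun i hi => ?_⟩
  rw [← h1 i hi, ← hg1]
  ext k
  simp

theorem unt_par {E : (Fin 6 → F4) →ₗ[F4] (Fin 6 → F4)} (hE : Function.Injective E)
    {u v : Fin 6 → F4} (h : Par (E u) (E v)) : Par u v := by
  obtain ⟨c, hc, e⟩ := h
  exact ⟨c, hc, hE (by rw [e, map_smul])⟩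

theorem unt_affine {ψ : T.Pt → Fin 6 → F4} (h : UE F4.τ 1 X ψ) {x y z : T.Pt} (hx : x ∈ X)
    (hy : y ∈ X) (hz : z ∈ X) (hxy : ¬ cm x y) (hyz : ¬ cm y z) (hzx : ¬ cm z x)
    (h4 : ¬ cm z (x ◃ y)) : ∃ (φ : T.Pt → Fin 6 → F4) (β : F4), UE F4.τ 1 X φ ∧
      (β = F4.w ∨ β = F4.v) ∧ Par (φ x) ![1, 1, 0, 0, 0, 0] ∧ Par (φ y) ![1, 0, 1, 0, 0, 0] ∧
      Par (φ z) ![1, 0, β, 0, 0, 0] := by
  have n1 : ⟪ψ y, ψ x⟫ ≠ 0 := fun e => hxy ((h.cm_iff y hy x hx).2 e).symm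
  have n2 : ⟪ψ z, ψ x⟫ ≠ 0 := fun e => hzx ((h.cm_iff z hz x hx).2 e)
  obtain ⟨b, pb, ba⟩ : ∃ b, Par (ψ y) b ∧ ⟪b, ψ x⟫ = 1 :=
    ⟨_, ⟨_, F4.τ_ne_zero n1, rfl⟩, by rw [sf_smul_left, unt_nrm _ n1]⟩
  obtain ⟨c, pc, ca⟩ : ∃ c, Par (ψ z) c ∧ ⟪c, ψ x⟫ = 1 :=
    ⟨_, ⟨_, F4.τ_ne_zero n2, rfl⟩, by rw [sf_smul_left, unt_nrm _ n2]⟩
  have aa := h.iso hx
  have bb := (h.cm_par hy hy pb pb).1 (cm_refl y)
  have cc := (h.cm_par hz hz pc pc).1 (cm_refl z)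
  have n3 : ⟪b, c⟫ ≠ 0 := fun e => hyz ((h.cm_par hy hz pb pc).2 e)
  have n4 : ⟪c, utv F4.τ 1 (ψ x) b⟫ ≠ 0 := fun e =>
    h4 ((h.cm_par hz (h.cl x hx y hy) pc (h.rf_par unt_nrm hx hy (Par.refl _) pb)).2 e)
  generalize ha : ψ x = a at *
  generalize hβ : ⟪b, c⟫ = β at n3
  have ab : ⟪a, b⟫ = 1 := by rw [← unt_herm, ba, map_one]
  have ac : ⟪a, c⟫ = 1 := by rw [← unt_herm, ca, map_one]
  have cb : ⟪c, b⟫ = F4.τ β := by rw [← unt_herm, hβ]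
  rw [utv_def, ba, one_smul, sf_add_right, cb, ca] at n4
  have hβ' : β = F4.w ∨ β = F4.v := by clear * - n3 n4; revert β; decide
  obtain ⟨φ, E, h', hE, e1, e2⟩ := unt_recoord h {0, 1, 2}
    ![b + β • (b + c), a + (b + β • (b + c)), β • (b + c), 0, 0, 0] (by
      intro i hi j hj
      simp only [Finset.mem_insert, Finset.mem_singleton] at hi hj
      rcases hi with rfl | rfl | rfl <;> rcases hj with rfl | rfl | rfl <;>
        simp only [cons_val_zero, cons_val_one, cons_val_two, head_cons, tail_cons, sf_add_left,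
          sf_add_right, sf_smul_left, sf_smul_right, aa, bb, cc, ab, ac, ba, ca, cb, hβ] <;>
        rcases hβ' with rfl | rfl <;> decide)
  have s0 := e2 0 (by simp)
  have s1 := e2 1 (by simp)
  have s2 := e2 2 (by simp)
  simp only [cons_val_zero, cons_val_one, cons_val_two, head_cons, tail_cons] at s0 s1 s2
  have v1 : (![1, 1, 0, 0, 0, 0] : Fin 6 → F4) = Pi.single 0 1 + Pi.single 1 1 := by decide
  have v2 : (![1, 0, 1, 0, 0, 0] : Fin 6 → F4) = Pi.single 0 1 + Pi.single 2 1 := by decide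
  have v3 : (![1, 0, β, 0, 0, 0] : Fin 6 → F4) = Pi.single 0 1 + β • Pi.single 2 1 := by
    rcases hβ' with rfl | rfl <;> decide
  refine ⟨φ, β, h', hβ', unt_par hE ?_, unt_par hE ?_, unt_par hE ?_⟩
  · rw [e1 x hx, ha, v1, map_add, s0, s1]
    convert Par.refl a using 1
    funext i
    simp only [Pi.add_apply, Pi.smul_apply, smul_eq_mul]
    generalize b i + β * (b i + c i) = t
    generalize a i = r
    revert t r; decide
  · rw [e1 y hy, v2, map_add, s0, s2]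
    convert pb using 1
    funext i
    simp only [Pi.add_apply, Pi.smul_apply, smul_eq_mul]
    generalize β * (b i + c i) = t
    generalize b i = r
    revert t r; decide
  · rw [e1 z hz, v3, map_add, map_smul, s0, s2]
    convert pc using 1
    funext i
    simp only [Pi.add_apply, Pi.smul_apply, smul_eq_mul]
    generalize c i = t
    generalize b i = r
    revert t r
    rcases hβ' with rfl | rfl <;> decide

theorem unt_word {β : F4} (hβ : β = F4.w ∨ β = F4.v) (v : Fin 6 → F4) :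
    utv F4.τ 1 ![0, 1, β, 0, 0, 0] (utv F4.τ 1 ![β, 0, 1, 0, 0, 0] (utv F4.τ 1 ![0, 1, 1, 0, 0, 0]
      (utv F4.τ 1 ![1, 1, 0, 0, 0, 0] (utv F4.τ 1 ![0, 0, 0, 0, 1, β]
      (utv F4.τ 1 ![0, 0, 0, β, 0, 1] (utv F4.τ 1 ![0, 0, 0, 0, 1, 1]
      (utv F4.τ 1 ![0, 0, 0, 1, 1, 0] v))))))) = β • v := by
  have k1 : ∀ a b : F4, a + (a + b) = b := by decide
  have k2 : ∀ a b : F4, b + (a + b) = a := by decide
  have k3 : ∀ a b : F4, b + (a + b * F4.τ β) * β = a * β := by rcases hβ with rfl | rfl <;> decide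
  have k4 : ∀ a b : F4, a + (a * F4.τ β + b) * β = b * β := by rcases hβ with rfl | rfl <;> decide
  have k5 : ∀ a : F4, a * F4.τ β * F4.τ β = a * β := by rcases hβ with rfl | rfl <;> decide
  have e1 : ∀ v : Fin 6 → F4, utv F4.τ 1 ![0, 0, 0, 1, 1, 0] v =
      ![v 0, v 1, v 2, v 4, v 3, v 5] := fun v => by
    funext i; fin_cases i <;> simp [unt_utv, k1, k2]
  have e2 : ∀ v : Fin 6 → F4, utv F4.τ 1 ![0, 0, 0, 0, 1, 1] v =
      ![v 0, v 1, v 2, v 3, v 5, v 4] := fun v => by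
    funext i; fin_cases i <;> simp [unt_utv, k1, k2]
  have e3 : ∀ v : Fin 6 → F4, utv F4.τ 1 ![0, 0, 0, β, 0, 1] v =
      ![v 0, v 1, v 2, v 5 * β, v 4, v 3 * F4.τ β] := fun v => by
    funext i; fin_cases i <;> simp [unt_utv, k2, k4]
  have e4 : ∀ v : Fin 6 → F4, utv F4.τ 1 ![0, 0, 0, 0, 1, β] v =
      ![v 0, v 1, v 2, v 3, v 5 * F4.τ β, v 4 * β] := fun v => by
    funext i; fin_cases i <;> simp [unt_utv, k1, k3]
  have e5 : ∀ v : Fin 6 → F4, utv F4.τ 1 ![1, 1, 0, 0, 0, 0] v =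
      ![v 1, v 0, v 2, v 3, v 4, v 5] := fun v => by
    funext i; fin_cases i <;> simp [unt_utv, k1, k2]
  have e6 : ∀ v : Fin 6 → F4, utv F4.τ 1 ![0, 1, 1, 0, 0, 0] v =
      ![v 0, v 2, v 1, v 3, v 4, v 5] := fun v => by
    funext i; fin_cases i <;> simp [unt_utv, k1, k2]
  have e7 : ∀ v : Fin 6 → F4, utv F4.τ 1 ![β, 0, 1, 0, 0, 0] v =
      ![v 2 * β, v 1, v 0 * F4.τ β, v 3, v 4, v 5] := fun v => by
    funext i; fin_cases i <;> simp [unt_utv, k2, k4]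
  have e8 : ∀ v : Fin 6 → F4, utv F4.τ 1 ![0, 1, β, 0, 0, 0] v =
      ![v 0, v 2 * F4.τ β, v 1 * β, v 3, v 4, v 5] := fun v => by
    funext i; fin_cases i <;> simp [unt_utv, k1, k3]
  rw [e1, e2, e3, e4, e5, e6, e7, e8]
  funext i; fin_cases i <;> simp [k5, mul_comm β]

theorem un_tri (h : UnE 6 X) : Tri X := by
  obtain ⟨ψ, h⟩ := h
  intro x hx y hy z hz hxy hyz hzx
  have hX := h.cl
  by_cases h4 : cm z (x ◃ y)
  · obtain ⟨e1, e2⟩ := tri_eq hxy hyz hzx h4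
    exact ⟨_, mem_gp (x := y ◃ z) ⟨hX y hy z hz, e2⟩, fun p _ => by rw [e1]⟩
  obtain ⟨φ, β, h', hβ, px, py, pz⟩ := unt_affine h hx hy hz hxy hyz hzx h4
  obtain ⟨a, ha, pa⟩ := h'.surj ![0, 0, 0, 0, 1, β] (fun e => one_ne_zero (congrFun e 4))
    (by rw [unt_sf]; rcases hβ with rfl | rfl <;> decide)
  obtain ⟨b, hb, pb⟩ := h'.surj ![0, 0, 0, β, 0, 1] (fun e => one_ne_zero (congrFun e 5))
    (by rw [unt_sf]; rcases hβ with rfl | rfl <;> decide)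
  obtain ⟨c, hc, pc⟩ := h'.surj ![0, 0, 0, 0, 1, 1] (by decide) (by rw [unt_sf]; decide)
  obtain ⟨d, hd, pd⟩ := h'.surj ![0, 0, 0, 1, 1, 0] (by decide) (by rw [unt_sf]; decide)
  have ca : a.val ∈ gp (Pp X x) := mem_gp ⟨ha, (h'.cm_par hx ha px pa).2 (by simp [unt_sf])⟩
  have cb : b.val ∈ gp (Pp X x) := mem_gp ⟨hb, (h'.cm_par hx hb px pb).2 (by simp [unt_sf])⟩
  have cc : c.val ∈ gp (Pp X x) := mem_gp ⟨hc, (h'.cm_par hx hc px pc).2 (by simp [unt_sf])⟩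
  have cd : d.val ∈ gp (Pp X x) := mem_gp ⟨hd, (h'.cm_par hx hd px pd).2 (by simp [unt_sf])⟩
  have p1 : Par (φ (z ◃ x)) ![0, 1, β, 0, 0, 0] := by
    convert h'.rf_par unt_nrm hz hx pz px using 1
    funext i; rw [unt_utv]; revert i; rcases hβ with rfl | rfl <;> decide
  have p2 : Par (φ (y ◃ z)) ![β, 0, 1, 0, 0, 0] := by
    convert h'.rf_par unt_nrm hy hz py pz using 1
    funext i; rw [unt_utv]; revert i; rcases hβ with rfl | rfl <;> decide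
  have p3 : Par (φ (x ◃ y)) ![0, 1, 1, 0, 0, 0] := by
    convert h'.rf_par unt_nrm hx hy px py using 1
    funext i; rw [unt_utv]; revert i; decide
  have hk : x.val * a.val * b.val * c.val * d.val ∈ gp (Pp X x) :=
    mul_mem (mul_mem (mul_mem (mul_mem (mem_gp ⟨hx, cm_refl x⟩) ca) cb) cc) cd
  have key : ∀ p ∈ X, tri x y z • (x.val * a.val * b.val * c.val * d.val) • p = p := by
    intro p hp
    have m1 := hX d hd p hp
    have m2 := hX c hc _ m1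
    have m3 := hX b hb _ m2
    have m4 := hX a ha _ m3
    have m5 := hX x hx _ m4
    have m6 := hX _ (hX x hx y hy) _ m5
    have m7 := hX _ (hX y hy z hz) _ m6
    have m8 := hX _ (hX z hz x hx) _ m7
    have q := h'.rf_par unt_nrm (hX z hz x hx) m7 p1 (h'.rf_par unt_nrm (hX y hy z hz) m6 p2
      (h'.rf_par unt_nrm (hX x hx y hy) m5 p3 (h'.rf_par unt_nrm hx m4 px
      (h'.rf_par unt_nrm ha m3 pa (h'.rf_par unt_nrm hb m2 pb (h'.rf_par unt_nrm hc m1 pc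
      (h'.rf_par unt_nrm hd hp pd (Par.refl _))))))))
    rw [unt_word hβ] at q
    have := h'.eq_par m8 hp q ⟨β, by rcases hβ with rfl | rfl <;> decide, rfl⟩
    simpa only [tri, mul_smul, rf_def] using this
  refine ⟨_, inv_mem hk, fun p hp => ?_⟩
  have := key _ (hX.smul_mem (inv_mem (gp_mono (fun _ h => h.1) hk)) hp)
  rwa [smul_inv_smul] at this

theorem unt_pair (h : UnE 6 X) (hs : St X) {d e : T.Pt} (hd : d ∈ X) (he : e ∈ Rs X d) :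
    ∃ φ : T.Pt → Fin 6 → F4, UE F4.τ 1 X φ ∧ Par (φ d) ![1, 1, 0, 0, 0, 0] ∧
      Par (φ e) ![0, 0, 1, 1, 0, 0] := by
  obtain ⟨ψ, h⟩ := h
  obtain ⟨a, ha, pa⟩ := h.surj ![1, 1, 0, 0, 0, 0] (by decide) (by rw [unt_sf]; decide)
  obtain ⟨b, hb, pb⟩ := h.surj ![0, 0, 1, 1, 0, 0] (by decide) (by rw [unt_sf]; decide)
  obtain ⟨g, hg, rfl, rfl⟩ := hs.pair_cm ha (b := b) ⟨hb, fun e => by
    subst e
    exact absurd (pa.symm.trans pb) (by unfold Par; decide),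
    (h.cm_par ha hb pa pb).2 (by rw [unt_sf]; decide)⟩ hd he
  have h1 := h.map (fiso g)
  rw [h.cl.image_fiso hg] at h1
  refine ⟨_, h1, ?_, ?_⟩
  · rw [← fiso_apply, Equiv.symm_apply_apply]; exact pa
  · rw [← fiso_apply, Equiv.symm_apply_apply]; exact pb

theorem unt_line (v : Fin 6 → F4) :
    utv F4.τ 1 ![1, 1, 0, 0, 0, 0] (utv F4.τ 1 ![0, 0, 1, 1, 0, 0] (utv F4.τ 1 ![1, 1, 1, 1, 0, 0]
      (utv F4.τ 1 ![1, 1, F4.w, F4.w, 0, 0] (utv F4.τ 1 ![1, 1, F4.v, F4.v, 0, 0] v)))) = v := by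
  have k : ∀ a b v : Fin 6 → F4, ⟪b, a⟫ = 0 → ⟪utv F4.τ 1 b v, a⟫ = ⟪v, a⟫ := fun a b v h => by
    rw [utv_def, sf_add_left, sf_smul_left, h, mul_zero, add_zero]
  rw [utv_def, k _ _ _ (by rw [unt_sf]; decide), k _ _ _ (by rw [unt_sf]; decide),
    k _ _ _ (by rw [unt_sf]; decide), k _ _ _ (by rw [unt_sf]; decide), utv_def,
    k _ _ _ (by rw [unt_sf]; decide), k _ _ _ (by rw [unt_sf]; decide),
    k _ _ _ (by rw [unt_sf]; decide), utv_def, k _ _ _ (by rw [unt_sf]; decide),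
    k _ _ _ (by rw [unt_sf]; decide), utv_def, k _ _ _ (by rw [unt_sf]; decide), utv_def]
  funext i
  simp only [Pi.add_apply, Pi.smul_apply, smul_eq_mul, unt_sf, add_assoc, add_eq_left]
  simp only [cons_val_zero, cons_val_one, cons_val, map_zero, mul_zero, add_zero]
  generalize v 0 = a
  generalize v 1 = b
  generalize v 2 = c
  generalize v 3 = d
  revert i a b c d
  decide +kernel

set_option synthInstance.maxSize 2000 in
theorem un_six (h : UnE 6 X) (hs : St X) {d e : T.Pt} (hd : d ∈ X) (he : e ∈ Rs X d) :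
    ∃ u₁ ∈ Rs (Rs X d) e, ∃ u₂ ∈ Rs (Rs X d) e, ∃ u₃ ∈ Rs (Rs X d) e,
      u₁ ≠ u₂ ∧ u₁ ≠ u₃ ∧ u₂ ≠ u₃ ∧
      (∀ z ∈ X, cm d z → cm e z → cm u₁ z ∧ cm u₂ z ∧ cm u₃ z) ∧
      d.val * e.val * u₁.val * u₂.val * u₃.val ∈ fx X ∧
      (∀ y ∈ Rs (Rs X d) e, y ≠ u₁ → y ≠ u₂ → y ≠ u₃ → (∃ x ∈ Rs (Rs X d) e, ¬ cm y x) ∧
        (Pp (Rs (Rs X d) e) y).ncard = 19 ∧
        ∀ x ∈ Rs (Rs X d) e, ∀ z ∈ Rs (Rs X d) e, cm x y → cm y z → cm x z) ∧
      ∀ x ∈ Rs (Rs X d) e, ∀ y ∈ Rs (Rs X d) e, ∀ z ∈ Rs (Rs X d) e,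
        ¬ cm x y → ¬ cm y z → ¬ cm z x → cm z (x ◃ y) := by
  obtain ⟨φ, h, pd, pe⟩ := unt_pair h hs hd he
  have hX := h.cl
  have k0 : ∀ a b : F4, a + b = 0 ↔ a = b := by decide
  have cd : ∀ p ∈ X, cm d p ↔ φ p 0 = φ p 1 := fun p hp => by
    rw [cm_comm, h.cm_par hp hd (Par.refl _) pd, unt_sf]; simp [k0]
  have ce : ∀ p ∈ X, cm e p ↔ φ p 2 = φ p 3 := fun p hp => by
    rw [cm_comm, h.cm_par hp he.1 (Par.refl _) pe, unt_sf]; simp [k0]
  have sfR : ∀ u v : Fin 6 → F4, u 0 = u 1 → u 2 = u 3 → v 0 = v 1 → v 2 = v 3 →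
      ⟪u, v⟫ = u 4 * F4.τ (v 4) + u 5 * F4.τ (v 5) := fun u v h1 h2 h3 h4 => by
    rw [unt_sf, h1, h2, h3, h4, F4.add_self, zero_add, F4.add_self, zero_add]
  have cR : ∀ p ∈ Rs (Rs X d) e, ∀ q ∈ Rs (Rs X d) e,
      cm p q ↔ φ p 4 * F4.τ (φ q 4) + φ p 5 * F4.τ (φ q 5) = 0 := fun p hp q hq => by
    rw [h.cm_iff p hp.1.1 q hq.1.1, sfR _ _ ((cd p hp.1.1).1 hp.1.2.2) ((ce p hp.1.1).1 hp.2.2)
      ((cd q hq.1.1).1 hq.1.2.2) ((ce q hq.1.1).1 hq.2.2)]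
  have ex : ∀ l : F4, l ≠ 0 → ∃ u ∈ Rs (Rs X d) e, Par (φ u) ![1, 1, l, l, 0, 0] := by
    intro l hl
    obtain ⟨u, hu, pu⟩ := h.surj ![1, 1, l, l, 0, 0] (fun e => one_ne_zero (congrFun e 0))
      (by rw [sfR _ _ rfl rfl rfl rfl]; simp)
    refine ⟨u, ⟨⟨hu, fun e => ?_, (h.cm_par hd hu pd pu).2 ?_⟩, fun e => ?_,
      (h.cm_par he.1 hu pe pu).2 ?_⟩, pu⟩
    · subst e
      exact absurd (pu.symm.trans pd) (by clear * - hl; revert l; unfold Par; decide)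
    · rw [sfR _ _ rfl rfl rfl rfl]; simp
    · subst e
      exact absurd (pu.symm.trans pe) (by clear * - hl; revert l; unfold Par; decide)
    · rw [sfR _ _ rfl rfl rfl rfl]; simp
  obtain ⟨u₁, h1, p1⟩ := ex 1 (by decide)
  obtain ⟨u₂, h2, p2⟩ := ex F4.w (by decide)
  obtain ⟨u₃, h3, p3⟩ := ex F4.v (by decide)
  refine ⟨u₁, h1, u₂, h2, u₃, h3, fun e => ?_, fun e => ?_, fun e => ?_, fun z hz z1 z2 => ?_,
    mem_fx.2 fun p hp => ?_, fun y hy y1 y2 y3 => ?_, fun x hx y hy z hz hxy hyz hzx => ?_⟩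
  · subst e; exact absurd (p1.symm.trans p2) (by unfold Par; decide)
  · subst e; exact absurd (p1.symm.trans p3) (by unfold Par; decide)
  · subst e; exact absurd (p2.symm.trans p3) (by unfold Par; decide)
  · rw [h.cm_par h1.1.1 hz p1 (Par.refl _), h.cm_par h2.1.1 hz p2 (Par.refl _),
      h.cm_par h3.1.1 hz p3 (Par.refl _), sfR _ _ rfl rfl ((cd z hz).1 z1) ((ce z hz).1 z2),
      sfR _ _ rfl rfl ((cd z hz).1 z1) ((ce z hz).1 z2),
      sfR _ _ rfl rfl ((cd z hz).1 z1) ((ce z hz).1 z2)]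
    simp
  · have m1 := hX u₃ h3.1.1 p hp
    have m2 := hX u₂ h2.1.1 _ m1
    have m3 := hX u₁ h1.1.1 _ m2
    have m4 := hX e he.1 _ m3
    have m5 := hX d hd _ m4
    have q := h.rf_par unt_nrm hd m4 pd (h.rf_par unt_nrm he.1 m3 pe
      (h.rf_par unt_nrm h1.1.1 m2 p1 (h.rf_par unt_nrm h2.1.1 m1 p2
      (h.rf_par unt_nrm h3.1.1 hp p3 (Par.refl _)))))
    rw [unt_line] at q
    have := h.eq_par m5 hp q (Par.refl _)
    simpa only [mul_smul, rf_def] using this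
  · have a1 := (cd y hy.1.1).1 hy.1.2.2
    have a2 := (ce y hy.1.1).1 hy.2.2
    have a3 := (cR y hy y hy).1 (cm_refl y)
    have a4 : φ y 4 ≠ 0 ∧ φ y 5 ≠ 0 := by
      have k : ∀ a b c c' : F4, (![a, a, b, b, c, c'] : Fin 6 → F4) ≠ 0 →
          c * F4.τ c + c' * F4.τ c' = 0 → (c ≠ 0 ∧ c' ≠ 0) ∨
          Par ![a, a, b, b, c, c'] ![1, 1, 0, 0, 0, 0] ∨ Par ![a, a, b, b, c, c'] ![0, 0, 1, 1, 0, 0] ∨
          Par ![a, a, b, b, c, c'] ![1, 1, 1, 1, 0, 0] ∨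
          Par ![a, a, b, b, c, c'] ![1, 1, F4.w, F4.w, 0, 0] ∨
          Par ![a, a, b, b, c, c'] ![1, 1, F4.v, F4.v, 0, 0] := by
        unfold Par; decide +kernel
      have e1 : ![φ y 0, φ y 0, φ y 2, φ y 2, φ y 4, φ y 5] = φ y := by
        funext i; fin_cases i <;> simp [a1, a2]
      have k1 := k (φ y 0) (φ y 2) (φ y 4) (φ y 5)
      rw [e1] at k1
      rcases k1 (h.ne y hy.1.1) a3 with k2 | k2 | k2 | k2 | k2 | k2
      · exact k2
      · exact absurd (h.eq_par hy.1.1 hd k2 pd) hy.1.2.1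
      · exact absurd (h.eq_par hy.1.1 he.1 k2 pe) hy.2.1
      · exact absurd (h.eq_par hy.1.1 h1.1.1 k2 p1) y1
      · exact absurd (h.eq_par hy.1.1 h2.1.1 k2 p2) y2
      · exact absurd (h.eq_par hy.1.1 h3.1.1 k2 p3) y3
    refine ⟨?_, ?_, fun x hx z hz c1 c2 => ?_⟩
    · have k : ∀ c c' : F4, c ≠ 0 → c' ≠ 0 → c * F4.τ c + F4.w * c' * F4.τ (F4.w * c') = 0 ∧
          c * F4.τ c + c' * F4.τ (F4.w * c') ≠ 0 := by decide
      obtain ⟨k1, k2⟩ := k _ _ a4.1 a4.2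
      obtain ⟨x, hx, px⟩ := h.surj ![0, 0, 0, 0, φ y 4, F4.w * φ y 5]
        (fun e => a4.1 (congrFun e 4)) (by rw [sfR _ _ rfl rfl rfl rfl]; exact k1)
      have n : ¬ cm y x := by
        rw [h.cm_par hy.1.1 hx (Par.refl _) px, sfR _ _ a1 a2 rfl rfl]; exact k2
      refine ⟨x, ⟨⟨hx, fun e => n (e ▸ hy.1.2.2.symm), (h.cm_par hd hx pd px).2 ?_⟩,
        fun e => n (e ▸ hy.2.2.symm), (h.cm_par he.1 hx pe px).2 ?_⟩, n⟩
      · rw [sfR _ _ rfl rfl rfl rfl]; simp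
      · rw [sfR _ _ rfl rfl rfl rfl]; simp
    · have k : ∀ c c' s t : F4, c ≠ 0 → c' ≠ 0 →
          (c * F4.τ s + c' * F4.τ t = 0 ↔ t = c' * F4.τ c * s) := by decide
      have k' : ∀ c c' s : F4, c ≠ 0 → c' ≠ 0 →
          s * F4.τ s + c' * F4.τ c * s * F4.τ (c' * F4.τ c * s) = 0 := by decide
      have c1 := h.count' (fun v => v 0 = v 1 ∧ v 2 = v 3 ∧ v 5 = φ y 5 * F4.τ (φ y 4) * v 4)
        (by
          rintro u _ ⟨c, -, rfl⟩ ⟨e1, e2, e3⟩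
          simp only [Pi.smul_apply, smul_eq_mul, e1, e2, e3, true_and]; ring) (by simp)
        (Y := insert d (insert e (Pp (Rs (Rs X d) e) y))) (fun p => by
          have e1 : p ∈ insert d (insert e (Pp (Rs (Rs X d) e) y)) ↔
              p ∈ X ∧ cm d p ∧ cm e p ∧ cm y p := by
            refine ⟨?_, fun ⟨q1, q2, q3, q4⟩ => ?_⟩
            · rintro (rfl | rfl | hp)
              · exact ⟨hd, cm_refl _, he.2.2.symm, hy.1.2.2.symm⟩
              · exact ⟨he.1, he.2.2, cm_refl _, hy.2.2.symm⟩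
              · exact ⟨hp.1.1.1, hp.1.1.2.2, hp.1.2.2, hp.2⟩
            · by_cases q5 : p = d
              · exact .inl q5
              by_cases q6 : p = e
              · exact .inr (.inl q6)
              exact .inr (.inr ⟨⟨⟨q1, q5, q2⟩, q6, q3⟩, q4⟩)
          rw [e1]
          refine and_congr_right fun hp => ?_
          rw [cd p hp, ce p hp]
          refine and_congr_right fun q1 => and_congr_right fun q2 => ?_
          rw [h.cm_iff y hy.1.1 p hp, sfR _ _ a1 a2 q1 q2, k _ _ _ _ a4.1 a4.2])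
      have c2 : Nat.card {v : Fin 6 → F4 // ⟪v, v⟫ = 0 ∧ v 0 = v 1 ∧ v 2 = v 3 ∧
          v 5 = φ y 5 * F4.τ (φ y 4) * v 4} = Nat.card (F4 × F4 × F4) :=
        Nat.card_congr
          { toFun := fun v => (v.1 0, v.1 2, v.1 4)
            invFun := fun t => ⟨![t.1, t.1, t.2.1, t.2.1, t.2.2, φ y 5 * F4.τ (φ y 4) * t.2.2],
              by rw [sfR _ _ rfl rfl rfl rfl]; exact k' _ _ _ a4.1 a4.2, rfl, rfl, rfl⟩
            left_inv := fun ⟨v, _, e1, e2, e3⟩ => Subtype.ext (by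
              funext i; fin_cases i <;> simp [e1, e2, e3])
            right_inv := fun _ => rfl }
      rw [c2, Set.ncard_insert_of_notMem (by
          rintro (q | q)
          · exact he.2.1 q.symm
          · exact q.1.1.2.1 rfl), Set.ncard_insert_of_notMem (fun q => q.1.2.1 rfl)] at c1
      rw [Nat.card_prod, Nat.card_prod, Nat.card_eq_fintype_card, F4.card_eq] at c1
      omega
    · have k : ∀ c c' s t s' t' : F4, c ≠ 0 → c' ≠ 0 → s * F4.τ c + t * F4.τ c' = 0 →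
          c * F4.τ s' + c' * F4.τ t' = 0 → s * F4.τ s' + t * F4.τ t' = 0 := by decide +kernel
      rw [cR x hx y hy] at c1
      rw [cR y hy z hz] at c2
      rw [cR x hx z hz]
      exact k _ _ _ _ _ _ a4.1 a4.2 c1 c2
  · have k : ∀ a a' b b' c c' : F4, a * F4.τ a + a' * F4.τ a' = 0 → b * F4.τ b + b' * F4.τ b' = 0 →
        c * F4.τ c + c' * F4.τ c' = 0 → ¬ a * F4.τ b + a' * F4.τ b' = 0 →
        ¬ b * F4.τ c + b' * F4.τ c' = 0 → ¬ c * F4.τ a + c' * F4.τ a' = 0 →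
        c * F4.τ b + c' * F4.τ b' + F4.τ (b * F4.τ a + b' * F4.τ a') *
          (c * F4.τ a + c' * F4.τ a') = 0 := by decide +kernel
    have f0 := fun p (hp : p ∈ Rs (Rs X d) e) => (cd p hp.1.1).1 hp.1.2.2
    have f1 := fun p (hp : p ∈ Rs (Rs X d) e) => (ce p hp.1.1).1 hp.2.2
    rw [h.cm_par hz.1.1 (hX x hx.1.1 y hy.1.1) (Par.refl _)
      (h.rf_par unt_nrm hx.1.1 hy.1.1 (Par.refl _) (Par.refl _)), utv_def, sf_add_right,
      sf_smul_right, sfR _ _ (f0 z hz) (f1 z hz) (f0 y hy) (f1 y hy),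
      sfR _ _ (f0 y hy) (f1 y hy) (f0 x hx) (f1 x hx),
      sfR _ _ (f0 z hz) (f1 z hz) (f0 x hx) (f1 x hx)]
    rw [cR x hx y hy] at hxy
    rw [cR y hy z hz] at hyz
    rw [cR z hz x hx] at hzx
    exact k _ _ _ _ _ _ ((cR x hx x hx).1 (cm_refl x)) ((cR y hy y hy).1 (cm_refl y))
      ((cR z hz z hz).1 (cm_refl z)) hxy hyz hzx

end Cfsg.Agent.H3.TTC
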