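import Cfsg.Agent.Fs.PUe
import Cfsg.Agent.H6.Ord

/-! Unitary type: coordinates, counting, identification. -/

set_option autoImplicit false
set_option linter.unusedSectionVars false

namespace Cfsg.Agent.H3.TTC

open Matrix Cfsg.Agent.H6

variable {G : Type*} [Group G] [Finite G] {T : TTC G} {X : Set T.Pt}

theorem un_fm (n : ℕ) : UeFm F4.τ (1 : Matrix (Fin n) (Fin n) F4) where
  det := by simp
  herm := hf_conj F4.orderOf_τ
  two := F4.add_self
  nrm _ := F4.τ_mul_self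
  iso_add _ _ := exists_iso_add F4.orderOf_τ

theorem un_form {n : ℕ} (u v : Fin n → F4) :
    sf (F4.τ : F4 →+* F4) 1 u v = ∑ i, u i * F4.cj (v i) := by
  simp only [sf, one_mulVec, dotProduct, Function.comp]
  rfl

theorem un_uv (n : ℕ) : (2 * (3 * uv n + 1) : ℤ) = 2 ^ n * (2 ^ n + (-1) ^ n) := by
  induction n using Nat.twoStepInduction with
  | zero => rw [uv_zero]; norm_num
  | one => rw [uv_one]; norm_num
  | more n ih _ =>
    rw [uv_add_two]
    push_cast
    rw [show (4 : ℤ) ^ n = 2 ^ n * 2 ^ n by rw [← mul_pow]; norm_num]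
    linear_combination 4 * ih

theorem UnE.card {n : ℕ} (h : UnE n X) : X.ncard = uv n := by
  obtain ⟨ψ, h⟩ := h
  have h1 := h.count' (fun _ => True) (fun _ _ _ _ => trivial) trivial (Y := X) (by simp)
  have h2 := (nv_formula (q := 2) F4.card_eq F4.orderOf_τ F4.τ_eq (Finset.univ : Finset (Fin n))).2
  have h3 : nv F4.τ (Finset.univ : Finset (Fin n)) 0 =
      Nat.card {v : Fin n → F4 // sf (F4.τ : F4 →+* F4) 1 v v = 0 ∧ True} :=
    Nat.card_congr (Equiv.subtypeEquivRight fun v => by simp [hf_def])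
  rw [h3, ← h1, F4.card_eq, Finset.card_univ, Fintype.card_fin] at h2
  have h4 := un_uv n
  push_cast at h2
  have : (X.ncard : ℤ) = uv n := by linarith
  exact_mod_cast this

/-- change of coordinates to an orthonormal basis -/
theorem un_onb {n : ℕ} {ψ : T.Pt → Fin n → F4} (h : UE F4.τ 1 X ψ) {e : Fin n → Fin n → F4}
    (he : ONB F4.τ e) : UE F4.τ 1 X fun p i => hf F4.τ (ψ p) (e i) := by
  have k : ∀ v, fm e *ᵥ (fun i => hf F4.τ v (e i)) = v := fun v => by
    conv_rhs => rw [he.expand v]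
    funext j
    simp [fm, mulVec, dotProduct, Finset.sum_apply, mul_comm]
  have hinj : Function.Injective (fm e).mulVecLin := by
    rw [injective_iff_map_eq_zero]
    exact fun u hu => eq_zero_of_mulVec_eq_zero he.det_ne_zero hu
  obtain ⟨φ, h', e'⟩ := h.restrict (B := 1) (fm e).mulVecLin hinj he.hf_fm (Y := X)
    fun p => ⟨fun hp => ⟨hp, _, k _⟩, fun hp => hp.1⟩
  refine h'.rescale (un_fm n).nrm fun p hp => ?_
  rw [show (fun i => hf F4.τ (ψ p) (e i)) = φ p from hinj ((k _).trans (e' p hp).symm)]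
  exact Par.refl _

theorem un_pair {n : ℕ} {ψ : T.Pt → Fin n → F4} (h : UE F4.τ 1 X ψ) {d a : T.Pt} (hd : d ∈ X)
    (ha : a ∈ Nc X d) : ∃ x y : Fin n → F4, hf F4.τ x x = 1 ∧ hf F4.τ y y = 1 ∧ hf F4.τ x y = 0 ∧
      Par (ψ d) (x + y) ∧ Par (ψ a) (x + F4.w • y) := by
  have h1 : hf F4.τ (ψ a) (ψ d) ≠ 0 := fun h0 => ha.2 ((h.cm_iff a ha.1 d hd).2 h0).symm
  set c := F4.τ (hf F4.τ (ψ a) (ψ d)) with hc
  have h2 : hf F4.τ (c • ψ a) (ψ d) = 1 := by rw [hf_smul_left, hc, F4.τ_mul_self h1]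
  have h3 : hf F4.τ (ψ d) (c • ψ a) = 1 := by rw [← hf_conj F4.orderOf_τ, h2, map_one]
  have h4 : hf F4.τ (c • ψ a) (c • ψ a) = 0 := by
    rw [hf_smul_left, hf_smul_right, show hf F4.τ (ψ a) (ψ a) = 0 from h.iso ha.1]; simp
  have h5 : hf F4.τ (ψ d) (ψ d) = 0 := h.iso hd
  have h6 : Par (ψ a) (c • ψ a) := ⟨c, F4.τ_ne_zero h1, rfl⟩
  generalize c • ψ a = b at h2 h3 h4 h6
  refine ⟨b + F4.v • ψ d, b + F4.w • ψ d, ?_, ?_, ?_, ⟨1, one_ne_zero, ?_⟩, h6.trans ⟨F4.v, by decide, ?_⟩⟩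
  · simp only [hf_add_left, hf_add_right, hf_smul_left, hf_smul_right, h2, h3, h4, h5]; decide
  · simp only [hf_add_left, hf_add_right, hf_smul_left, hf_smul_right, h2, h3, h4, h5]; decide
  · simp only [hf_add_left, hf_add_right, hf_smul_left, hf_smul_right, h2, h3, h4, h5]; decide
  · funext i
    simp only [Pi.add_apply, Pi.smul_apply, smul_eq_mul]
    generalize b i = s
    generalize ψ d i = t
    revert s t; decide
  · funext i
    simp only [Pi.add_apply, Pi.smul_apply, smul_eq_mul]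
    generalize b i = s
    generalize ψ d i = t
    revert s t; decide

theorem un_par_coord {n : ℕ} {e : Fin n → Fin n → F4} {u v : Fin n → F4} (h : Par u v) :
    Par (fun i => hf F4.τ u (e i)) fun i => hf F4.τ v (e i) := by
  obtain ⟨c, hc, rfl⟩ := h
  exact ⟨c, hc, funext fun i => hf_smul_left _ _ _⟩

theorem un_coord2 {n : ℕ} (h : UnE (n + 2) X) {d a : T.Pt} (hd : d ∈ X) (ha : a ∈ Nc X d) :
    ∃ ψ : T.Pt → Fin (n + 2) → F4, UE F4.τ 1 X ψ ∧ Par (ψ d) (Fin.cons 1 (Fin.cons 1 0)) ∧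
      Par (ψ a) (Fin.cons 1 (Fin.cons F4.w 0)) := by
  obtain ⟨ψ, h⟩ := h
  obtain ⟨x, y, h1, h2, h3, h4, h5⟩ := un_pair h hd ha
  obtain ⟨e, he, rfl, rfl⟩ := exists_onb_two F4.orderOf_τ h1 h2 h3 (i := 0) (j := 1) (by simp)
  refine ⟨_, un_onb h he, (un_par_coord h4).trans ?_, (un_par_coord h5).trans ?_⟩ <;>
  · refine ⟨1, one_ne_zero, funext fun i => ?_⟩
    rw [one_smul, hf_add_left]
    try rw [hf_smul_left]
    rw [he, he]
    refine Fin.cases ?_ (fun i => Fin.cases ?_ (fun i => ?_) i) i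
    · simp
    · rw [Fin.cons_succ, Fin.cons_zero, Fin.succ_zero_eq_one]; simp
    · have e1 : (0 : Fin (n + 2)) ≠ i.succ.succ := (Fin.succ_ne_zero _).symm
      have e2 : (1 : Fin (n + 2)) ≠ i.succ.succ := (Fin.succ_succ_ne_one _).symm
      rw [one_apply_ne e1, one_apply_ne e2]; simp

/-- extension by zero -/
def unExt (n : ℕ) : (Fin n → F4) →ₗ[F4] (Fin (n + 2) → F4) where
  toFun u := Fin.cons 0 (Fin.cons 0 u)
  map_add' u v := by
    funext i
    refine Fin.cases ?_ (fun i => Fin.cases ?_ (fun i => ?_) i) i <;> simp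
  map_smul' c u := by
    funext i
    refine Fin.cases ?_ (fun i => Fin.cases ?_ (fun i => ?_) i) i <;> simp

theorem UnE.mu {n : ℕ} (h : UnE (n + 2) X) {d a : T.Pt} (hd : d ∈ X) (ha : a ∈ Nc X d) :
    UnE n (Mu X d a) := by
  obtain ⟨φ, h', kd, ka⟩ := un_coord2 h hd ha
  obtain ⟨χ, h'', -⟩ := h'.restrict (B := 1) (unExt n)
    (fun u v huv => funext fun i => congrFun huv i.succ.succ)
    (fun u v => by rw [un_form, un_form]; simp [unExt, Fin.sum_univ_succ]) (Y := Mu X d a)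
    (fun p => and_congr_right fun hp => by
      rw [cm_comm, h'.cm_par hp hd (Par.refl _) kd, cm_comm, h'.cm_par hp ha.1 (Par.refl _) ka,
        un_form, un_form]
      have h0 : F4.cj 0 = 0 := rfl
      simp only [Fin.sum_univ_succ, Fin.cons_zero, Fin.cons_succ, Pi.zero_apply, h0, mul_zero,
        Finset.sum_const_zero, add_zero]
      have key : ∀ s t : F4, (s * F4.cj 1 + t * F4.cj 1 = 0 ∧ s * F4.cj 1 + t * F4.cj F4.w = 0) ↔
          s = 0 ∧ t = 0 := by decide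
      rw [key]
      constructor
      · rintro ⟨h3, h4⟩
        refine ⟨fun i => φ p i.succ.succ, funext fun i => ?_⟩
        refine Fin.cases h3.symm (fun i => Fin.cases h4.symm (fun i => rfl) i) i
      · rintro ⟨u, hu⟩
        rw [← hu]
        exact ⟨rfl, rfl⟩)
  exact ⟨χ, h''⟩

theorem un_uv_pos (n : ℕ) : 0 < uv (n + 2) := by rw [uv_add_two]; omega

theorem UnE.st {n : ℕ} (h : UnE n X) (hn : 4 ≤ n) : St X := by
  obtain ⟨n, rfl⟩ := Nat.exists_eq_add_of_le' hn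
  have h0 := h.card
  obtain ⟨ψ, h'⟩ := id h
  refine h'.st (un_fm _) (Set.nonempty_of_ncard_ne_zero fun e => ?_) fun a ha b hb hab => ?_
  · exact (un_uv_pos (n + 2)).ne' (h0.symm.trans e)
  · have h1 := (h.mu ha ⟨hb, hab⟩).card
    obtain ⟨c, h2, h3, h4⟩ := Set.nonempty_of_ncard_ne_zero (s := Mu X a b) fun e => by
      have := un_uv_pos n
      omega
    exact ⟨c, h2, h3.symm, h4.symm⟩

theorem UnE.card_rs {n : ℕ} (h : UnE (n + 2) X) {d : T.Pt} (hd : d ∈ X) :
    (Rs X d).ncard = 4 * uv n := by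
  obtain ⟨ψ, h'⟩ := id h
  obtain ⟨a, ha⟩ := h'.exists_ncm (un_fm _) hd
  have h1 := h'.card_rs (un_fm _) hd ha
  rw [F4.card_eq, (h.mu hd ha).card] at h1
  omega

/-- every line through `d` meets `Mu X d a` -/
theorem UnE.proj {n : ℕ} (h : UnE n X) {d a x : T.Pt} (hd : d ∈ X) (ha : a ∈ Nc X d)
    (hx : x ∈ Rs X d) : ∃ y ∈ Mu X d a, ∀ u ∈ Pp X d, cm u x ↔ cm u y := by
  obtain ⟨ψ, h⟩ := h
  exact h.proj (un_fm _) hd ha hx

theorem un_small {n : ℕ} (h : UnE n X) (hn : n ≤ 3) {x y : T.Pt} (hx : x ∈ X) (hy : y ∈ X)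
    (hc : cm x y) : x = y := by
  by_contra hne
  obtain ⟨ψ, h'⟩ := id h
  have h1 : uv 0 = 0 ∧ uv 1 = 0 := ⟨uv_zero, uv_one⟩
  have h2 := h.card
  rcases n with _ | _ | n
  · rw [h1.1, Set.ncard_eq_zero] at h2
    exact h2.subset hx
  · rw [h1.2, Set.ncard_eq_zero] at h2
    exact h2.subset hx
  · have h3 := h.card_rs hx
    have h4 : uv n = 0 := by
      obtain rfl | rfl : n = 0 ∨ n = 1 := by omega
      exacts [h1.1, h1.2]
    rw [h4, mul_zero, Set.ncard_eq_zero] at h3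
    exact h3.subset ⟨hy, Ne.symm hne, hc⟩

/-- rank at most two -/
theorem UnE.cm_trans {n : ℕ} (h : UnE n X) (hn : n ≤ 5) {d x y z : T.Pt} (hd : d ∈ X)
    (hx : x ∈ Rs X d) (hy : y ∈ Rs X d) (hz : z ∈ Rs X d) (h1 : cm x y) (h2 : cm y z) :
    cm x z := by
  by_cases h3 : n ≤ 3
  · exact absurd (un_small h h3 hd hx.1 hx.2.2).symm hx.2.1
  obtain ⟨n, rfl⟩ := Nat.exists_eq_add_of_le' (show 2 ≤ n by omega)
  obtain ⟨ψ, h'⟩ := id h
  obtain ⟨a, ha⟩ := h'.exists_ncm (un_fm _) hd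
  have hM := h.mu hd ha
  obtain ⟨x', hx1, hx2⟩ := h.proj hd ha hx
  obtain ⟨y', hy1, hy2⟩ := h.proj hd ha hy
  obtain ⟨z', hz1, hz2⟩ := h.proj hd ha hz
  have e1 : x' = y' := un_small hM (by omega) hx1 hy1
    ((hy2 x' ⟨hx1.1, hx1.2.1⟩).1 ((hx2 y ⟨hy.1, hy.2.2⟩).1 h1.symm).symm)
  have e2 : y' = z' := un_small hM (by omega) hy1 hz1
    ((hz2 y' ⟨hy1.1, hy1.2.1⟩).1 ((hy2 z ⟨hz.1, hz.2.2⟩).1 h2.symm).symm)
  rw [hz2 x ⟨hx.1, hx.2.2⟩, ← e2, ← e1, ← hx2 x ⟨hx.1, hx.2.2⟩]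
  exact cm_refl x

theorem UnE.top {n : ℕ} (h : UnE n (Set.univ : Set T.Pt)) (hn : 4 ≤ n)
    (hZ : Subgroup.center G = ⊥) : Nonempty (G ≃* Cfsg.PSU n F4 2) := by
  obtain ⟨ψ, h'⟩ := id h
  exact h'.uemb.equiv_psu F4.card_eq F4.orderOf_τ F4.τ_eq hn (st_univ_iff.1 (h.st hn)) hZ

theorem un_quot_psu {n : ℕ} (hn : 4 ≤ n) {ψ : T.Pt → Fin n → F4} (E : T.UEmb F4.τ 1 ψ)
    (h : T.Std) : Nonempty (G ⧸ Subgroup.center G ≃* PSU n F4 2) := by
  classical
  have hσ := F4.orderOf_τ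
  have hτ := F4.τ_eq
  have U := suLike (n := n) hσ hτ
  have h2 := F4.two_eq_zero
  have hρ : ∀ t : SU n F4 2, t.1.1 = jRho (suJ F4 n 2) t := fun _ => rfl
  exact E.quot_equiv h U.toIsom U.inj (fun c hc => F4.τ_mul_self hc)
    (TTC.ofClass (S1631.result F4 F4.card_eq n hn)) (fun t => ⟨fun ht => by
      obtain ⟨a, f, ha, hf0, e⟩ := H3.exists_tv_of_rank ht
      have hd : f ⬝ᵥ a = 0 := by
        have h1 : (tv a f).det = 1 := by rw [← e]; exact t.1.2
        rw [H3.det_tv'] at h1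
        simpa using h1
      obtain ⟨c, hc, e'⟩ := (U.toIsom.par_pf (t := t) ⟨ha, hf0, hd, e⟩).symm
      have e1 : ∀ v, jRho (suJ F4 n 2) t *ᵥ v = v + (c * hf F4.τ v a) • a := fun v => by
        rw [← hρ, e, tv_mulVec, e', smul_dotProduct, pf_dot_hf, smul_eq_mul]
      have haa : hf F4.τ a a = 0 := by
        rw [e', smul_dotProduct, pf_dot_hf, smul_eq_mul] at hd
        exact (mul_eq_zero.1 hd).resolve_left hc
      obtain ⟨v, hv⟩ := exists_hf_one (τ := F4.τ) ha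
      have hv' : hf F4.τ a v = 1 := by rw [← hf_conj hσ, hv, map_one]
      have h1 := U.isom t v v
      simp only [e1, hf_add_left, hf_add_right, hf_smul_left, hf_smul_right, hv, hv', haa, mul_one,
        hτ] at h1
      have hc1 : c = 1 := by
        apply mul_left_cancel₀ hc
        linear_combination h1 - c * h2
      exact ⟨a, ha, haa, fun v => by rw [e1, hc1, one_mul, hf_def]⟩,
      fun ⟨a, ha⟩ => ha.rank U.toIsom.det⟩)
    (fun a ha ha' => by
      obtain ⟨t, ht⟩ := U.exists_tv (a := a) ha' (k := 1) (by rw [map_one]; linear_combination h2)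
      exact ⟨t, ha, ha', fun v => by rw [ht, tv_mulVec, one_smul, pf_dot]⟩)

theorem un_card_su : Nat.card (SU 6 F4 2) * 3 = 82771476480 := by
  have h1 := (guLike (n := 6) F4.orderOf_τ F4.τ_eq).card_eq (q := 2) F4.card_eq
  have h2 : guO 2 (Fintype.card (Fin 6)) = 82771476480 := by
    rw [Fintype.card_fin]; decide
  have h3 : Nat.card (GU 6 F4 2) = 82771476480 := by
    rw [h2] at h1; exact_mod_cast h1
  have h4 : (guDet (F := F4) 6 F4.τ_eq).ker = (suG F4 6 2).range := by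
    ext g; exact su_hr F4.τ_eq g
  rw [← h3, ← Subgroup.card_mul_index (guDet (F := F4) 6 F4.τ_eq).ker, Subgroup.index_ker,
    MonoidHom.range_eq_top.2 (guDet_surj F4.τ_eq), Subgroup.card_top,
    card_normOne (q := 2) F4.card_eq, h4,
    Nat.card_congr (MonoidHom.ofInjective (suG_inj (F := F4) (n := 6) (q := 2))).toEquiv]

theorem un_card_center : Nat.card (Subgroup.center (SU 6 F4 2)) = 3 := by
  have U := suLike (n := 6) F4.orderOf_τ F4.τ_eq
  have S := U.setup (by simp)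
  have hex : ∀ c : F4ˣ, ∃ g, jRho (suJ F4 6 2) g = (c : F4) • 1 := fun c =>
    U.surj _ (by
      rw [det_smul, det_one, mul_one, Fintype.card_fin]
      have := c.ne_zero
      revert this
      generalize (c : F4) = x
      revert x; decide) fun u v => by
      rw [smul_mulVec, smul_mulVec, one_mulVec, one_mulVec, hf_smul_left, hf_smul_right,
        ← mul_assoc, F4.mul_τ_self c.ne_zero, one_mul]
  choose f hf using hex
  have hc : Nat.card F4ˣ = 3 := by rw [Nat.card_eq_fintype_card, Fintype.card_units, F4.card_eq]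
  rw [← hc]
  refine (Nat.card_congr (Equiv.ofBijective (fun c => ⟨f c, Subgroup.mem_center_iff.2 fun g =>
    U.inj (by rw [map_mul, map_mul, hf]; simp)⟩) ⟨fun c c' e => ?_, fun z => ?_⟩)).symm
  · have e1 : f c = f c' := congrArg Subtype.val e
    have := hf c
    rw [e1, hf] at this
    exact Units.ext (by simpa using (congrFun (congrFun this 0) 0).symm)
  · obtain ⟨c, e⟩ := S.center z z.2
    have h0 : c ≠ 0 := by
      rintro rfl
      have h1 : jRho (suJ F4 6 2) z * jRho (suJ F4 6 2) (z : SU 6 F4 2)⁻¹ = 1 := by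
        rw [← map_mul, mul_inv_cancel, map_one]
      rw [e, zero_smul, zero_mul] at h1
      exact zero_ne_one h1
    exact ⟨Units.mk0 c h0, Subtype.ext (U.inj (by rw [e]; exact hf _))⟩

theorem un_card_psu : Nat.card (PSU 6 F4 2) = 9196830720 := by
  have h1 := Subgroup.card_eq_card_quotient_mul_card_subgroup (Subgroup.center (SU 6 F4 2))
  have h2 := un_card_su
  rw [un_card_center] at h1
  change _ = Nat.card (PSU 6 F4 2) * 3 at h1
  omega

theorem UnE.cq (h : UnE 6 X) : cq X = 9196830720 := by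
  have hs := h.st (by norm_num)
  obtain ⟨ψ, h⟩ := h
  obtain ⟨S, φ, hinj, hr, hval, hsm, hrf, hcm, hstd⟩ := hs.cn.exists_sub
  have hm : ∀ p, φ p ∈ X := fun p => hr ▸ Set.mem_range_self p
  have E : S.UEmb F4.τ 1 (ψ ∘ φ) := ⟨fun p => h.ne _ (hm p), fun p q => by
    rw [← hcm]; exact h.cm_iff _ (hm p) _ (hm q), fun d p => by
    simp only [Function.comp, hrf]; exact h.rf _ (hm d) _ (hm p), fun v h1 h2 => by
    obtain ⟨p, hp, e⟩ := h.surj v h1 h2
    rw [← hr] at hp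
    obtain ⟨p, rfl⟩ := hp
    exact ⟨p, e⟩⟩
  obtain ⟨e⟩ := un_quot_psu (by norm_num) E (hstd hs)
  have h1 : (fx X).subgroupOf (gp X) = Subgroup.center (gp X) := by
    rw [← ker_toPermHom (T := S)]
    ext g
    rw [Subgroup.mem_subgroupOf, mem_fx, MonoidHom.mem_ker]
    constructor
    · intro hg
      ext1 p
      exact hinj ((hsm g p).trans (hg _ (hm p)))
    · intro hg x hx
      rw [← hr] at hx
      obtain ⟨p, rfl⟩ := hx
      rw [← hsm]
      exact congrArg φ (congrArg (· p) hg)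
  rw [TTC.cq, Subgroup.relIndex, h1, Subgroup.index, Nat.card_congr e.toEquiv, un_card_psu]

end Cfsg.Agent.H3.TTC
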