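import Cfsg.Agent.Fs.PUna

/-! Unitary type: lines and planes in dimension six. -/

set_option autoImplicit false
set_option linter.unusedSectionVars false
set_option synthInstance.maxSize 2000

namespace Cfsg.Agent.H3.TTC

open Matrix Cfsg.Agent.H6

variable {G : Type*} [Group G] [Finite G] {T : TTC G} {X : Set T.Pt}

theorem un_perp_pair {n : ℕ} {u x y : Fin n → F4} (h1 : hf F4.τ u (x + y) = 0)
    (h2 : hf F4.τ u (x + F4.w • y) = 0) : hf F4.τ u x = 0 ∧ hf F4.τ u y = 0 := by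
  rw [hf_add_right] at h1
  rw [hf_add_right, hf_smul_right] at h2
  revert h1 h2
  generalize hf F4.τ u x = s
  generalize hf F4.τ u y = t
  revert s t; decide

theorem un_form6 (u v : Fin 6 → F4) : sf (F4.τ : F4 →+* F4) 1 u v =
    u 0 * F4.cj (v 0) + u 1 * F4.cj (v 1) + u 2 * F4.cj (v 2) + u 3 * F4.cj (v 3) +
      u 4 * F4.cj (v 4) + u 5 * F4.cj (v 5) := by
  rw [un_form, Fin.sum_univ_six]

theorem un_coord_line (h : UnE 6 X) {d e : T.Pt} (hd : d ∈ X) (he : e ∈ Rs X d) :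
    ∃ ψ : T.Pt → Fin 6 → F4, UE F4.τ 1 X ψ ∧ Par (ψ d) ![1, 1, 0, 0, 0, 0] ∧
      Par (ψ e) ![0, 0, 1, 1, 0, 0] := by
  obtain ⟨ψ, h'⟩ := id h
  obtain ⟨a, ha, ha1, ha2⟩ := h'.exists_cm_ncm (un_fm _) he.1 hd he.2.1
  have ha' : a ∈ Nc X d := ⟨ha, ncm_symm ha2⟩
  obtain ⟨φ, hM⟩ := h.mu hd ha'
  obtain ⟨b, hb, hbe⟩ := hM.exists_ncm (un_fm _) (d := e) ⟨he.1, he.2.2, ha1⟩
  obtain ⟨x, y, h1, h2, h3, h4, h5⟩ := un_pair h' hd ha'
  obtain ⟨x', y', k1, k2, k3, k4, k5⟩ := un_pair h' he.1 (a := b) ⟨hb.1, hbe⟩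
  have c1 := un_perp_pair ((h'.cm_par hd he.1 h4 k4).1 he.2.2) ((h'.cm_par hd hb.1 h4 k5).1 hb.2.1)
  have c2 := un_perp_pair ((h'.cm_par ha he.1 h5 k4).1 ha1) ((h'.cm_par ha hb.1 h5 k5).1 hb.2.2)
  have c3 := un_perp_pair (hf_comm F4.orderOf_τ c1.1) (hf_comm F4.orderOf_τ c2.1)
  have c4 := un_perp_pair (hf_comm F4.orderOf_τ c1.2) (hf_comm F4.orderOf_τ c2.2)
  have cc := fun {u v : Fin 6 → F4} => hf_comm (u := u) (v := v) F4.orderOf_τ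
  obtain ⟨f, hf1, hf2⟩ := exists_orthonormal_ext F4.orderOf_τ herm_one (A := 1) (by simp)
    ({0, 1, 2, 3} : Finset (Fin 6)) ![x, y, x', y', 0, 0] (by
      simp only [Finset.mem_insert, Finset.mem_singleton, ← hf_def]
      rintro i (rfl | rfl | rfl | rfl) j (rfl | rfl | rfl | rfl) <;>
        simp [h1, h2, h3, k1, k2, k3, c3.1, c3.2, c4.1, c4.2, cc h3, cc k3, cc c3.1, cc c3.2,
          cc c4.1, cc c4.2])
  have hO : ONB F4.τ f := hf2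
  have e0 : x = f 0 := (hf1 0 (by simp)).symm
  have e1 : y = f 1 := (hf1 1 (by simp)).symm
  have e2 : x' = f 2 := (hf1 2 (by simp)).symm
  have e3 : y' = f 3 := (hf1 3 (by simp)).symm
  rw [e0, e1] at h4
  rw [e2, e3] at k4
  refine ⟨_, un_onb h' hO, (un_par_coord h4).trans ?_, (un_par_coord k4).trans ?_⟩ <;>
  · refine ⟨1, one_ne_zero, funext fun i => ?_⟩
    rw [one_smul, hf_add_left, hO, hO]
    revert i; decide

theorem un_five {n : ℕ} {D E : Fin n → F4} (h1 : hf F4.τ D D = 0) (h2 : hf F4.τ D E = 0)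
    (h3 : hf F4.τ E D = 0) (h4 : hf F4.τ E E = 0) (x : Fin n → F4) :
    utv F4.τ 1 D (utv F4.τ 1 E (utv F4.τ 1 (D + F4.i • E) (utv F4.τ 1 (D + F4.w • E)
      (utv F4.τ 1 (D + F4.v • E) x)))) = x := by
  simp only [utv_def, ← hf_def, hf_add_left, hf_add_right, hf_smul_left, hf_smul_right, h1, h2, h3,
    h4, mul_zero, add_zero]
  funext i
  simp only [Pi.add_apply, Pi.smul_apply, smul_eq_mul]
  generalize hf F4.τ x D = a
  generalize hf F4.τ x E = b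
  generalize D i = s
  generalize E i = t
  generalize x i = u
  revert a b s t u; decide

/-- the form on the hyperbolic plane -/
def ung (a b c d : F4) : F4 := a * F4.cj c + b * F4.cj d

theorem un_t1 : ∀ a b : F4, ¬ (a = 0 ∧ b = 0) → ung a b a b = 0 →
    ∃ c d, ¬ (c = 0 ∧ d = 0) ∧ ung c d c d = 0 ∧ ung a b c d ≠ 0 := by decide +kernel

theorem un_t2 : ∀ a b : F4, ¬ (a = 0 ∧ b = 0) → ung a b a b = 0 →
    ∀ c d, ung a b c d = 0 → ∃ l, c = l * a ∧ d = l * b := by decide +kernel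

theorem un_t3 : ∀ a b : F4, ¬ (a = 0 ∧ b = 0) → ung a b a b = 0 →
    ∀ c d, ung c d a b = 0 → ∀ e f, ung a b e f = 0 → ung c d e f = 0 := by decide +kernel

theorem un_t4 : ∀ a b : F4, ung a b a b = 0 → ∀ c d, ung c d c d = 0 → ung a b c d ≠ 0 →
    ∀ e f, ung e f e f = 0 → ung c d e f ≠ 0 → ung e f a b ≠ 0 →
      ung e f c d + F4.cj (ung c d a b) * ung e f a b = 0 := by decide +kernel

theorem un_t5 : ∀ a b : F4, ung a b a b = 0 → ∀ l, ung (l * a) (l * b) (l * a) (l * b) = 0 ∧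
    ung a b (l * a) (l * b) = 0 := by decide +kernel

theorem un_t6 : ∀ a b : F4, a * F4.cj 1 + b * F4.cj 1 = 0 ↔ b = a := by decide

theorem un_t7 : ∀ a b : F4, a ≠ 0 → b ≠ 0 → ∃ c, c ≠ 0 ∧ c * a = 1 ∧
    (c * b = F4.i ∨ c * b = F4.w ∨ c * b = F4.v) := by decide

theorem un_perpD (v : Fin 6 → F4) :
    sf (F4.τ : F4 →+* F4) 1 v ![1, 1, 0, 0, 0, 0] = 0 ↔ v 1 = v 0 := by
  rw [un_form6, ← un_t6 (v _) (v _)]
  have h0 : F4.cj 0 = 0 := rfl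
  simp [h0]

theorem un_perpE (v : Fin 6 → F4) :
    sf (F4.τ : F4 →+* F4) 1 v ![0, 0, 1, 1, 0, 0] = 0 ↔ v 3 = v 2 := by
  rw [un_form6, ← un_t6 (v _) (v _)]
  have h0 : F4.cj 0 = 0 := rfl
  simp [h0]

theorem un_formg {u v : Fin 6 → F4} (h1 : u 1 = u 0) (h2 : u 3 = u 2) (h3 : v 1 = v 0)
    (h4 : v 3 = v 2) : sf (F4.τ : F4 →+* F4) 1 u v = ung (u 4) (u 5) (v 4) (v 5) := by
  rw [un_form6, h1, h2, h3, h4, F4.add_self, zero_add, F4.add_self, zero_add, ung]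

/-- lines and planes of the six-dimensional space -/
theorem UnE.six (h : UnE 6 X) {d e : T.Pt} (hd : d ∈ X) (he : e ∈ Rs X d) :
    ∃ u₁ ∈ Rs (Rs X d) e, ∃ u₂ ∈ Rs (Rs X d) e, ∃ u₃ ∈ Rs (Rs X d) e,
      u₁ ≠ u₂ ∧ u₁ ≠ u₃ ∧ u₂ ≠ u₃ ∧
      (∀ z ∈ X, cm d z → cm e z → cm u₁ z ∧ cm u₂ z ∧ cm u₃ z) ∧
      d.val * e.val * u₁.val * u₂.val * u₃.val ∈ fx X ∧
      (∀ y ∈ Rs (Rs X d) e, y ≠ u₁ → y ≠ u₂ → y ≠ u₃ → (∃ x ∈ Rs (Rs X d) e, ¬ cm y x) ∧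
        (Pp (Rs (Rs X d) e) y).ncard = 19 ∧
        ∀ x ∈ Rs (Rs X d) e, ∀ z ∈ Rs (Rs X d) e, cm x y → cm y z → cm x z) ∧
      ∀ x ∈ Rs (Rs X d) e, ∀ y ∈ Rs (Rs X d) e, ∀ z ∈ Rs (Rs X d) e,
        ¬ cm x y → ¬ cm y z → ¬ cm z x → cm z (x ◃ y) := by
  obtain ⟨ψ, h, kd, ke⟩ := un_coord_line h hd he
  set D : Fin 6 → F4 := ![1, 1, 0, 0, 0, 0] with hD
  set E : Fin 6 → F4 := ![0, 0, 1, 1, 0, 0] with hE
  have hN := (un_fm 6).nrm
  have cd : ∀ p ∈ X, cm d p ↔ ψ p 1 = ψ p 0 := fun p hp => by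
    rw [cm_comm, h.cm_par hp hd (Par.refl _) kd, un_perpD]
  have ce : ∀ p ∈ X, cm e p ↔ ψ p 3 = ψ p 2 := fun p hp => by
    rw [cm_comm, h.cm_par hp he.1 (Par.refl _) ke, un_perpE]
  have hg : ∀ p ∈ X, cm d p → cm e p → ∀ q ∈ X, cm d q → cm e q →
      sf (F4.τ : F4 →+* F4) 1 (ψ p) (ψ q) = ung (ψ p 4) (ψ p 5) (ψ q 4) (ψ q 5) :=
    fun p hp h1 h2 q hq h3 h4 => un_formg ((cd p hp).1 h1) ((ce p hp).1 h2) ((cd q hq).1 h3)
      ((ce q hq).1 h4)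
  have hR : ∀ p ∈ Rs (Rs X d) e, ∀ q ∈ Rs (Rs X d) e,
      sf (F4.τ : F4 →+* F4) 1 (ψ p) (ψ q) = ung (ψ p 4) (ψ p 5) (ψ q 4) (ψ q 5) :=
    fun p hp q hq => hg p hp.1.1 hp.1.2.2 hp.2.2 q hq.1.1 hq.1.2.2 hq.2.2
  have hRc : ∀ p ∈ Rs (Rs X d) e, ∀ q ∈ Rs (Rs X d) e,
      cm p q ↔ ung (ψ p 4) (ψ p 5) (ψ q 4) (ψ q 5) = 0 := fun p hp q hq => by
    rw [h.cm_iff p hp.1.1 q hq.1.1, hR p hp q hq]
  have mk : ∀ v : Fin 6 → F4, v 1 = v 0 → v 3 = v 2 → ung (v 4) (v 5) (v 4) (v 5) = 0 → v ≠ 0 →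
      ¬ Par v D → ¬ Par v E → ∃ p ∈ Rs (Rs X d) e, Par (ψ p) v := fun v h1 h2 h3 h4 h5 h6 => by
    obtain ⟨p, hp, e1⟩ := h.surj v h4 (by rw [un_formg h1 h2 h1 h2, h3])
    refine ⟨p, ⟨⟨hp, fun e2 => h5 (e1.symm.trans (e2 ▸ kd)), ?_⟩,
      fun e2 => h6 (e1.symm.trans (e2 ▸ ke)), ?_⟩, e1⟩
    · rw [cm_comm, h.cm_par hp hd e1 kd, un_perpD]; exact h1
    · rw [cm_comm, h.cm_par hp he.1 e1 ke, un_perpE]; exact h2
  have mku : ∀ c : F4, c ≠ 0 → ∃ p ∈ Rs (Rs X d) e, Par (ψ p) (D + c • E) := fun c hc =>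
    mk _ (by simp [hD, hE]) (by simp [hD, hE]) (by simp [hD, hE, ung])
      (fun h0 => by simpa [hD, hE] using congrFun h0 0)
      (fun ⟨l, hl, h0⟩ => by
        have := congrFun h0 2
        simp [hD, hE, hl, hc] at this)
      (fun ⟨l, hl, h0⟩ => by
        have := congrFun h0 0
        simp [hD, hE, hl.symm] at this)
  obtain ⟨u₁, hu₁, k₁⟩ := mku F4.i (by decide)
  obtain ⟨u₂, hu₂, k₂⟩ := mku F4.w (by decide)
  obtain ⟨u₃, hu₃, k₃⟩ := mku F4.v (by decide)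
  have ne : ∀ {p q : T.Pt} {c c' : F4}, c ≠ c' → Par (ψ p) (D + c • E) → Par (ψ q) (D + c' • E) →
      p ≠ q := fun {p q c c'} hc h1 h2 e1 => by
    subst e1
    obtain ⟨l, -, h0⟩ := h1.symm.trans h2
    have h3 := congrFun h0 0
    have h4 := congrFun h0 2
    simp only [hD, hE, Pi.add_apply, Pi.smul_apply, smul_eq_mul, cons_val_zero, cons_val,
      mul_zero, add_zero, mul_one, zero_add] at h3 h4
    rw [← h3, one_mul] at h4
    exact hc h4.symm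
  have cu : ∀ {p : T.Pt} {c : F4}, p ∈ X → Par (ψ p) (D + c • E) → ∀ z ∈ X, cm d z → cm e z →
      cm p z := fun {p c} hp h1 z hz h2 h3 => by
    rw [h.cm_par hp hz h1 (Par.refl _), sf_add_left, sf_smul_left,
      (h.cm_par hd hz kd (Par.refl _)).1 h2, (h.cm_par he.1 hz ke (Par.refl _)).1 h3]
    simp
  refine ⟨u₁, hu₁, u₂, hu₂, u₃, hu₃, ne (by decide) k₁ k₂, ne (by decide) k₁ k₃,
    ne (by decide) k₂ k₃, fun z hz h1 h2 => ⟨cu hu₁.1.1 k₁ z hz h1 h2, cu hu₂.1.1 k₂ z hz h1 h2,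
      cu hu₃.1.1 k₃ z hz h1 h2⟩, mem_fx.2 fun p hp => ?_, fun y hy n1 n2 n3 => ?_,
    fun x hx y hy z hz h1 h2 h3 => ?_⟩
  · have m3 := h.cl _ hu₃.1.1 _ hp
    have m2 := h.cl _ hu₂.1.1 _ m3
    have m1 := h.cl _ hu₁.1.1 _ m2
    have m0 := h.cl _ he.1 _ m1
    have := h.rf_par hN hd m0 kd (h.rf_par hN he.1 m1 ke (h.rf_par hN hu₁.1.1 m2 k₁
      (h.rf_par hN hu₂.1.1 m3 k₂ (h.rf_par hN hu₃.1.1 hp k₃ (Par.refl _)))))
    rw [un_five ((h.cm_par hd hd kd kd).1 (cm_refl _)) ((h.cm_par hd he.1 kd ke).1 he.2.2)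
      ((h.cm_par he.1 hd ke kd).1 he.2.2.symm) ((h.cm_par he.1 he.1 ke ke).1 (cm_refl _))] at this
    rw [mul_smul, mul_smul, mul_smul, mul_smul]
    exact h.inj _ (h.cl _ hd _ m0) p hp this
  · have y1 := (cd y hy.1.1).1 hy.1.2.2
    have y2 := (ce y hy.1.1).1 hy.2.2
    have y3 := (hRc y hy y hy).1 (cm_refl y)
    have y4 : ¬ (ψ y 4 = 0 ∧ ψ y 5 = 0) := by
      rintro ⟨h4, h5⟩
      have key : ∀ c : F4, c • ψ y = (c * ψ y 0) • D + (c * ψ y 2) • E := fun c => by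
        funext i
        fin_cases i <;> simp [hD, hE, y1, y2, h4, h5]
      by_cases a0 : ψ y 0 = 0
      · have a2 : ψ y 2 ≠ 0 := fun a2 => h.ne y hy.1.1 (by
          have := key 1
          rwa [a0, a2, mul_zero, zero_smul, zero_smul, add_zero, one_smul] at this)
        exact hy.2.1 (h.eq_par hy.1.1 he.1 ⟨(ψ y 2)⁻¹, inv_ne_zero a2, by
          rw [key, a0, inv_mul_cancel₀ a2]; simp⟩ ke)
      by_cases a2 : ψ y 2 = 0
      · exact hy.1.2.1 (h.eq_par hy.1.1 hd ⟨(ψ y 0)⁻¹, inv_ne_zero a0, by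
          rw [key, a2, inv_mul_cancel₀ a0]; simp⟩ kd)
      obtain ⟨c, hc, c1, c2 | c2 | c2⟩ := un_t7 _ _ a0 a2
      · exact n1 (h.eq_par hy.1.1 hu₁.1.1 ⟨c, hc, by rw [key, c1, c2, one_smul]⟩ k₁)
      · exact n2 (h.eq_par hy.1.1 hu₂.1.1 ⟨c, hc, by rw [key, c1, c2, one_smul]⟩ k₂)
      · exact n3 (h.eq_par hy.1.1 hu₃.1.1 ⟨c, hc, by rw [key, c1, c2, one_smul]⟩ k₃)
    refine ⟨?_, ?_, fun x hx z hz h1 h2 => ?_⟩
    · obtain ⟨s, t, h1, h2, h3⟩ := un_t1 _ _ y4 y3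
      obtain ⟨x, hx, e1⟩ := mk ![0, 0, 0, 0, s, t] rfl rfl h2
        (fun h0 => h1 ⟨congrFun h0 4, congrFun h0 5⟩)
        (fun ⟨l, hl, h0⟩ => by simpa [hD] using congrFun h0 0)
        (fun ⟨l, hl, h0⟩ => by simpa [hE] using congrFun h0 2)
      refine ⟨x, hx, fun hc => h3 ?_⟩
      rw [h.cm_par hy.1.1 hx.1.1 (Par.refl _) e1, un_formg y1 y2 rfl rfl] at hc
      exact hc
    · have e1 : {p | p ∈ X ∧ cm d p ∧ cm e p ∧ cm y p} =
          insert d (insert e (Pp (Rs (Rs X d) e) y)) := by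
        ext p
        simp only [Set.mem_ofPred_eq, Set.mem_insert_iff, Pp, Rs]
        constructor
        · rintro ⟨h1, h2, h3, h4⟩
          by_cases a1 : p = d
          · exact Or.inl a1
          by_cases a2 : p = e
          · exact Or.inr (Or.inl a2)
          exact Or.inr (Or.inr ⟨⟨⟨h1, a1, h2⟩, a2, h3⟩, h4⟩)
        · rintro (rfl | rfl | ⟨⟨⟨h1, -, h2⟩, -, h3⟩, h4⟩)
          · exact ⟨hd, cm_refl _, he.2.2.symm, hy.1.2.2.symm⟩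
          · exact ⟨he.1, he.2.2, cm_refl _, hy.2.2.symm⟩
          · exact ⟨h1, h2, h3, h4⟩
      have h1 := h.count' (fun v => sf (F4.τ : F4 →+* F4) 1 v D = 0 ∧
          sf (F4.τ : F4 →+* F4) 1 v E = 0 ∧ sf (F4.τ : F4 →+* F4) 1 (ψ y) v = 0)
        (fun u v e h => ⟨(ue_par_left e).2 h.1, (ue_par_left e).2 h.2.1, (ue_par_right e).2 h.2.2⟩)
        ⟨sf_zero_left _ _ _, sf_zero_left _ _ _, sf_zero_right _ _ _⟩
        (Y := {p | p ∈ X ∧ cm d p ∧ cm e p ∧ cm y p}) (fun p => and_congr_right fun hp => by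
          rw [cm_comm, h.cm_par hp hd (Par.refl _) kd, cm_comm, h.cm_par hp he.1 (Par.refl _) ke,
            h.cm_iff y hy.1.1 p hp])
      have h2 : Nat.card (F4 × F4 × F4) = 64 := by
        rw [Nat.card_eq_fintype_card]; rfl
      rw [← Nat.card_congr (Equiv.ofBijective (α := F4 × F4 × F4) (fun c =>
        ⟨![c.1, c.1, c.2.1, c.2.1, c.2.2 * ψ y 4, c.2.2 * ψ y 5], by
          rw [un_formg rfl rfl rfl rfl]; exact (un_t5 _ _ y3 _).1, (un_perpD _).2 rfl,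
          (un_perpE _).2 rfl, by rw [un_formg y1 y2 rfl rfl]; exact (un_t5 _ _ y3 _).2⟩)
        ⟨?_, ?_⟩), h2, e1, Set.ncard_insert_of_notMem, Set.ncard_insert_of_notMem, F4.card_eq] at h1
      · omega
      · exact fun h0 => h0.1.2.1 rfl
      · rintro (h0 | h0)
        · exact he.2.1 h0.symm
        · exact h0.1.1.2.1 rfl
      · rintro ⟨a, b, c⟩ ⟨a', b', c'⟩ e2
        have e3 := congrArg Subtype.val e2
        have e4 : c * ψ y 4 = c' * ψ y 4 := congrFun e3 4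
        have e5 : c * ψ y 5 = c' * ψ y 5 := congrFun e3 5
        obtain rfl : a = a' := congrFun e3 0
        obtain rfl : b = b' := congrFun e3 2
        obtain rfl : c = c' := by
          by_contra hc
          exact y4 ⟨by simpa [hc] using e4, by simpa [hc] using e5⟩
        rfl
      · rintro ⟨v, -, a1, a2, a3⟩
        rw [un_perpD] at a1
        rw [un_perpE] at a2
        rw [un_formg y1 y2 a1 a2] at a3
        obtain ⟨l, b1, b2⟩ := un_t2 _ _ y4 y3 _ _ a3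
        refine ⟨⟨v 0, v 2, l⟩, Subtype.ext (funext fun i => ?_)⟩
        fin_cases i <;> simp [a1, a2, b1, b2]
    · rw [hRc x hx z hz]
      exact un_t3 _ _ y4 y3 _ _ ((hRc x hx y hy).1 h1) _ _ ((hRc y hy z hz).1 h2)
  · rw [h.cm_par hz.1.1 (h.cl _ hx.1.1 _ hy.1.1) (Par.refl _)
      (h.rf_par hN hx.1.1 hy.1.1 (Par.refl _) (Par.refl _)), utv_def, sf_add_right, sf_smul_right,
      hR z hz y hy, hR y hy x hx, hR z hz x hx]
    exact un_t4 _ _ ((hRc x hx x hx).1 (cm_refl _)) _ _ ((hRc y hy y hy).1 (cm_refl _))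
      (fun h0 => h1 ((hRc x hx y hy).2 h0)) _ _ ((hRc z hz z hz).1 (cm_refl _))
      (fun h0 => h2 ((hRc y hy z hz).2 h0)) (fun h0 => h3 ((hRc z hz x hx).2 h0))

end Cfsg.Agent.H3.TTC
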