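import Cfsg.Agent.Fs.PUnb

/-! Unitary type: triangle elements in dimension six. -/

set_option autoImplicit false
set_option linter.unusedSectionVars false
set_option synthInstance.maxSize 2000

namespace Cfsg.Agent.H3.TTC

open Matrix Cfsg.Agent.H6

variable {G : Type*} [Group G] [Finite G] {T : TTC G} {X : Set T.Pt}

/-- the form in dimension three -/
def unh3 (v a : F4 × F4 × F4) : F4 := v.1 * F4.cj a.1 + v.2.1 * F4.cj a.2.1 + v.2.2 * F4.cj a.2.2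

/-- the transvection in dimension three -/
def unt3 (a v : F4 × F4 × F4) : F4 × F4 × F4 :=
  (v.1 + unh3 v a * a.1, v.2.1 + unh3 v a * a.2.1, v.2.2 + unh3 v a * a.2.2)

/-- gluing two vectors -/
def unmk (a b : F4 × F4 × F4) : Fin 6 → F4 := ![a.1, a.2.1, a.2.2, b.1, b.2.1, b.2.2]

theorem un_mk_form (a b c d : F4 × F4 × F4) :
    sf (F4.τ : F4 →+* F4) 1 (unmk a b) (unmk c d) = unh3 a c + unh3 b d := by
  rw [un_form6]
  simp only [unmk, unh3, cons_val_zero, cons_val_one, cons_val, add_assoc]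

theorem unh3_zero_right (a : F4 × F4 × F4) : unh3 a 0 = 0 := by
  have h0 : F4.cj 0 = 0 := rfl
  simp [unh3, h0]

theorem unh3_zero_left (a : F4 × F4 × F4) : unh3 0 a = 0 := by simp [unh3]

theorem un_tv_lo (a u w : F4 × F4 × F4) :
    utv F4.τ 1 (unmk a 0) (unmk u w) = unmk (unt3 a u) w := by
  rw [utv_def, un_mk_form, unh3_zero_right, add_zero]
  funext i
  fin_cases i <;> simp [unmk, unt3]

theorem un_tv_hi (a u w : F4 × F4 × F4) :
    utv F4.τ 1 (unmk 0 a) (unmk u w) = unmk u (unt3 a w) := by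
  rw [utv_def, un_mk_form, unh3_zero_right, zero_add]
  funext i
  fin_cases i <;> simp [unmk, unt3]

theorem un_tri_t : ∀ s t : F4, s * F4.cj s + t * F4.cj t = 1 → ∃ l : F4, l ≠ 0 ∧ ∀ a b c : F4,
    unt3 (1, 1, 0) (unt3 (unt3 (s, t, 1) (1, 1, 0)) (unt3 (unt3 (1, F4.w, 0) (s, t, 1))
      (unt3 (unt3 (1, 1, 0) (1, F4.w, 0)) (a, b, c)))) = (l * a, l * b, l * c) := by
  decide +kernel

theorem un_tri_t2 : ∀ s t : F4, s * F4.cj s + t * F4.cj t = 1 →
    unh3 (s, t, 1) (s, t, 1) = 0 := by decide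

theorem un_tri_t3 : ∀ s t : F4, s + t ≠ 0 → s + F4.τ F4.w * t ≠ 0 →
    s + F4.τ F4.w * t + F4.τ (1 + F4.w) * (s + t) ≠ 0 → s * F4.τ s + t * F4.τ t = 1 := by decide

theorem un_coord_tri (h : UnE 6 X) {x y z : T.Pt} (hx : x ∈ X) (hy : y ∈ X) (hz : z ∈ X)
    (h1 : ¬ cm x y) (h2 : ¬ cm y z) (h3 : ¬ cm z x) (h4 : ¬ cm z (x ◃ y)) :
    ∃ (ψ : T.Pt → Fin 6 → F4) (s t : F4), UE F4.τ 1 X ψ ∧ s * F4.cj s + t * F4.cj t = 1 ∧
      Par (ψ x) (unmk (1, 1, 0) 0) ∧ Par (ψ y) (unmk (1, F4.w, 0) 0) ∧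
      Par (ψ z) (unmk (s, t, 1) 0) := by
  obtain ⟨ψ, h⟩ := h
  obtain ⟨a, b, k1, k2, k3, k4, k5⟩ := un_pair h hx (a := y) ⟨hy, h1⟩
  have k3' := hf_comm F4.orderOf_τ k3
  rw [h.cm_par hz hx (Par.refl _) k4, ← hf_def, hf_add_right] at h3
  rw [cm_comm, h.cm_par hz hy (Par.refl _) k5, ← hf_def, hf_add_right, hf_smul_right] at h2
  rw [h.cm_par hz (h.cl _ hx _ hy) (Par.refl _) (h.rf_par (un_fm 6).nrm hx hy k4 k5), utv_def,
    ← hf_def, ← hf_def] at h4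
  simp only [hf_add_left, hf_add_right, hf_smul_left, hf_smul_right, k1, k2, k3, k3', mul_one,
    add_zero, mul_zero, zero_add] at h4
  have hZ : hf F4.τ (ψ z) (ψ z) = 0 := h.iso hz
  set s := hf F4.τ (ψ z) a with hs
  set t := hf F4.τ (ψ z) b with ht
  have hs' : hf F4.τ a (ψ z) = F4.τ s := (hf_conj F4.orderOf_τ _ _).symm
  have ht' : hf F4.τ b (ψ z) = F4.τ t := (hf_conj F4.orderOf_τ _ _).symm
  have hN := un_tri_t3 s t h3 h2 h4
  obtain ⟨f, hO, e0, e1, e2⟩ := exists_onb_three F4.orderOf_τ k1 k2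
    (z := ψ z + s • a + t • b) (by
      simp only [hf_add_left, hf_add_right, hf_smul_left, hf_smul_right, k1, k2, k3, k3', hZ, ← hs,
        ← ht, hs', ht']
      revert hN
      generalize s = s'
      generalize t = t'
      revert s' t'; decide) k3 (by
      simp only [hf_add_right, hf_smul_right, k1, k3, hs', mul_one, mul_zero, add_zero,
        F4.add_self]) (by
      simp only [hf_add_right, hf_smul_right, k2, k3', ht', mul_one, mul_zero, add_zero,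
        F4.add_self]) (i := 0) (j := 1) (k := 2) (by decide) (by decide) (by decide)
  have e3 : ψ z = s • f 0 + t • f 1 + f 2 := by
    rw [e0, e1, e2]
    funext i
    simp only [Pi.add_apply, Pi.smul_apply, smul_eq_mul]
    generalize s * a i = p
    generalize t * b i = q
    generalize ψ z i = r
    revert p q r; decide
  rw [← e0, ← e1] at k4 k5
  refine ⟨_, s, t, un_onb h hO, hN, (un_par_coord k4).trans ?_, (un_par_coord k5).trans ?_, ?_⟩
  · refine ⟨1, one_ne_zero, funext fun i => ?_⟩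
    rw [one_smul, hf_add_left, hO, hO]
    revert i; decide
  · refine ⟨1, one_ne_zero, funext fun i => ?_⟩
    rw [one_smul, hf_add_left, hf_smul_left, hO, hO]
    revert i; decide
  · refine ⟨1, one_ne_zero, funext fun i => ?_⟩
    rw [one_smul, e3, hf_add_left, hf_add_left, hf_smul_left, hf_smul_left, hO, hO, hO]
    fin_cases i <;> simp [unmk, one_apply]

theorem UnE.tri (h : UnE 6 X) : Tri X := by
  intro x hx y hy z hz h1 h2 h3
  by_cases h4 : cm z (x ◃ y)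
  · obtain ⟨e1, e2⟩ := tri_eq h1 h2 h3 h4
    obtain ⟨ψ, h⟩ := h
    exact ⟨_, mem_gp (x := y ◃ z) ⟨h.cl _ hy _ hz, e2⟩, fun p _ => by rw [e1]⟩
  obtain ⟨ψ, s, t, h, hN, kx, ky, kz⟩ := un_coord_tri h hx hy hz h1 h2 h3 h4
  have hn := (un_fm 6).nrm
  have mk : ∀ v : F4 × F4 × F4, v ≠ 0 → unh3 v v = 0 → ∃ p ∈ Pp X x, Par (ψ p) (unmk 0 v) :=
    fun v hv h0 => by
      obtain ⟨p, hp, e⟩ := h.surj (unmk 0 v) (fun e => hv (Prod.ext (congrFun e 3)
        (Prod.ext (congrFun e 4) (congrFun e 5)))) (by rw [un_mk_form, h0, unh3_zero_left, add_zero])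
      exact ⟨p, ⟨hp, by
        rw [h.cm_par hx hp kx e, un_mk_form, unh3_zero_left, unh3_zero_right, add_zero]⟩, e⟩
  obtain ⟨x', hx', kx'⟩ := mk (1, 1, 0) (by decide) (by decide)
  obtain ⟨y', hy', ky'⟩ := mk (1, F4.w, 0) (by decide) (by decide)
  obtain ⟨z', hz', kz'⟩ := mk (s, t, 1) (fun e => one_ne_zero (congrArg (·.2.2) e))
    (un_tri_t2 s t hN)
  obtain ⟨l, hl, key⟩ := un_tri_t s t hN
  have cP := h.cl.pp x
  have m1 := cP _ hz' _ hx'
  have m2 := cP _ hy' _ hz'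
  have m3 := cP _ hx' _ hy'
  refine ⟨(x'.val * (z' ◃ x').val * (y' ◃ z').val * (x' ◃ y').val * x.val)⁻¹,
    inv_mem (mul_mem (mul_mem (mul_mem (mul_mem (mem_gp hx') (mem_gp m1)) (mem_gp m2)) (mem_gp m3))
      (mem_gp ⟨hx, cm_refl x⟩)), fun p hp => ?_⟩
  rw [eq_inv_smul_iff, TTC.tri]
  simp only [mul_smul, ← rf_def]
  have a1 := h.rf_par hn hx hy kx ky
  have a2 := h.rf_par hn hy hz ky kz
  have a3 := h.rf_par hn hz hx kz kx
  have b1 := h.rf_par hn hx'.1 hy'.1 kx' ky'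
  have b2 := h.rf_par hn hy'.1 hz'.1 ky' kz'
  have b3 := h.rf_par hn hz'.1 hx'.1 kz' kx'
  rw [un_tv_lo] at a1 a2 a3
  rw [un_tv_hi] at b1 b2 b3
  have kp : Par (ψ p) (unmk (ψ p 0, ψ p 1, ψ p 2) (ψ p 3, ψ p 4, ψ p 5)) :=
    ⟨1, one_ne_zero, by
      funext i
      fin_cases i <;> simp [unmk]⟩
  have n1 := h.cl _ (h.cl _ hx _ hy) _ hp
  have n2 := h.cl _ (h.cl _ hy _ hz) _ n1
  have n3 := h.cl _ (h.cl _ hz _ hx) _ n2
  have n4 := h.cl _ hx _ n3
  have n5 := h.cl _ m3.1 _ n4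
  have n6 := h.cl _ m2.1 _ n5
  have n7 := h.cl _ m1.1 _ n6
  have := h.rf_par hn hx'.1 n7 kx' (h.rf_par hn m1.1 n6 b3 (h.rf_par hn m2.1 n5 b2
    (h.rf_par hn m3.1 n4 b1 (h.rf_par hn hx n3 kx (h.rf_par hn (h.cl _ hz _ hx) n2 a3
      (h.rf_par hn (h.cl _ hy _ hz) n1 a2 (h.rf_par hn (h.cl _ hx _ hy) hp a1 kp)))))))
  simp only [un_tv_lo, un_tv_hi, key] at this
  refine h.eq_par (h.cl _ hx'.1 _ n7) hp this ⟨l, hl, ?_⟩
  funext i
  fin_cases i <;> simp [unmk]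

end Cfsg.Agent.H3.TTC
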